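import Mathlib
import Cfsg.Agent.Lib.Helper54.OrthLagMinus

/-!
# S2717 foundation (helper51): the standard model of an involutory graph-field automorphism

For an automorphism `σ` of `F` and `lam : F` with `σ lam ≠ lam`, `σ (σ lam) = lam`, the binary form
`z₁² + a z₁ z₂ + b z₂²` with `a = -(lam + σ lam)`, `b = lam * σ lam` has `σ`-fixed coefficients and
splits over `F`; `gT` is the matrix of an isometry from the hyperbolic form of rank `k + 1` onto the
minus-type form with these coefficients.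
-/

set_option autoImplicit false

namespace Cfsg.Agent.Lib.Helper51.GF

open Cfsg Matrix Cfsg.Agent.Lib.Helper51 Cfsg.Agent.Lib.Helper54

variable {F : Type*} [Field F]

/-- `4b - a²` for `a = -(lam + σ lam)`, `b = lam * σ lam` -/
def gDd (σ : F ≃+* F) (lam : F) : F := -(lam - σ lam) ^ 2

/-- the coefficient `a` -/
def gA (σ : F ≃+* F) (lam : F) : F := -(lam + σ lam)

/-- the coefficient `b` -/
def gB (σ : F ≃+* F) (lam : F) : F := lam * σ lam

/-- the matrix of the isometry from the hyperbolic space to the minus-type space -/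
noncomputable def gT (k : ℕ) (σ : F ≃+* F) (lam : F) :
    Matrix ((Fin k ⊕ Fin k) ⊕ Fin 2) (Fin (k + 1) ⊕ Fin (k + 1)) F :=
  LinearMap.toMatrix' (plusToMinus k lam 1 (σ lam / gDd σ lam) (1 / gDd σ lam))

/-- the non-singular vector `e_last - Dd • f_last` whose reflection is the twist of `gT` -/
def gV (k : ℕ) (σ : F ≃+* F) (lam : F) : Fin (k + 1) ⊕ Fin (k + 1) → F :=
  Pi.single (Sum.inl (Fin.last k)) 1 - gDd σ lam • Pi.single (Sum.inr (Fin.last k)) 1

theorem gDd_ne (σ : F ≃+* F) (lam : F) (hne : σ lam ≠ lam) : gDd σ lam ≠ 0 := by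
  unfold gDd
  intro h
  have h1 : (lam - σ lam) ^ 2 = 0 := by linear_combination -h
  exact hne (sub_eq_zero.mp ((pow_eq_zero_iff (two_ne_zero)).mp h1)).symm

theorem gDd_eq (σ : F ≃+* F) (lam : F) : gDd σ lam = 4 * gB σ lam - gA σ lam ^ 2 := by
  unfold gDd gA gB
  ring

theorem gDd_fixed (σ : F ≃+* F) (lam : F) (hσσ : σ (σ lam) = lam) : σ (gDd σ lam) = gDd σ lam := by
  unfold gDd
  rw [map_neg, map_pow, map_sub, hσσ]
  ring

theorem gA_fixed (σ : F ≃+* F) (lam : F) (hσσ : σ (σ lam) = lam) : σ (gA σ lam) = gA σ lam := by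
  unfold gA
  rw [map_neg, map_add, hσσ]
  ring

theorem gB_fixed (σ : F ≃+* F) (lam : F) (hσσ : σ (σ lam) = lam) : σ (gB σ lam) = gB σ lam := by
  unfold gB
  rw [map_mul, hσσ]
  ring

theorem gA_disc (σ : F ≃+* F) (lam : F) (hne : σ lam ≠ lam) :
    gA σ lam ^ 2 - 4 * gB σ lam ≠ 0 := by
  have h := gDd_ne σ lam hne
  rw [gDd_eq] at h
  intro h0
  apply h
  linear_combination -h0

theorem g_hp (σ : F ≃+* F) (lam : F) :
    lam ^ 2 + gA σ lam * lam * 1 + gB σ lam * (1 : F) ^ 2 = 0 := by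
  unfold gA gB
  ring

theorem g_hq (σ : F ≃+* F) (lam : F) (hne : σ lam ≠ lam) :
    (σ lam / gDd σ lam) ^ 2 + gA σ lam * (σ lam / gDd σ lam) * (1 / gDd σ lam) +
      gB σ lam * (1 / gDd σ lam) ^ 2 = 0 := by
  have h := gDd_ne σ lam hne
  field_simp
  unfold gA gB
  ring

theorem g_hpq (σ : F ≃+* F) (lam : F) (hne : σ lam ≠ lam) :
    2 * lam * (σ lam / gDd σ lam) + gA σ lam * (lam * (1 / gDd σ lam) + (σ lam / gDd σ lam) * 1) +
      2 * gB σ lam * 1 * (1 / gDd σ lam) = 1 := by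
  have h := gDd_ne σ lam hne
  field_simp
  unfold gA gB gDd
  ring

/-- `gT` is an isometry from the hyperbolic form to the minus-type form -/
theorem gT_isometry (k : ℕ) (σ : F ≃+* F) (lam : F) (hne : σ lam ≠ lam)
    (v : Fin (k + 1) ⊕ Fin (k + 1) → F) :
    QMinus k F (gA σ lam) (gB σ lam) (gT k σ lam *ᵥ v) = QPlus (k + 1) F v := by
  unfold gT
  rw [LinearMap.toMatrix'_mulVec]
  exact Q_plusToMinus (gA σ lam) (gB σ lam) lam 1 _ _ (g_hp σ lam) (g_hq σ lam hne)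
    (g_hpq σ lam hne) v

/-- `gT` has a two-sided inverse -/
theorem exists_gT_inv (k : ℕ) (σ : F ≃+* F) (lam : F) (hne : σ lam ≠ lam) :
    ∃ T' : Matrix (Fin (k + 1) ⊕ Fin (k + 1)) ((Fin k ⊕ Fin k) ⊕ Fin 2) F,
      gT k σ lam * T' = 1 ∧ T' * gT k σ lam = 1 := by
  obtain ⟨E, hE⟩ : ∃ E : (Fin (k + 1) ⊕ Fin (k + 1) → F) ≃ₗ[F] ((Fin k ⊕ Fin k) ⊕ Fin 2 → F),
      (E : (Fin (k + 1) ⊕ Fin (k + 1) → F) →ₗ[F] ((Fin k ⊕ Fin k) ⊕ Fin 2 → F)) =
        plusToMinus k lam 1 (σ lam / gDd σ lam) (1 / gDd σ lam) := by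
    refine ⟨plusMinusEquiv (gA σ lam) (gB σ lam) lam 1 _ _ (g_hp σ lam) (g_hq σ lam hne)
      (g_hpq σ lam hne), ?_⟩
    ext x : 1
    unfold plusMinusEquiv
    rfl
  refine ⟨LinearMap.toMatrix' (E.symm : ((Fin k ⊕ Fin k) ⊕ Fin 2 → F) →ₗ[F] _), ?_, ?_⟩
  · unfold gT
    rw [← hE, ← LinearMap.toMatrix'_comp, LinearEquiv.comp_coe, LinearEquiv.symm_trans_self,
      LinearEquiv.refl_toLinearMap, LinearMap.toMatrix'_id]
  · unfold gT
    rw [← hE, ← LinearMap.toMatrix'_comp, LinearEquiv.comp_coe, LinearEquiv.self_trans_symm,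
      LinearEquiv.refl_toLinearMap, LinearMap.toMatrix'_id]

theorem gV_Q (k : ℕ) (σ : F ≃+* F) (lam : F) :
    QPlus (k + 1) F (gV k σ lam) = -gDd σ lam := by
  rw [QPlus_apply, Finset.sum_eq_single (Fin.last k)]
  · simp [gV]
  · intro i _ hi
    simp [gV, hi]
  · intro h
    exact absurd (Finset.mem_univ _) h

theorem gV_Q_ne (k : ℕ) (σ : F ≃+* F) (lam : F) (hne : σ lam ≠ lam) :
    QPlus (k + 1) F (gV k σ lam) ≠ 0 := by
  rw [gV_Q]
  exact neg_ne_zero.mpr (gDd_ne σ lam hne)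

theorem gV_fixed (k : ℕ) (σ : F ≃+* F) (lam : F) (hσσ : σ (σ lam) = lam) (i) :
    σ (gV k σ lam i) = gV k σ lam i := by
  have hD := gDd_fixed σ lam hσσ
  unfold gV
  simp only [Pi.sub_apply, Pi.smul_apply, Pi.single_apply, smul_eq_mul]
  split_ifs <;> simp [hD]

/-- the binary form is anisotropic over the fixed field -/
theorem aniso_fixed {F₀ : Type*} [Field F₀] (e : F₀ →+* F) (σ : F ≃+* F) (lam : F)
    (hσσ : σ (σ lam) = lam) (hne : σ lam ≠ lam) (he : ∀ x : F, σ x = x ↔ x ∈ Set.range e)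
    (a₀ b₀ : F₀) (ha : e a₀ = gA σ lam) (hb : e b₀ = gB σ lam) (z₁ z₂ : F₀)
    (h : z₁ ^ 2 + a₀ * z₁ * z₂ + b₀ * z₂ ^ 2 = 0) : z₁ = 0 ∧ z₂ = 0 := by
  have h1 := congrArg e h
  simp only [map_add, map_mul, map_pow, map_zero, ha, hb] at h1
  have h2 : (e z₁ - lam * e z₂) * (e z₁ - σ lam * e z₂) = 0 := by
    unfold gA gB at h1
    linear_combination h1
  have hz2 : z₂ = 0 := by
    by_contra hz
    have hz' : e z₂ ≠ 0 := fun h0 => hz (e.injective (by rw [h0, map_zero]))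
    rcases mul_eq_zero.mp h2 with h3 | h3
    · have h4 : lam = e (z₁ / z₂) := by
        rw [map_div₀]
        field_simp
        linear_combination -h3
      exact hne ((he lam).2 ⟨_, h4.symm⟩)
    · have h4 : σ lam = e (z₁ / z₂) := by
        rw [map_div₀]
        field_simp
        linear_combination -h3
      have h5 := (he (σ lam)).2 ⟨_, h4.symm⟩
      rw [hσσ] at h5
      exact hne h5.symm
  subst hz2
  refine ⟨?_, rfl⟩
  have h3 : z₁ ^ 2 = 0 := by simpa using h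
  exact (pow_eq_zero_iff two_ne_zero).mp h3

end Cfsg.Agent.Lib.Helper51.GF
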