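import Mathlib
import Cfsg.Agent.Lib.Helper51.GFDefs

/-!
# S2717 foundation, part 2 (helper51): the diagonal similarity `gH` and the class predicate
for a general form
-/

set_option autoImplicit false

namespace Cfsg.Agent.Lib.Helper51.GF

open Cfsg Matrix

variable {F : Type*} [Field F]

/-- the diagonal matrix with entries `c` on `e_i` (`i < k`), `nu1` on `e_last`, `1` on `f_i`
(`i < k`) and `nu2` on `f_last` -/
def gH (k : ℕ) (c nu1 nu2 : F) :
    Matrix (Fin (k + 1) ⊕ Fin (k + 1)) (Fin (k + 1) ⊕ Fin (k + 1)) F :=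
  Matrix.diagonal (Sum.elim (Fin.lastCases nu1 (fun _ => c)) (Fin.lastCases nu2 (fun _ => 1)))

/-- `Cfsg.IsGraphFieldAutClassPOmegaPlus` for a form given as a function (definitionally the
Prelude predicate when `q = quadFormPlus m F`) -/
def gfClassOf {m : ℕ} (q : (Fin m ⊕ Fin m → F) → F) (β : MulAut (POmega F q)) : Prop :=
  ∃ (α γ φ : MulAut (POmega F q)) (σ : F ≃+* F) (v : Fin m ⊕ Fin m → F)
      (r : GL (Fin m ⊕ Fin m) F),
    σ ≠ RingEquiv.refl F ∧ q v ≠ 0 ∧ (∀ i, σ (v i) = v i) ∧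
    (r : Matrix (Fin m ⊕ Fin m) (Fin m ⊕ Fin m) F) = reflectionMatrix q v ∧
    IsInducedBySemilinearPOmega q r (RingEquiv.refl F) γ ∧
    IsFieldAutPOmegaOf q σ φ ∧ α * β * α⁻¹ = γ * φ

theorem gfClassOf_iff {m : ℕ} (β : MulAut (POmega F (quadFormPlus m F))) :
    gfClassOf (quadFormPlus m F) β ↔ IsGraphFieldAutClassPOmegaPlus m β := Iff.rfl

/-- `Cfsg.inndiagPOmegaPlus` for a form given as a function -/
def gInndiag {m : ℕ} (q : (Fin m ⊕ Fin m → F) → F) : Subgroup (MulAut (POmega F q)) :=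
  autSubgroupOf (fun β : POmega F q ≃* POmega F q =>
    ∃ g : GL (Fin m ⊕ Fin m) F, g ∈ Geo.quadSimilarityGroup (F := F) q ∧
      PreservesSingularClasses q (g : Matrix (Fin m ⊕ Fin m) (Fin m ⊕ Fin m) F) ∧
      IsInducedBySemilinearPOmega q g (RingEquiv.refl F) β)

theorem gInndiag_eq (m : ℕ) : gInndiag (quadFormPlus m F) = inndiagPOmegaPlus m F := rfl

/-- `Cfsg.inndiagPOmegaMinus` for a form given as a function -/
def gInndiagM (m : ℕ) (a b : F) (q : ((Fin m ⊕ Fin m) ⊕ Fin 2 → F) → F) :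
    Subgroup (MulAut (POmega F q)) :=
  autSubgroupOf (fun β : POmega F q ≃* POmega F q =>
    ∃ g : GL ((Fin m ⊕ Fin m) ⊕ Fin 2) F, g ∈ Geo.quadSimilarityGroup (F := F) q ∧
      PreservesSingularClassesMinus m a b
        (g : Matrix ((Fin m ⊕ Fin m) ⊕ Fin 2) ((Fin m ⊕ Fin m) ⊕ Fin 2) F) ∧
      IsInducedBySemilinearPOmega q g (RingEquiv.refl F) β)

theorem gInndiagM_eq (m : ℕ) (a b : F) :
    gInndiagM m a b (quadFormMinus m F a b) = inndiagPOmegaMinus m F a b := rfl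

end Cfsg.Agent.Lib.Helper51.GF
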