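import Mathlib
import Cfsg.Prelude.Def_GeometricClasses
import Cfsg.Agent.Lib.Helper97.ASSK

/-!
# Project SU8 (S5820, architect helper50), piece SKB (helper51)

A symplectic-type group `L` with `|L ∩ scalars| = 2` in odd characteristic fixes a non-degenerate
bilinear form: the first half of `Cfsg.Agent.Lib.Helper97.ASSK.SK` (averaging: `∑ tr(g)² = 2 n²`
is non-zero, so there is an invertible `S` with `xᵀ S x = S` on `L`), with `f u v = u ⬝ᵥ S v`.
-/

set_option autoImplicit false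

namespace Cfsg.Agent.Lib.Helper51.SU8SKB

open Matrix Cfsg.Geo Cfsg.Agent.Lib.Helper71.Asch

variable {n : ℕ} {F : Type*} [Field F] [Fintype F] {q : ℕ}

/-- SKB: a symplectic-type group with centre of order `2` fixes a non-degenerate bilinear
form (first half of the proof of `Helper97.ASSK.SK`). -/
theorem SKB (hn : 3 ≤ n) (H L : Subgroup (GL (Fin n) F)) (h : SymT H L) (h2 : (2 : F) ≠ 0)
    (hn0 : (n : F) ≠ 0) (htr : ∀ x ∈ L, x ∉ scalars (Fin n) F → Matrix.trace x.1 = 0)
    (hz : Nat.card ↥(L ⊓ scalars (Fin n) F) = 2) :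
    ∃ f : (Fin n → F) → (Fin n → F) → F, IsBilinearForm f ∧ IsNondegenerateForm f ∧
      FixesForm (matrixSet L) f := by
  classical
  obtain ⟨s, hsdef⟩ : ∃ s : Finset (GL (Fin n) F), s = Finset.univ.filter (fun g => g ∈ L) :=
    ⟨_, rfl⟩
  have hs : ∀ g, g ∈ s ↔ g ∈ L := by
    intro g
    rw [hsdef, Finset.mem_filter]
    exact ⟨fun hg => hg.2, fun hg => ⟨Finset.mem_univ g, hg⟩⟩
  -- the sum of the squares of the traces
  have hcard : (s.filter (fun g => g ∈ scalars (Fin n) F)).card = 2 := by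
    rw [← hz, Nat.card_eq_fintype_card]
    symm
    apply Fintype.card_of_subtype
    intro g
    rw [Finset.mem_filter, hs]
    rfl
  have hterm : ∀ g ∈ s.filter (fun g => g ∈ scalars (Fin n) F),
      Matrix.trace g.1 * Matrix.trace g.1 = (n : F) * n := by
    intro g hg
    rw [Finset.mem_filter, hs] at hg
    obtain ⟨c, hc⟩ := (mem_scalars_iff g).mp hg.2
    have hg2 : g ^ 2 = 1 := by
      have h1 : (⟨g, hg⟩ : ↥(L ⊓ scalars (Fin n) F)) ^ 2 = 1 := by
        rw [← hz]
        exact pow_card_eq_one'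
      have h3 := congrArg Subtype.val h1
      exact h3
    have hcc : (c : F) * c = 1 := by
      have h1 : (g ^ 2 : GL (Fin n) F).1 = 1 := by rw [hg2, Units.val_one]
      rw [pow_two, Units.val_mul, hc, Matrix.smul_mul, Matrix.mul_smul, one_mul, smul_smul] at h1
      have h3 := congrFun (congrFun h1 ⟨0, by omega⟩) ⟨0, by omega⟩
      rw [Matrix.smul_apply, Matrix.one_apply_eq, smul_eq_mul, mul_one] at h3
      exact h3
    rw [hc, Matrix.trace_smul, Matrix.trace_one, Fintype.card_fin, smul_eq_mul]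
    calc (c : F) * n * (c * n) = (c * c) * (n * n) := by ring
      _ = n * n := by rw [hcc, one_mul]
  have hsum : ∑ g ∈ s, Matrix.trace g.1 * (RingHom.id F) (Matrix.trace g.1) ≠ 0 := by
    have h1 : ∑ g ∈ s, Matrix.trace g.1 * (RingHom.id F) (Matrix.trace g.1) =
        ∑ g ∈ s.filter (fun g => g ∈ scalars (Fin n) F), Matrix.trace g.1 * Matrix.trace g.1 := by
      rw [Finset.sum_filter]
      apply Finset.sum_congr rfl
      intro g hg
      by_cases hgs : g ∈ scalars (Fin n) F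
      · rw [if_pos hgs]
        rfl
      · rw [if_neg hgs, htr g ((hs g).mp hg) hgs, zero_mul]
    rw [h1, Finset.sum_congr rfl hterm, Finset.sum_const, hcard, nsmul_eq_mul]
    have h3 : ((2 : ℕ) : F) = 2 := by norm_num
    rw [h3]
    exact mul_ne_zero h2 (mul_ne_zero hn0 hn0)
  obtain ⟨S, hS0, hSinv⟩ := Cfsg.Agent.Lib.Helper97.ASSK.AVG L (RingHom.id F) s hs hsum
  have hSinv' : ∀ x ∈ L, x.1ᵀ * S * x.1 = S := by
    intro x hx
    have h1 := hSinv x hx
    have h3 : x.1.map (RingHom.id F) = x.1 := by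
      ext i j
      rfl
    rw [h3] at h1
    exact h1
  have hSu : IsUnit S := by
    apply Cfsg.Agent.Lib.Helper97.ASSK.AVGinv L h.abs.1 (RingEquiv.refl F) S hS0
    intro x hx
    have h3 : x.1.map (RingEquiv.refl F) = x.1 := by
      ext i j
      rfl
    rw [h3]
    exact hSinv' x hx
  refine ⟨fun u v => u ⬝ᵥ (S *ᵥ v), ?_, ?_, ?_⟩
  · have h1 := Cfsg.Agent.Lib.Helper97.ASSK.gram_bilinear S 1
    simp only [one_mul] at h1
    exact h1
  · intro v hv
    constructor
    · exact Cfsg.Agent.Lib.Helper97.ASSK.gram_exists_ne S hSu v hv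
    · obtain ⟨x, hx⟩ := Cfsg.Agent.Lib.Helper97.ASSK.gram_exists_ne Sᵀ
        ((Matrix.isUnit_transpose S).mpr hSu) v hv
      refine ⟨x, ?_⟩
      show v ⬝ᵥ (S *ᵥ x) ≠ 0
      rw [Matrix.dotProduct_mulVec, ← Matrix.mulVec_transpose, dotProduct_comm]
      exact hx
  · rintro _ ⟨x, hx, rfl⟩ u v
    show (x.1 *ᵥ u) ⬝ᵥ (S *ᵥ (x.1 *ᵥ v)) = u ⬝ᵥ (S *ᵥ v)
    rw [Cfsg.Agent.Lib.Helper28.ASUFQ.dot_conj, hSinv' x hx]

end Cfsg.Agent.Lib.Helper51.SU8SKB
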