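import Cfsg.Agent.Lib.Helper10.TH0

set_option autoImplicit false

namespace Cfsg.Agent.Lib.Helper51.THC1

open Matrix Complex UpperHalfPlane ModularForm MatrixGroups Cfsg.Agent.Lib.Helper10.TH
open scoped Manifold Real

variable {B : Matrix (Fin 24) (Fin 24) ℤ}

/-- C1 (from A4, A5 as hypotheses) -/
theorem exists_tri_of_uhyp_of
    (h4 : ∀ (A : Matrix (Fin 24) (Fin 24) ℝ), A.IsSymm →
      (∀ x : Fin 24 → ℝ, x ≠ 0 → 0 < x ⬝ᵥ (A *ᵥ x)) →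
      ∃ T : Tri 24, (∀ x : Fin 24 → ℝ, T.Q x = x ⬝ᵥ (A *ᵥ x)) ∧
        ∀ x : Fin 24 → ℝ, T.grad x = A *ᵥ x)
    (h5 : ∀ (B : Matrix (Fin 24) (Fin 24) ℤ), B.IsSymm →
      (∀ x : Fin 24 → ℤ, x ≠ 0 → 0 < x ⬝ᵥ (B *ᵥ x)) → B.det ≠ 0 →
      ∀ x : Fin 24 → ℝ, x ≠ 0 → 0 < x ⬝ᵥ ((B.map (Int.cast : ℤ → ℝ)) *ᵥ x))
    (hB : UHyp B) :
    ∃ T : Tri 24, (∀ x : Fin 24 → ℤ, T.Q (fun i => (x i : ℝ)) = (qf B x : ℝ)) ∧
      ∀ x : Fin 24 → ℤ, T.grad (fun i => (x i : ℝ)) = fun i => ((B *ᵥ x) i : ℝ) := by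
  have hsymm : (B.map (Int.cast : ℤ → ℝ)).IsSymm := by
    ext i j
    simp only [Matrix.transpose_apply, Matrix.map_apply]
    rw [← hB.symm.apply i j]
  have hpos := h5 B hB.symm (fun x hx => hB.pos x hx) (by rw [hB.det]; exact one_ne_zero)
  obtain ⟨T, hQ, hg⟩ := h4 _ hsymm hpos
  have hmv : ∀ x : Fin 24 → ℤ, (B.map (Int.cast : ℤ → ℝ)) *ᵥ (fun i => (x i : ℝ)) =
      fun i => ((B *ᵥ x) i : ℝ) := by
    intro x
    funext i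
    simp only [Matrix.mulVec, dotProduct, Matrix.map_apply]
    push_cast
    rfl
  refine ⟨T, ?_, ?_⟩
  · intro x
    rw [hQ, hmv]
    simp only [qf, dotProduct]
    push_cast
    rfl
  · intro x
    rw [hg, hmv]

end Cfsg.Agent.Lib.Helper51.THC1
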