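import Cfsg.Agent.Lib.Helper51.OTransport
import Cfsg.Agent.Lib.Helper51.Gram

set_option autoImplicit false
set_option linter.unusedSectionVars false

/-!
Transporting unipotent isometries of abstract quadratic forms to the standard elliptic form.
-/

namespace Cfsg.Agent.Lib.Helper51.OMinus

open Cfsg.Agent.Lib.Helper51.Jordan Cfsg.Agent.Lib.Helper51.JType
open Cfsg.Agent.Lib.Helper51.JOrth Cfsg.Agent.Lib.Helper51.ODisc
open Cfsg.Agent.Lib.Helper51.OTransport
open Cfsg.Agent.Lib.Helper51 (QMinus coe_QMinus QMinus_apply polar_QMinus)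
open scoped Matrix

universe v

variable {F : Type v} [Field F]

/-- A Jordan type with an odd part (even parts of even multiplicity, even total size) is realised
with any prescribed discriminant. -/
theorem ord_any (h2 : (2 : F) ≠ 0) (μ : Multiset ℕ) (hpos : ∀ c ∈ μ, 0 < c)
    (hcond : ∀ j, Even j → Even (μ.count j)) (hodd : ∃ a ∈ μ, Odd a) (d : ℕ)
    (hsum : μ.sum = 2 * d) (δ : F) (hδ : δ ≠ 0) : ORD F μ δ := by
  obtain ⟨a, ha, hao⟩ := hodd
  have e : a ::ₘ 0 + μ.erase a = μ := by
    rw [Multiset.cons_add, zero_add, Multiset.cons_erase ha]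
  have hs : a + (μ.erase a).sum = 2 * d := by
    rw [← hsum, ← e]
    simp
  have hcond' : ∀ j, Even j → 0 < j → Even ((μ.erase a).count j) := by
    intro j hj _
    rw [Multiset.count_erase_of_ne]
    · exact hcond j hj
    · rintro rfl
      exact absurd hao (by rw [Nat.not_odd_iff_even]; exact hj)
  have hO1 : OReal F (μ.erase a) :=
    Cfsg.Agent.S2583.oReal_of_cond h2 _ _ rfl
      (fun c hc => hpos c (Multiset.mem_of_mem_erase hc)) hcond'
  have hodd1 : Odd (μ.erase a).sum := by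
    obtain ⟨r, hr⟩ := hao
    exact ⟨d - r - 1, by omega⟩
  have hO2 : OReal F (a ::ₘ 0) := Cfsg.Agent.S2583.oReal_odd h2 a hao
  have h3 := ord_add _ _ _ _ (ord_of_odd (a ::ₘ 0) (by simpa using hao) hO2 1 one_ne_zero)
    (ord_of_odd _ hodd1 hO1 δ hδ)
  rw [e, one_mul] at h3
  exact h3

/-- Shear of the last two coordinates. -/
noncomputable def shear (n : ℕ) (α β : F) (hβ : β ≠ 0) :
    (((Fin n ⊕ Fin n) ⊕ Fin 2) → F) ≃ₗ[F] (((Fin n ⊕ Fin n) ⊕ Fin 2) → F) where
  toFun c := Sum.elim (fun k => c (Sum.inl k))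
    ![c (Sum.inr 0) - α / β * c (Sum.inr 1), c (Sum.inr 1) / β]
  invFun c := Sum.elim (fun k => c (Sum.inl k))
    ![c (Sum.inr 0) + α * c (Sum.inr 1), β * c (Sum.inr 1)]
  map_add' x y := by
    funext k
    rcases k with k | k
    · simp
    · fin_cases k
      · simp; ring
      · simp; ring
  map_smul' t x := by
    funext k
    rcases k with k | k
    · simp
    · fin_cases k
      · simp; ring
      · simp; ring
  left_inv c := by
    funext k
    rcases k with k | k
    · simp
    · fin_cases k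
      · simp; field_simp; ring
      · simp; field_simp
  right_inv c := by
    funext k
    rcases k with k | k
    · simp
    · fin_cases k
      · simp; field_simp; ring
      · simp; field_simp

theorem shear_inl (n : ℕ) (α β : F) (hβ : β ≠ 0) (c : ((Fin n ⊕ Fin n) ⊕ Fin 2) → F)
    (k : Fin n ⊕ Fin n) : shear n α β hβ c (Sum.inl k) = c (Sum.inl k) := rfl

theorem shear_zero (n : ℕ) (α β : F) (hβ : β ≠ 0) (c : ((Fin n ⊕ Fin n) ⊕ Fin 2) → F) :
    shear n α β hβ c (Sum.inr 0) = c (Sum.inr 0) - α / β * c (Sum.inr 1) := rfl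

theorem shear_one (n : ℕ) (α β : F) (hβ : β ≠ 0) (c : ((Fin n ⊕ Fin n) ⊕ Fin 2) → F) :
    shear n α β hβ c (Sum.inr 1) = c (Sum.inr 1) / β := rfl

theorem QMinus_nondeg (h2 : (2 : F) ≠ 0) (n : ℕ) (a b : F)
    (hab : ∀ x y : F, x ^ 2 + a * x * y + b * y ^ 2 = 0 → x = 0 ∧ y = 0) :
    (QuadraticMap.polarBilin (QMinus n F a b)).Nondegenerate := by
  apply Cfsg.Agent.Lib.Helper51.nondegenerate_of_det_gram_ne_zero
  rw [Cfsg.Agent.Lib.Helper51.det_gram_QMinus]
  refine mul_ne_zero (pow_ne_zero _ (neg_ne_zero.mpr one_ne_zero)) ?_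
  intro h0
  have := (hab (-a / 2) 1 (by field_simp; linear_combination h0)).2
  exact one_ne_zero this

/-- A unipotent isometry of the standard elliptic form of each admissible Jordan type. -/
theorem exists_minus [Fintype F] (h2 : (2 : F) ≠ 0) (a b : F)
    (hab : ∀ x y : F, x ^ 2 + a * x * y + b * y ^ 2 = 0 → x = 0 ∧ y = 0)
    (μ : Multiset ℕ) (d : ℕ) (hd : 1 ≤ d) (hsum : μ.sum = 2 * d)
    (h : ORD F μ ((-1) ^ d * (a ^ 2 - 4 * b))) :
    ∃ U : Matrix ((Fin (d - 1) ⊕ Fin (d - 1)) ⊕ Fin 2) ((Fin (d - 1) ⊕ Fin (d - 1)) ⊕ Fin 2) F,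
      (∀ v, Cfsg.quadFormMinus (d - 1) F a b (U *ᵥ v) = Cfsg.quadFormMinus (d - 1) F a b v) ∧
      ∀ j, kap (Matrix.toLin' (U - 1)) j = kapM μ j := by
  have hD : a ^ 2 - 4 * b ≠ 0 := by
    intro h0
    have := (hab (-a / 2) 1 (by field_simp; linear_combination (-1 : F) * h0)).2
    exact one_ne_zero this
  have hDns : ∀ t : F, t ^ 2 ≠ a ^ 2 - 4 * b := by
    intro t ht
    have := (hab ((-a + t) / 2) 1 (by field_simp; linear_combination ht)).2
    exact one_ne_zero this
  obtain ⟨ι, _, _, M, A, ⟨s, hs, hdet⟩, hi, hc, hk⟩ := h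
  have hdet0 : (M + Mᵀ).det ≠ 0 := by
    rw [hdet]
    exact mul_ne_zero (mul_ne_zero (pow_ne_zero _ (neg_ne_zero.mpr one_ne_zero)) hD)
      (pow_ne_zero _ hs)
  have hnd := qf_nondeg M hdet0
  have hV : Module.finrank F (ι → F) = 2 * d := by
    rw [Module.finrank_fintype_fun_eq_card, hc, hsum]
  obtain ⟨e, rfl⟩ : ∃ e, d = e + 1 := ⟨d - 1, by omega⟩
  have hE' : ((-1 : F) ^ e) ^ 2 = 1 := by
    rw [← pow_mul, mul_comm, pow_mul]
    simp
  rcases Cfsg.Agent.S2616.result hd hV (qf M) hnd with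
    ⟨b₀, -, hb2, hb3⟩ | ⟨b₀, ζ, hζ, -, hb2, hb3, hb4, hx, hxy, hy⟩
  · exfalso
    obtain ⟨c, hc0, hG⟩ := Cfsg.Agent.S2620.gram_det (QuadraticMap.polarBilin (qf M)) b₀
    have hGram : (Matrix.of fun i j => QuadraticMap.polarBilin (qf M) (b₀ i) (b₀ j))
        = Matrix.fromBlocks 0 1 1 0 := by
      ext k l
      rw [Matrix.of_apply, QuadraticMap.polarBilin_apply_apply]
      rcases k with k | k <;> rcases l with l | l
      · rw [(hb3 k l).1]; simp
      · rw [hb2 k l]; simp [Matrix.one_apply]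
      · rw [QuadraticMap.polar_comm, hb2 l k]; simp [Matrix.one_apply, eq_comm]
      · rw [(hb3 k l).2]; simp
    rw [hGram, Cfsg.Agent.S2620.det_swap_blocks, qf_polar,
      LinearMap.BilinForm.toMatrix'_toBilin', hdet] at hG
    have h1 : (1 : F) = (a ^ 2 - 4 * b) * (c * s) ^ 2 := by
      linear_combination (-(-1 : F) ^ e) * hG - (1 - (a ^ 2 - 4 * b) * (c * s) ^ 2) * hE'
    have hcs : c * s ≠ 0 := mul_ne_zero hc0 hs
    apply hDns (1 / (c * s))
    field_simp
    linear_combination h1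
  · obtain ⟨c, hc0, hG⟩ := Cfsg.Agent.S2620.gram_det (QuadraticMap.polarBilin (qf M)) b₀
    have hGram : (Matrix.of fun i j => QuadraticMap.polarBilin (qf M) (b₀ i) (b₀ j))
        = Matrix.fromBlocks (Matrix.fromBlocks 0 1 1 0) 0 0 !![2, 1; 1, 2 * ζ] := by
      ext k l
      rw [Matrix.of_apply, QuadraticMap.polarBilin_apply_apply]
      rcases k with (k | k) | k <;> rcases l with (l | l) | l
      · rw [(hb3 k l).1]; simp
      · rw [hb2 k l]; simp [Matrix.one_apply]
      · rw [(hb4 k l).1]; simp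
      · rw [QuadraticMap.polar_comm, hb2 l k]; simp [Matrix.one_apply, eq_comm]
      · rw [(hb3 k l).2]; simp
      · rw [(hb4 k l).2]; simp
      · rw [QuadraticMap.polar_comm, (hb4 l k).1]; simp
      · rw [QuadraticMap.polar_comm, (hb4 l k).2]; simp
      · fin_cases k <;> fin_cases l
        · show QuadraticMap.polar ⇑(qf M) (b₀ (Sum.inr 0)) (b₀ (Sum.inr 0)) = _
          rw [QuadraticMap.polar_self, hx]; simp
        · show QuadraticMap.polar ⇑(qf M) (b₀ (Sum.inr 0)) (b₀ (Sum.inr 1)) = _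
          rw [hxy]; simp
        · show QuadraticMap.polar ⇑(qf M) (b₀ (Sum.inr 1)) (b₀ (Sum.inr 0)) = _
          rw [QuadraticMap.polar_comm, hxy]; simp
        · show QuadraticMap.polar ⇑(qf M) (b₀ (Sum.inr 1)) (b₀ (Sum.inr 1)) = _
          rw [QuadraticMap.polar_self, hy]; simp
    rw [hGram, Matrix.det_fromBlocks_zero₂₁, Cfsg.Agent.S2620.det_swap_blocks,
      Matrix.det_fin_two_of, qf_polar, LinearMap.BilinForm.toMatrix'_toBilin', hdet] at hG
    simp only [Nat.add_sub_cancel] at hG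
    have hE : 4 * ζ - 1 = (4 * b - a ^ 2) * (c * s) ^ 2 := by
      linear_combination ((-1 : F) ^ e) * hG
        - (4 * ζ - 1 - (4 * b - a ^ 2) * (c * s) ^ 2) * hE'
    have hcs : c * s ≠ 0 := mul_ne_zero hc0 hs
    have hD' : 4 * b - a ^ 2 ≠ 0 := fun h0 => hD (by linear_combination (-1 : F) * h0)
    have hEne : 4 * ζ - 1 ≠ 0 := by
      rw [hE]
      exact mul_ne_zero hD' (pow_ne_zero _ hcs)
    obtain ⟨α, β, hβ, h1, h2'⟩ : ∃ α β : F, β ≠ 0 ∧ 2 * α + β = a
        ∧ α ^ 2 + α * β + β ^ 2 * ζ = b := by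
      refine ⟨a / 2 + (4 * b - a ^ 2) * (c * s) / (2 * (4 * ζ - 1)),
        -((4 * b - a ^ 2) * (c * s)) / (4 * ζ - 1), ?_, ?_, ?_⟩
      · exact div_ne_zero (neg_ne_zero.mpr (mul_ne_zero hD' hcs)) hEne
      · field_simp
        ring
      · field_simp
        linear_combination (-(4 * b - a ^ 2) * (4 * ζ - 1)) * hE
    have hbk : ∀ k, b₀.equivFun (b₀ k) = Pi.single k 1 := by
      intro k
      funext j
      rw [Module.Basis.equivFun_self, Pi.single_apply]
      simp [eq_comm]
    obtain ⟨T, hTdef⟩ : ∃ T : (ι → F) ≃ₗ[F] (((Fin (e + 1 - 1) ⊕ Fin (e + 1 - 1)) ⊕ Fin 2) → F),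
        ∀ v, T v = shear (e + 1 - 1) α β hβ (b₀.equivFun v) :=
      ⟨b₀.equivFun ≪≫ₗ shear (e + 1 - 1) α β hβ, fun v => rfl⟩
    have hT : ∀ v, QMinus (e + 1 - 1) F a b (T v) = qf M v := by
      intro v
      have := eq_of_polar_basis h2 ((QMinus (e + 1 - 1) F a b).comp
        (T : (ι → F) →ₗ[F] (((Fin (e + 1 - 1) ⊕ Fin (e + 1 - 1)) ⊕ Fin 2) → F))) (qf M) b₀ ?_ v
      · simpa [QuadraticMap.comp_apply] using this
      · intro k l
        have e1 : QuadraticMap.polar ⇑((QMinus (e + 1 - 1) F a b).comp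
            (T : (ι → F) →ₗ[F] (((Fin (e + 1 - 1) ⊕ Fin (e + 1 - 1)) ⊕ Fin 2) → F)))
              (b₀ k) (b₀ l)
            = QuadraticMap.polar ⇑(QMinus (e + 1 - 1) F a b)
              (shear (e + 1 - 1) α β hβ (Pi.single k 1))
              (shear (e + 1 - 1) α β hβ (Pi.single l 1)) := by
          simp only [QuadraticMap.polar, QuadraticMap.comp_apply, map_add, LinearEquiv.coe_coe,
            hTdef, hbk]
        rw [e1, polar_QMinus]
        simp only [shear_inl, shear_zero, shear_one]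
        rcases k with (k | k) | k <;> rcases l with (l | l) | l
        · rw [(hb3 k l).1]; simp
        · rw [hb2 k l]
          by_cases hkl : k = l
          · subst hkl
            simp [Pi.single_apply]
          · simp [Pi.single_apply, hkl, Ne.symm hkl]
        · rw [(hb4 k l).1]; simp
        · rw [QuadraticMap.polar_comm, hb2 l k]
          by_cases hkl : l = k
          · subst hkl
            simp [Pi.single_apply]
          · simp [Pi.single_apply, hkl, Ne.symm hkl]
        · rw [(hb3 k l).2]; simp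
        · rw [(hb4 k l).2]; simp
        · rw [QuadraticMap.polar_comm, (hb4 l k).1]; simp
        · rw [QuadraticMap.polar_comm, (hb4 l k).2]; simp
        · clear e1
          revert k l
          have e00 : QuadraticMap.polar ⇑(qf M) (b₀ (Sum.inr 0)) (b₀ (Sum.inr 0)) = 2 := by
            rw [QuadraticMap.polar_self, hx]; simp
          have e10 : QuadraticMap.polar ⇑(qf M) (b₀ (Sum.inr 1)) (b₀ (Sum.inr 0)) = 1 := by
            rw [QuadraticMap.polar_comm, hxy]
          have e11 : QuadraticMap.polar ⇑(qf M) (b₀ (Sum.inr 1)) (b₀ (Sum.inr 1)) = 2 * ζ := by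
            rw [QuadraticMap.polar_self, hy]; simp
          refine Fin.forall_fin_two.mpr ⟨Fin.forall_fin_two.mpr ⟨?_, ?_⟩,
            Fin.forall_fin_two.mpr ⟨?_, ?_⟩⟩
          · rw [e00]
            simp
          · rw [hxy]
            simp
            field_simp
            linear_combination (-1 : F) * h1
          · rw [e10]
            simp
            field_simp
            linear_combination (-1 : F) * h1
          · rw [e11]
            simp
            field_simp
            linear_combination (2 * α) * h1 - 2 * h2'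
    obtain ⟨U, hU1, hU2⟩ := transport (fun v => qf M v) (Cfsg.quadFormMinus (e + 1 - 1) F a b) 1 T
      (fun v => by rw [one_mul, ← hT, coe_QMinus]) A
      (fun v => by rw [qf_apply, qf_apply]; exact hi v)
    exact ⟨U, hU1, fun j => by rw [hU2, hk]⟩

end Cfsg.Agent.Lib.Helper51.OMinus
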