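import Mathlib
import Cfsg.Prelude.Def_GeometricClasses
import Cfsg.Agent.Lib.Helper71.OK1
import Cfsg.Agent.Lib.Helper52.Siegel

set_option autoImplicit false

namespace Cfsg.Agent.Lib.Helper51.OKH1

open Matrix Cfsg.Agent.Lib.Helper71.SpK Cfsg.Agent.Lib.Helper71.OK

theorem EM_comm {ι : Type} [Fintype ι] [DecidableEq ι] {F : Type*} [Field F]
    (Q : QuadraticForm F (ι → F)) (M : Subgroup (GL ι F)) {x x' y y' : ι → F}
    (hx : Q x = 0) (hx' : Q x' = 0) (hy : Q y = 0) (hy' : Q y' = 0)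
    (h1 : QuadraticMap.polar ⇑Q x x' = 0) (h2 : QuadraticMap.polar ⇑Q y y' = 0)
    (h3 : QuadraticMap.polar ⇑Q x y = 0) (h4 : QuadraticMap.polar ⇑Q x y' = 0)
    (h5 : QuadraticMap.polar ⇑Q x' y = 0) (h6 : QuadraticMap.polar ⇑Q x' y' = 1)
    (hA : EM Q M x x') (hC : EM Q M y y') : EM Q M x y := by
  obtain ⟨γA, hγA, hA⟩ := hA
  obtain ⟨γC, hγC, hC⟩ := hC
  have hinv : ∀ (γ : GL ι F) (u w : ι → F), Q u = 0 → QuadraticMap.polar ⇑Q u w = 0 →
      (γ : Matrix ι ι F) = Cfsg.Agent.Lib.Helper52.eichMat Q u w →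
      ((γ⁻¹ : GL ι F) : Matrix ι ι F) = Cfsg.Agent.Lib.Helper52.eichMat Q u (-w) := by
    intro γ u w hu huw hγ
    have h := Cfsg.Agent.Lib.Helper52.eichMat_mul Q u w (-w) hu huw
      (by rw [QuadraticMap.polar_neg_right, huw, neg_zero])
    rw [add_neg_cancel, Cfsg.Agent.Lib.Helper52.eichMat_zero, ← hγ] at h
    have e : ((γ⁻¹ : GL ι F) : Matrix ι ι F) = ((γ⁻¹ : GL ι F) : Matrix ι ι F) *
        ((γ : Matrix ι ι F) * Cfsg.Agent.Lib.Helper52.eichMat Q u (-w)) := by rw [h, mul_one]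
    rw [e, ← mul_assoc, ← Units.val_mul, inv_mul_cancel, Units.val_one, one_mul]
  have hAinv := hinv γA x x' hx h1 hA
  have hCinv := hinv γC y y' hy h2 hC
  refine ⟨γC * γA * γC⁻¹ * γA⁻¹,
    M.mul_mem (M.mul_mem (M.mul_mem hγC hγA) (M.inv_mem hγC)) (M.inv_mem hγA), ?_⟩
  rw [Units.val_mul, Units.val_mul, Units.val_mul, hAinv, hCinv, hA, hC]
  apply Matrix.mulVec_injective
  funext t
  have exx : QuadraticMap.polar ⇑Q x x = 0 := by
    rw [QuadraticMap.polar_self, hx, smul_zero]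
  have ex'x' : QuadraticMap.polar ⇑Q x' x' = 0 := by
    rw [QuadraticMap.polar_self, hx', smul_zero]
  have eyy : QuadraticMap.polar ⇑Q y y = 0 := by
    rw [QuadraticMap.polar_self, hy, smul_zero]
  have ey'y' : QuadraticMap.polar ⇑Q y' y' = 0 := by
    rw [QuadraticMap.polar_self, hy', smul_zero]
  have h1' : QuadraticMap.polar ⇑Q x' x = 0 := by rw [QuadraticMap.polar_comm]; exact h1
  have h2' : QuadraticMap.polar ⇑Q y' y = 0 := by rw [QuadraticMap.polar_comm]; exact h2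
  have h3' : QuadraticMap.polar ⇑Q y x = 0 := by rw [QuadraticMap.polar_comm]; exact h3
  have h4' : QuadraticMap.polar ⇑Q y' x = 0 := by rw [QuadraticMap.polar_comm]; exact h4
  have h5' : QuadraticMap.polar ⇑Q y x' = 0 := by rw [QuadraticMap.polar_comm]; exact h5
  have h6' : QuadraticMap.polar ⇑Q y' x' = 1 := by rw [QuadraticMap.polar_comm]; exact h6
  rw [← Matrix.mulVec_mulVec, ← Matrix.mulVec_mulVec, ← Matrix.mulVec_mulVec]
  simp only [Cfsg.Agent.Lib.Helper52.eichMat_mulVec, QuadraticMap.polar_add_right,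
    QuadraticMap.polar_sub_right, QuadraticMap.polar_smul_right, QuadraticMap.polar_neg_right,
    QuadraticMap.polar_neg_left, QuadraticMap.map_neg,
    hx', hy, hy', h1, h2, h3, h4, h5, h6, h1', h2', h3', h4', h5', h6', exx, ex'x', eyy, ey'y',
    smul_eq_mul, mul_zero, zero_mul, mul_one, sub_zero, add_zero, zero_smul, neg_zero]
  module

end Cfsg.Agent.Lib.Helper51.OKH1
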