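import Mathlib
import Cfsg.Agent.Lib.Helper52.LPDefs
import Cfsg.Agent.Lib.Helper51.OAF

set_option autoImplicit false

namespace Cfsg.Agent.Lib.Helper51.LP3

open Module QuadraticMap Matrix
open Cfsg Cfsg.Agent.Lib.Helper51 Cfsg.Agent.Lib.Helper52 Cfsg.Agent.Lib.Helper54
open Cfsg.Agent.Lib.Helper52.LP

variable {ι : Type} [Fintype ι] [DecidableEq ι] {F : Type*} [Field F]

/-- transport of `sigSub` along a `σ`-compatible linear equivalence -/
theorem sigSub_map {κ : Type} [Fintype κ] [DecidableEq κ] (σ : F ≃+* F)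
    (L : (κ → F) ≃ₗ[F] (ι → F)) (hL : ∀ v, L (fun i => σ (v i)) = fun i => σ (L v i))
    (U : Submodule F (κ → F)) :
    sigSub σ (U.map (L : (κ → F) →ₗ[F] (ι → F))) =
      (sigSub σ U).map (L : (κ → F) →ₗ[F] (ι → F)) := by
  have hL' : ∀ v, L (fun i => σ.symm (v i)) = fun i => σ.symm (L v i) := by
    intro v
    have h := hL (fun i => σ.symm (v i))
    have e : (fun i => σ (σ.symm (v i))) = v := by
      funext i
      simp
    rw [e] at h
    rw [h]
    funext i
    simp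
  ext v
  rw [mem_sigSub, Submodule.mem_map, Submodule.mem_map]
  constructor
  · rintro ⟨x, hx, hxv⟩
    refine ⟨fun i => σ (x i), (sig_mem_sigSub σ U x).mpr hx, ?_⟩
    rw [LinearEquiv.coe_coe] at hxv ⊢
    rw [hL, hxv]
    funext i
    simp
  · rintro ⟨y, hy, rfl⟩
    refine ⟨fun i => σ.symm (y i), hy, ?_⟩
    rw [LinearEquiv.coe_coe]
    exact hL' y

theorem stdLag_finrank (m : ℕ) : finrank F ↥(stdLag m F) = m := by
  have e : ↥(stdLag m F) ≃ₗ[F] (Fin m → F) :=
    { toFun := fun x i => x.1 (Sum.inl i)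
      map_add' := fun x y => rfl
      map_smul' := fun c x => rfl
      invFun := fun a => ⟨Sum.elim a 0, fun k => rfl⟩
      left_inv := fun x => by
        apply Subtype.ext
        funext j
        rcases j with i | k
        · rfl
        · exact (x.2 k).symm
      right_inv := fun a => rfl }
  rw [e.finrank_eq, Module.finrank_fin_fun]

theorem split_stable {m : ℕ} (σ : F ≃+* F) (Q1 : QuadraticForm F (ι → F))
    (h : IsSplit m σ Q1) : ∃ W : Submodule F (ι → F), IsLag m Q1 W ∧ sigSub σ W = W := by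
  obtain ⟨L, c, hL, hQ⟩ := h
  refine ⟨(stdLag m F).map (L : (Fin m ⊕ Fin m → F) →ₗ[F] (ι → F)), ⟨?_, ?_⟩, ?_⟩
  · rw [LinearEquiv.finrank_map_eq, stdLag_finrank]
  · intro w hw
    obtain ⟨x, hx, rfl⟩ := Submodule.mem_map.mp hw
    rw [LinearEquiv.coe_coe, hQ]
    have : Cfsg.quadFormPlus m F x = 0 := by
      unfold Cfsg.quadFormPlus
      apply Finset.sum_eq_zero
      intro i _
      rw [hx i, mul_zero]
    rw [this, mul_zero]
  · rw [sigSub_map σ L hL]
    congr 1
    ext v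
    rw [mem_sigSub, mem_stdLag, mem_stdLag]
    constructor
    · intro h k
      have := h k
      simpa using this
    · intro h k
      rw [h k, map_zero]

/-- the totally singular subspace `y = 0`, `z₁ = s z₂` of the elliptic form -/
def Wt (k : ℕ) (s : F) : Submodule F ((Fin k ⊕ Fin k) ⊕ Fin 2 → F) where
  carrier := {v | (∀ i, v (Sum.inl (Sum.inr i)) = 0) ∧ v (Sum.inr 0) = s * v (Sum.inr 1)}
  add_mem' := by
    rintro a b ⟨ha, ha'⟩ ⟨hb, hb'⟩
    refine ⟨fun i => by rw [Pi.add_apply, ha i, hb i, add_zero], ?_⟩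
    rw [Pi.add_apply, Pi.add_apply, ha', hb', mul_add]
  zero_mem' := ⟨fun i => rfl, by simp⟩
  smul_mem' := by
    rintro c a ⟨ha, ha'⟩
    refine ⟨fun i => by rw [Pi.smul_apply, ha i, smul_zero], ?_⟩
    rw [Pi.smul_apply, Pi.smul_apply, ha', smul_eq_mul, smul_eq_mul]
    ring

/-- the subspace `y = 0`, `z = 0` -/
def W1 (k : ℕ) (F : Type*) [Field F] : Submodule F ((Fin k ⊕ Fin k) ⊕ Fin 2 → F) where
  carrier := {v | (∀ i, v (Sum.inl (Sum.inr i)) = 0) ∧ v (Sum.inr 0) = 0 ∧ v (Sum.inr 1) = 0}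
  add_mem' := by
    rintro a b ⟨ha, ha', ha''⟩ ⟨hb, hb', hb''⟩
    refine ⟨fun i => by rw [Pi.add_apply, ha i, hb i, add_zero], ?_, ?_⟩
    · rw [Pi.add_apply, ha', hb', add_zero]
    · rw [Pi.add_apply, ha'', hb'', add_zero]
  zero_mem' := ⟨fun i => rfl, rfl, rfl⟩
  smul_mem' := by
    rintro c a ⟨ha, ha', ha''⟩
    refine ⟨fun i => by rw [Pi.smul_apply, ha i, smul_zero], ?_, ?_⟩
    · rw [Pi.smul_apply, ha', smul_zero]
    · rw [Pi.smul_apply, ha'', smul_zero]

theorem finrank_Wt (k : ℕ) (s : F) : finrank F ↥(Wt k s) = k + 1 := by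
  have e : ↥(Wt k s) ≃ₗ[F] (Fin k → F) × F :=
    { toFun := fun x => (fun i => x.1 (Sum.inl (Sum.inl i)), x.1 (Sum.inr 1))
      map_add' := fun x y => rfl
      map_smul' := fun c x => rfl
      invFun := fun a => ⟨Sum.elim (Sum.elim a.1 0) (fun j => if j = 0 then s * a.2 else a.2),
        ⟨fun i => rfl, by simp⟩⟩
      left_inv := fun x => by
        apply Subtype.ext
        funext j
        rcases j with (i | i) | j
        · rfl
        · exact (x.2.1 i).symm
        · fin_cases j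
          · simp
            exact x.2.2.symm
          · simp
      right_inv := fun a => by
        apply Prod.ext
        · rfl
        · simp }
  rw [e.finrank_eq, Module.finrank_prod, Module.finrank_fin_fun, Module.finrank_self]

theorem finrank_W1 (k : ℕ) : finrank F ↥(W1 k F) = k := by
  have e : ↥(W1 k F) ≃ₗ[F] (Fin k → F) :=
    { toFun := fun x i => x.1 (Sum.inl (Sum.inl i))
      map_add' := fun x y => rfl
      map_smul' := fun c x => rfl
      invFun := fun a => ⟨Sum.elim (Sum.elim a 0) 0, ⟨fun i => rfl, rfl, rfl⟩⟩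
      left_inv := fun x => by
        apply Subtype.ext
        funext j
        rcases j with (i | i) | j
        · rfl
        · exact (x.2.1 i).symm
        · fin_cases j
          · exact x.2.2.1.symm
          · exact x.2.2.2.symm
      right_inv := fun a => rfl }
  rw [e.finrank_eq, Module.finrank_fin_fun]

theorem sigSub_Wt (k : ℕ) (σ : F ≃+* F) (s : F) : sigSub σ (Wt k s) = Wt k (σ s) := by
  ext v
  rw [mem_sigSub]
  constructor
  · rintro ⟨h1, h2⟩
    refine ⟨fun i => ?_, ?_⟩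
    · have := h1 i
      simpa using this
    · have := congrArg σ h2
      simpa using this
  · rintro ⟨h1, h2⟩
    refine ⟨fun i => ?_, ?_⟩
    · show σ.symm (v (Sum.inl (Sum.inr i))) = 0
      rw [h1 i, map_zero]
    · show σ.symm (v (Sum.inr 0)) = s * σ.symm (v (Sum.inr 1))
      rw [h2, map_mul, RingEquiv.symm_apply_apply]

theorem Wt_inf (k : ℕ) {s s' : F} (h : s ≠ s') : Wt k s ⊓ Wt k s' = W1 k F := by
  ext v
  constructor
  · rintro ⟨⟨h1, h2⟩, ⟨-, h3⟩⟩
    have h4 : (s - s') * v (Sum.inr 1) = 0 := by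
      rw [sub_mul, ← h2, ← h3, sub_self]
    have h5 : v (Sum.inr 1) = 0 := by
      rcases mul_eq_zero.mp h4 with h' | h'
      · exact absurd (sub_eq_zero.mp h') h
      · exact h'
    exact ⟨h1, by rw [h2, h5, mul_zero], h5⟩
  · rintro ⟨h1, h2, h3⟩
    exact ⟨⟨h1, by rw [h2, h3, mul_zero]⟩, ⟨h1, by rw [h2, h3, mul_zero]⟩⟩

theorem ell_swap (k : ℕ) (σ : F ≃+* F) (Q1 : QuadraticForm F (ι → F))
    (h : IsEll k σ Q1) (hex : ∃ W : Submodule F (ι → F), IsLag (k + 1) Q1 W) :
    ∃ W : Submodule F (ι → F), IsLag (k + 1) Q1 W ∧ finrank F ↥(W ⊓ sigSub σ W) = k := by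
  obtain ⟨L, c, ζ, hL, hζσ, hζ, hQ⟩ := h
  obtain ⟨W₀, hW₀r, hW₀⟩ := hex
  obtain ⟨t, ht⟩ : ∃ t : F, t ^ 2 + t + ζ = 0 := by
    by_contra hcon
    push Not at hcon
    have hab : ∀ z₁ z₂ : F, z₁ ^ 2 + 1 * z₁ * z₂ + ζ * z₂ ^ 2 = 0 → z₁ = 0 ∧ z₂ = 0 := by
      intro z₁ z₂ hz
      by_cases hz₂ : z₂ = 0
      · subst hz₂
        have h1 : z₁ ^ 2 = 0 := by simpa using hz
        exact ⟨(pow_eq_zero_iff two_ne_zero).mp h1, rfl⟩
      · exfalso
        apply hcon (z₁ / z₂)
        field_simp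
        linear_combination hz
    have hb := OAF.minus_bound 1 ζ hab k
      (W₀.map ((L.symm : (ι → F) ≃ₗ[F] _) : (ι → F) →ₗ[F] _)) (by
        intro x hx
        obtain ⟨w, hw, rfl⟩ := Submodule.mem_map.mp hx
        have h1 : Q1 w = 0 := hW₀ w hw
        have h2 := hQ (L.symm w)
        rw [LinearEquiv.apply_symm_apply, h1] at h2
        rw [LinearEquiv.coe_coe, QMinus_apply]
        rcases mul_eq_zero.mp h2.symm with h' | h'
        · exact absurd h' c.ne_zero
        · exact h')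
    rw [LinearEquiv.finrank_map_eq, hW₀r] at hb
    omega
  have hσt : σ t ≠ t := fun h => hζ t h ht
  refine ⟨(Wt k t).map (L : _ →ₗ[F] (ι → F)), ⟨?_, ?_⟩, ?_⟩
  · rw [LinearEquiv.finrank_map_eq, finrank_Wt]
  · intro w hw
    obtain ⟨x, ⟨hx1, hx2⟩, rfl⟩ := Submodule.mem_map.mp hw
    rw [LinearEquiv.coe_coe, hQ]
    unfold Cfsg.quadFormMinus
    rw [Finset.sum_eq_zero (fun i _ => by rw [hx1 i, mul_zero]), hx2]
    have e : (t * x (Sum.inr 1)) ^ 2 + 1 * (t * x (Sum.inr 1)) * x (Sum.inr 1)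
        + ζ * x (Sum.inr 1) ^ 2 = x (Sum.inr 1) ^ 2 * (t ^ 2 + t + ζ) := by ring
    rw [zero_add, e, ht, mul_zero, mul_zero]
  · rw [sigSub_map σ L hL, sigSub_Wt, ← Submodule.map_inf _ L.injective,
      Wt_inf k (Ne.symm hσt), LinearEquiv.finrank_map_eq, finrank_W1]

end Cfsg.Agent.Lib.Helper51.LP3
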