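import Mathlib
import Cfsg.Agent.Lib.Helper45.MinIdxA
import Cfsg.Agent.Lib.Helper8.MinIdxLT2

set_option autoImplicit false

namespace Cfsg.Agent.Lib.Helper51.MinIdx

open Matrix Cfsg.Agent.Lib.Helper50 Cfsg.Agent.Lib.Helper45.MinIdx

/-- LTFIN -/
theorem dual_family_fin {F : Type*} [Field F] [Fintype F] (k : ℕ) (hk : 2 ≤ k) (t : ℕ)
    (P : Fin t → AddSubgroup (Fin k → F))
    (hinv : ∀ B : Matrix.SpecialLinearGroup (Fin k) F, ∃ π : Equiv.Perm (Fin t), ∀ i x,
      ((B : Matrix (Fin k) (Fin k) F) *ᵥ x ∈ P (π i) ↔ x ∈ P i))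
    (κ : ℕ) (hκ : ∀ w : Fin k → F, w ≠ 0 → Nat.card {i : Fin t // w ∈ P i} = κ)
    (hcount : ∑ i, Nat.card (P i) = κ * (Fintype.card F ^ k - 1) + t)
    (hsum : (∑ i, Nat.card (P i)) * (Fintype.card F - 1) < Fintype.card F ^ (k + 1) - 1) :
    (∀ i, P i = ⊥ ∨ P i = ⊤) ∨
    (∀ i, ∃ w : Fin k → F, w ≠ 0 ∧ ∀ x, x ∈ P i ↔ ∃ c : F, x = c • w) := by
  classical
  obtain ⟨a, ha⟩ : ∃ a, Fintype.card F = a + 1 :=
    ⟨Fintype.card F - 1, by have := Fintype.card_pos (α := F); omega⟩
  have ha1 : 1 ≤ a := by have := Fintype.one_lt_card (α := F); omega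
  obtain ⟨M, hM⟩ : ∃ M, Fintype.card F ^ k - 1 = a * M := by
    have h := Nat.sub_one_dvd_pow_sub_one (x := Fintype.card F) (n := k)
    rw [ha, Nat.add_sub_cancel] at h
    rw [ha]
    exact h
  have hQ : Fintype.card F ^ k = a * M + 1 := by
    have := Nat.one_le_pow k (Fintype.card F) Fintype.card_pos
    omega
  have hQ1 : Fintype.card F ^ (k + 1) - 1 = a * a * M + a * M + a := by
    rw [pow_succ, hQ, ha]
    have : (a * M + 1) * (a + 1) = a * a * M + a * M + a + 1 := by ring
    omega
  rw [hQ1, ha, Nat.add_sub_cancel] at hsum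
  rw [hM] at hcount
  have hk0 : 0 < k := by omega
  obtain ⟨w0, hw0ne⟩ : ∃ w0 : Fin k → F, w0 ≠ 0 := by
    refine ⟨Pi.single ⟨0, hk0⟩ 1, ?_⟩
    intro h
    have := congrFun h ⟨0, hk0⟩
    simp at this
  have hκt : κ ≤ t := by
    rw [← hκ w0 hw0ne]
    calc Nat.card {i : Fin t // w0 ∈ P i} ≤ Nat.card (Fin t) :=
          Nat.card_le_card_of_injective _ Subtype.val_injective
      _ = t := by simp
  rcases Nat.lt_or_ge κ 2 with hκ2 | hκ2
  swap
  · exfalso
    have ht2 : 2 ≤ t := le_trans hκ2 hκt
    have h1 : 2 * (a * M) + 2 ≤ ∑ i, Nat.card (P i) := by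
      rw [hcount]
      have : 2 * (a * M) ≤ κ * (a * M) := Nat.mul_le_mul_right _ hκ2
      omega
    have h2 : (2 * (a * M) + 2) * a ≤ (∑ i, Nat.card (P i)) * a := Nat.mul_le_mul_right _ h1
    have h3 : a * M ≤ a * a * M := by
      calc a * M = 1 * (a * M) := by ring
        _ ≤ a * (a * M) := Nat.mul_le_mul_right _ ha1
        _ = a * a * M := by ring
    nlinarith
  interval_cases κ
  · -- κ = 0
    left
    intro i
    left
    rw [AddSubgroup.eq_bot_iff_forall]
    intro x hx
    by_contra hx0
    have := hκ x hx0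
    rw [Nat.card_eq_zero] at this
    rcases this with h | h
    · exact h.false ⟨i, hx⟩
    · exact not_finite {i : Fin t // x ∈ P i}
  · -- κ = 1
    have huniq : ∀ w : Fin k → F, w ≠ 0 → ∀ i j, w ∈ P i → w ∈ P j → i = j := by
      intro w hw i j hi hj
      have h1 := hκ w hw
      rw [Nat.card_eq_one_iff_unique] at h1
      obtain ⟨hs, -⟩ := h1
      have := hs.elim ⟨i, hi⟩ ⟨j, hj⟩
      exact congrArg Subtype.val this
    have hLT : ∀ i, ∀ w ∈ P i, w ≠ 0 → (∀ x ∈ P i, ∃ c : F, x = c • w) ∨ P i = ⊤ := by
      intro i w hw hw0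
      refine Cfsg.Agent.Lib.Helper8.MinIdx.line_or_top k (P i) ?_ w hw hw0
      intro v hv hv0 B hBv x hx
      obtain ⟨π, hπ⟩ := hinv B
      have h1 : v ∈ P (π i) := by
        have := (hπ i v).mpr hv
        rwa [hBv] at this
      have h2 : π i = i := huniq v hv0 _ _ h1 hv
      have := (hπ i x).mpr hx
      rwa [h2] at this
    have hex : ∀ i, P i ≠ ⊥ → ∃ w ∈ P i, w ≠ 0 := by
      intro i hb
      by_contra hcon
      push Not at hcon
      exact hb ((AddSubgroup.eq_bot_iff_forall _).mpr hcon)
    by_cases htop : ∃ i₀, P i₀ = ⊤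
    · left
      obtain ⟨i₀, hi₀⟩ := htop
      intro i
      by_cases hi : i = i₀
      · right
        rw [hi, hi₀]
      · left
        rw [AddSubgroup.eq_bot_iff_forall]
        intro x hx
        by_contra hx0
        exact hi (huniq x hx0 i i₀ hx (by rw [hi₀]; exact AddSubgroup.mem_top x))
    · right
      push Not at htop
      have hq : Nat.card F = a + 1 := by rw [Nat.card_eq_fintype_card, ha]
      have hle : ∀ i, Nat.card (P i) ≤ a + 1 := by
        intro i
        by_cases hb : P i = ⊥
        · rw [hb]
          simp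
        · obtain ⟨w, hw, hw0⟩ := hex i hb
          rcases hLT i w hw hw0 with h | h
          · choose! c hc using h
            rw [← hq]
            apply Nat.card_le_card_of_injective (fun x : P i => c x.1)
            intro x y hxy
            apply Subtype.ext
            simp only at hxy
            rw [hc x.1 x.2, hc y.1 y.2, hxy]
          · exact absurd h (htop i)
      have hall : ∀ i, Nat.card (P i) = a + 1 := by
        by_contra hcon
        push Not at hcon
        obtain ⟨j, hj⟩ := hcon
        have hjlt : Nat.card (P j) < a + 1 := lt_of_le_of_ne (hle j) hj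
        have hlt : ∑ i, Nat.card (P i) < ∑ i : Fin t, (a + 1) :=
          Finset.sum_lt_sum (fun i _ => hle i) ⟨j, Finset.mem_univ j, hjlt⟩
        rw [Finset.sum_const, Finset.card_univ, Fintype.card_fin, smul_eq_mul, hcount] at hlt
        rw [hcount] at hsum
        have h1 : M < t := by
          by_contra h
          push Not at h
          have : t * a ≤ M * a := Nat.mul_le_mul_right _ h
          nlinarith
        have h2 : t < M + 1 := by
          by_contra h
          push Not at h
          have : (M + 1) * a ≤ t * a := Nat.mul_le_mul_right _ h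
          nlinarith
        omega
      intro i
      have hb : P i ≠ ⊥ := by
        intro hb
        have := hall i
        rw [hb] at this
        simp at this
        omega
      obtain ⟨w, hw, hw0⟩ := hex i hb
      refine ⟨w, hw0, ?_⟩
      rcases hLT i w hw hw0 with h | h
      · intro x
        constructor
        · exact h x
        · rintro ⟨c, rfl⟩
          choose! cf hcf using h
          have hinj : Function.Injective (fun x : P i => cf x.1) := by
            intro x y hxy
            apply Subtype.ext
            simp only at hxy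
            rw [hcf x.1 x.2, hcf y.1 y.2, hxy]
          have hbij : Function.Bijective (fun x : P i => cf x.1) :=
            hinj.bijective_of_nat_card_le (by rw [hq, hall i])
          obtain ⟨y, hy⟩ := hbij.2 c
          have := hcf y.1 y.2
          simp only at hy
          rw [hy] at this
          rw [← this]
          exact y.2
      · exact absurd h (htop i)

end Cfsg.Agent.Lib.Helper51.MinIdx
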