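import Mathlib
import Cfsg.Agent.Lib.Helper51.GFDefs2
import Cfsg.Agent.Lib.Helper52.LangPlus
import Cfsg.Agent.Lib.Helper53.MFCENTO
import Cfsg.Agent.Lib.Helper53.OddFE
import Cfsg.Agent.Lib.Helper54.OrthInnPlus
import Cfsg.Agent.Lib.Helper67.GFTR
import Cfsg.Agent.Lib.Helper85.GFMODEL
import Cfsg.Agent.Lib.Helper21.GFSGN
import Cfsg.Agent.Lib.Helper28.GFCONJ
import Cfsg.Agent.Lib.Helper52.GFSPLIT2
import Cfsg.Agent.Lib.Helper52.GFSplit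
import Cfsg.Agent.Lib.Helper53.FixField
import Cfsg.Agent.Lib.Helper53.SplitAbs
import Cfsg.Agent.Lib.Helper21.MFABS
import Cfsg.Agent.Lib.Helper86.MFCENTE
import Cfsg.Agent.S2736
import Cfsg.Agent.Lib.Helper53.MinusMain

/-!
# S2717 assembly (helper51)
-/

set_option autoImplicit false
set_option linter.unusedSectionVars false
set_option linter.unusedVariables false

namespace Cfsg.Agent.Lib.Helper51.GFMain

open Module QuadraticMap Matrix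
open Cfsg Cfsg.Agent.Lib.Helper51 Cfsg.Agent.Lib.Helper51.GammaO Cfsg.Agent.Lib.Helper52
  Cfsg.Agent.Lib.Helper52.OU Cfsg.Agent.Lib.Helper52.OUMain Cfsg.Agent.Lib.Helper53.OddF
  Cfsg.Agent.Lib.Helper53.MinusF Cfsg.Agent.Lib.Helper54 Cfsg.Agent.Lib.Helper51.GF
  Cfsg.Agent.Lib.Helper53.MFCENTO
open Cfsg.Agent.Lib.Helper52.LSMain (ind_congr ind_smul orderOf_conj_eq)

universe u v

/-- uniqueness of the field automorphism of an induced automorphism, for the plus form -/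
theorem sigma_unique {F : Type u} [Field F] [Fintype F] {k : ℕ} (hk : 3 ≤ k)
    (q : (Fin (k + 1) ⊕ Fin (k + 1) → F) → F) (hq : ⇑(QPlus (k + 1) F) = q)
    {β : MulAut (POmega F q)} {g g' : GL (Fin (k + 1) ⊕ Fin (k + 1)) F} {σ σ' : F ≃+* F}
    (h : Ind q β g σ) (h' : Ind q β g' σ') : σ = σ' := by
  subst hq
  have hQ : (polarBilin (QPlus (k + 1) F)).Nondegenerate := nondeg_of_polarSep _ polarSep_plus
  have hn : 7 ≤ Fintype.card (Fin (k + 1) ⊕ Fin (k + 1)) := by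
    rw [card_plus]
    omega
  exact (ind_unique (QPlus (k + 1) F) hQ hn h h').1

/-- an involutory graph-field automorphism gives a field automorphism of order two -/
theorem sigma_of_gf {F : Type u} [Field F] [Fintype F] {k : ℕ} (hk : 4 ≤ k)
    (x : MulAut (POmega F (quadFormPlus (k + 1) F)))
    (hx : IsGraphFieldAutClassPOmegaPlus (k + 1) x) (hx2 : orderOf x = 2) :
    ∃ σ : F ≃+* F, orderOf (σ : RingAut F) = 2 := by
  obtain ⟨α, γ, φ, σ, v, rr, hσ1, hv, hvσ, hrr, hγI, hφ, hαx⟩ := hx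
  have hm1 : 1 ≤ k + 1 := by omega
  obtain ⟨h1, h2, h3, h4⟩ := LPMain.refl_data hm1 σ v hv hvσ rr hrr
  have hγ' : Ind (quadFormPlus (k + 1) F) γ rr (RingEquiv.refl F) := ⟨h2, hγI⟩
  have hx'I : Ind (quadFormPlus (k + 1) F) (γ * φ) rr σ :=
    ind_congr _ (LPMain.ind_mul_refl _ hγ' (LPMain.ind_field_plus (k + 1) σ φ hφ))
      (by rw [mul_one]) (fun x => rfl)
  have hord : orderOf (γ * φ) = 2 := by rw [← hαx, orderOf_conj_eq, hx2]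
  have hpow := ind_pow _ hx'I 2
  have hsq : (γ * φ) ^ 2 = 1 := by
    rw [← hord]
    exact pow_orderOf_eq_one _
  rw [hsq] at hpow
  have hone := ind_one (quadFormPlus (k + 1) F)
  have hs := sigma_unique (by omega : 3 ≤ k) _ (coe_QPlus (k + 1) F) hpow hone
  refine ⟨σ, orderOf_eq_prime ?_ ?_⟩
  · exact hs
  · exact hσ1

theorem sigma_sq {F : Type u} [Field F] (σ : F ≃+* F) (hσ2 : orderOf (σ : RingAut F) = 2)
    (x : F) : σ (σ x) = x := by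
  have h : (σ : RingAut F) ^ 2 = 1 := by
    rw [← hσ2]
    exact pow_orderOf_eq_one _
  have h1 := congrArg (fun τ : RingAut F => τ x) h
  simpa [pow_two] using h1

theorem sigma_ne {F : Type u} [Field F] (σ : F ≃+* F) (hσ2 : orderOf (σ : RingAut F) = 2) :
    ∃ lam : F, σ lam ≠ lam := by
  by_contra hcon
  push Not at hcon
  have h1 : (σ : RingAut F) = 1 := RingEquiv.ext hcon
  rw [h1, orderOf_one] at hσ2
  exact absurd hσ2 (by norm_num)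

set_option maxHeartbeats 3200000 in
/-- the standard model of an involutory graph-field automorphism -/
theorem std_model {F₀ : Type v} [Field F₀] [Fintype F₀] {F : Type u} [Field F] [Fintype F]
    {k : ℕ} (hk : 4 ≤ k) (q : (Fin (k + 1) ⊕ Fin (k + 1) → F) → F)
    (hq : ⇑(QPlus (k + 1) F) = q) (e : F₀ →+* F) (σ : F ≃+* F)
    (hσ2 : orderOf (σ : RingAut F) = 2) (he : ∀ x : F, σ x = x ↔ x ∈ Set.range e) :
    ∃ (lam : F) (a₀ b₀ : F₀)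
      (T' : Matrix (Fin (k + 1) ⊕ Fin (k + 1)) ((Fin k ⊕ Fin k) ⊕ Fin 2) F)
      (ψ : POmega F q ≃* POmega F ⇑(QMinus k F (e a₀) (e b₀)))
      (hσM : (SemidirectProduct.inr (σ : RingAut F) : SGL ((Fin k ⊕ Fin k) ⊕ Fin 2) F) ∈
        GO ⇑(QMinus k F (e a₀) (e b₀)))
      (x₀ : MulAut (POmega F q)),
      σ lam ≠ lam ∧ e a₀ = gA σ lam ∧ e b₀ = gB σ lam ∧
      (∀ z₁ z₂ : F₀, z₁ ^ 2 + a₀ * z₁ * z₂ + b₀ * z₂ ^ 2 = 0 → z₁ = 0 ∧ z₂ = 0) ∧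
      gT k σ lam * T' = 1 ∧ T' * gT k σ lam = 1 ∧
      (∀ (g : GL (Fin (k + 1) ⊕ Fin (k + 1)) F) (g' : GL ((Fin k ⊕ Fin k) ⊕ Fin 2) F)
        (τ : F ≃+* F) (β : MulAut (POmega F q)),
        (g' : Matrix _ _ F) * (gT k σ lam).map τ = gT k σ lam * (g : Matrix _ _ F) →
        Ind q β g τ → Ind ⇑(QMinus k F (e a₀) (e b₀)) (MulAut.congr ψ β) g' τ) ∧
      (∀ (g : GL (Fin (k + 1) ⊕ Fin (k + 1)) F) (g' : GL ((Fin k ⊕ Fin k) ⊕ Fin 2) F)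
        (τ : F ≃+* F) (β' : MulAut (POmega F ⇑(QMinus k F (e a₀) (e b₀)))),
        (g' : Matrix _ _ F) * (gT k σ lam).map τ = gT k σ lam * (g : Matrix _ _ F) →
        Ind ⇑(QMinus k F (e a₀) (e b₀)) β' g' τ → Ind q ((MulAut.congr ψ).symm β') g τ) ∧
      MulAut.congr ψ x₀ =
        Theta ⇑(QMinus k F (e a₀) (e b₀)) (inrS (QMinus k F (e a₀) (e b₀)) σ hσM) ∧
      gfClassOf q x₀ ∧ orderOf x₀ = 2 := by
  subst hq
  have hσσ := sigma_sq σ hσ2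
  obtain ⟨lam, hne⟩ := sigma_ne σ hσ2
  have ha := (he (gA σ lam)).1 (gA_fixed σ lam (hσσ lam))
  have ha2 : ∃ a₀ : F₀, e a₀ = gA σ lam := Set.mem_range.mp ha
  obtain ⟨a₀, ha₀⟩ := ha2
  clear ha
  have hb := (he (gB σ lam)).1 (gB_fixed σ lam (hσσ lam))
  have hb2 : ∃ b₀ : F₀, e b₀ = gB σ lam := Set.mem_range.mp hb
  obtain ⟨b₀, hb₀⟩ := hb2
  clear hb
  have hab₀ : ∀ z₁ z₂ : F₀, z₁ ^ 2 + a₀ * z₁ * z₂ + b₀ * z₂ ^ 2 = 0 → z₁ = 0 ∧ z₂ = 0 :=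
    fun z₁ z₂ h => aniso_fixed e σ lam (hσσ lam) hne he a₀ b₀ ha₀ hb₀ z₁ z₂ h
  obtain ⟨T', hTT', hT'T⟩ := exists_gT_inv k σ lam hne
  have hT : ∀ v, (QMinus k F (e a₀) (e b₀)) (gT k σ lam *ᵥ v) = (QPlus (k + 1) F) v := by
    rw [ha₀, hb₀]
    exact gT_isometry k σ lam hne
  have htr := Cfsg.Agent.Lib.Helper67.GFTR.exists_transport ⇑(QPlus (k + 1) F)
    ⇑(QMinus k F (e a₀) (e b₀)) (gT k σ lam) T' hTT' hT'T hT
  obtain ⟨ψ, hψ⟩ := htr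
  have hψ1 := hψ.1
  have hψ2 := hψ.2
  clear hψ
  have hσM : (SemidirectProduct.inr (σ : RingAut F) : SGL ((Fin k ⊕ Fin k) ⊕ Fin 2) F) ∈
      GO ⇑(QMinus k F (e a₀) (e b₀)) :=
    inr_mem_minus k (e a₀) (e b₀) σ (by rw [ha₀]; exact gA_fixed σ lam (hσσ lam))
      (by rw [hb₀]; exact gB_fixed σ lam (hσσ lam))
  have hD : e a₀ ^ 2 - 4 * e b₀ ≠ 0 := by
    rw [ha₀, hb₀]
    exact gA_disc σ lam hne
  have hQM : (polarBilin (QMinus k F (e a₀) (e b₀))).Nondegenerate :=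
    nondeg_of_polarSep _ (polarSep_minus' (e a₀) (e b₀) hD)
  have hn : 7 ≤ Fintype.card ((Fin k ⊕ Fin k) ⊕ Fin 2) := by
    rw [card_minus]
    omega
  obtain ⟨φM, hφMdef⟩ : ∃ φM, φM =
      Theta ⇑(QMinus k F (e a₀) (e b₀)) (inrS (QMinus k F (e a₀) (e b₀)) σ hσM) := ⟨_, rfl⟩
  have hφM : Ind ⇑(QMinus k F (e a₀) (e b₀)) φM 1 σ :=
    ⟨(mem_GO_iff_pair _ _).mp hσM,
      (GammaO.induced_iff ⇑(QMinus k F (e a₀) (e b₀)) (inrS (QMinus k F (e a₀) (e b₀)) σ hσM)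
        φM).mpr hφMdef⟩
  obtain ⟨rr₀, hrr₀⟩ : ∃ rr₀ : GL (Fin (k + 1) ⊕ Fin (k + 1)) F, rr₀ =
      ((refl (QPlus (k + 1) F) (gV k σ lam) (gV_Q_ne k σ lam hne) :
        isometryGroup F ⇑(QPlus (k + 1) F)) : GL (Fin (k + 1) ⊕ Fin (k + 1)) F) := ⟨_, rfl⟩
  have hrrm : (rr₀ : Matrix _ _ F) = reflectionMatrix ⇑(QPlus (k + 1) F) (gV k σ lam) := by
    rw [hrr₀, coe_refl]
  have hmodel := Cfsg.Agent.Lib.Helper85.GFMODEL.model_twist k σ lam (hσσ lam) hne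
  have hx₀I : Ind ⇑(QPlus (k + 1) F) ((MulAut.congr ψ).symm φM) rr₀ σ :=
    hψ2 rr₀ 1 σ φM (by rw [Units.val_one, Matrix.one_mul, hmodel, hrrm]) hφM
  have pair_rr : IsSemisimilarityPair ⇑(QPlus (k + 1) F) rr₀ (RingEquiv.refl F) := by
    refine ⟨1, fun v => ?_⟩
    have h1 := (mem_isometryGroup_iff (QPlus (k + 1) F) _).mp
      (refl (QPlus (k + 1) F) (gV k σ lam) (gV_Q_ne k σ lam hne)).2 v
    rw [hrr₀]
    simpa using h1
  obtain ⟨γ₀, hγ₀⟩ := ind_of_pair ⇑(QPlus (k + 1) F) rr₀ (RingEquiv.refl F) pair_rr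
  have pair_σ : IsSemisimilarityPair ⇑(QPlus (k + 1) F) 1 σ := by
    refine ⟨1, fun v => ?_⟩
    rw [Units.val_one, Matrix.one_mulVec, Units.val_one, one_mul]
    exact LPMain.sigInv_plus (k + 1) σ v
  obtain ⟨φ₀, hφ₀⟩ := ind_of_pair ⇑(QPlus (k + 1) F) 1 σ pair_σ
  have hfield : IsFieldAutPOmegaOf ⇑(QPlus (k + 1) F) σ φ₀ := by
    intro s s' hs
    apply hφ₀.2
    simpa using hs
  have hprod : Ind ⇑(QPlus (k + 1) F) (γ₀ * φ₀) rr₀ σ :=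
    ind_congr _ (LPMain.ind_mul_refl _ hγ₀ hφ₀) (by rw [mul_one]) (fun x => rfl)
  have hx₀eq : (MulAut.congr ψ).symm φM = γ₀ * φ₀ := ind_eq _ hx₀I hprod
  have hσne : σ ≠ RingEquiv.refl F := by
    intro h
    apply hne
    rw [h]
    rfl
  have hφM2 : φM ^ 2 = 1 := by
    have h1 : inrS (QMinus k F (e a₀) (e b₀)) σ hσM ^ 2 = 1 := by
      apply Subtype.ext
      show (SemidirectProduct.inr (σ : RingAut F) : SGL ((Fin k ⊕ Fin k) ⊕ Fin 2) F) ^ 2 = 1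
      rw [← map_pow, ← hσ2, pow_orderOf_eq_one, map_one]
    rw [hφMdef, ← map_pow, h1, map_one]
  have hφMne : φM ≠ 1 := by
    intro h
    rw [hφMdef] at h
    have h1 := ((ker_Theta (QMinus k F (e a₀) (e b₀)) hQM hn _).mp h).1
    apply hσne
    exact h1
  refine ⟨lam, a₀, b₀, T', ψ, hσM, (MulAut.congr ψ).symm φM, hne, ha₀, hb₀, hab₀, hTT', hT'T,
    hψ1, hψ2, ?_, ?_, ?_⟩
  · rw [MulEquiv.apply_symm_apply, hφMdef]
  · refine ⟨1, γ₀, φ₀, σ, gV k σ lam, rr₀, hσne, gV_Q_ne k σ lam hne,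
      gV_fixed k σ lam (hσσ lam), hrrm, hγ₀.2, hfield, ?_⟩
    rw [one_mul, inv_one, mul_one]
    exact hx₀eq
  · rw [MulEquiv.orderOf_eq]
    exact orderOf_eq_prime hφM2 hφMne

theorem ringChar_ne_two' {K : Type*} [Field K] (h2 : (2 : K) ≠ 0) : ringChar K ≠ 2 := by
  intro h
  apply h2
  have := ringChar.Nat.cast_ringChar (R := K)
  rw [h] at this
  exact_mod_cast this

set_option maxHeartbeats 3200000 in
/-- the centralizer of the standard model, odd characteristic -/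
theorem cent_model_odd {F₀ : Type v} [Field F₀] [Fintype F₀] {F : Type u} [Field F] [Fintype F]
    (h2 : (2 : F) ≠ 0) {k : ℕ} (hk : 4 ≤ k) (e : F₀ →+* F) (σ : F ≃+* F)
    (hσ2 : orderOf (σ : RingAut F) = 2) (he : ∀ x : F, σ x = x ↔ x ∈ Set.range e)
    (a₀ b₀ : F₀)
    (hab₀ : ∀ z₁ z₂ : F₀, z₁ ^ 2 + a₀ * z₁ * z₂ + b₀ * z₂ ^ 2 = 0 → z₁ = 0 ∧ z₂ = 0)
    (hD : e a₀ ^ 2 - 4 * e b₀ ≠ 0)
    (T : Matrix ((Fin k ⊕ Fin k) ⊕ Fin 2) (Fin (k + 1) ⊕ Fin (k + 1)) F)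
    (T' : Matrix (Fin (k + 1) ⊕ Fin (k + 1)) ((Fin k ⊕ Fin k) ⊕ Fin 2) F)
    (hTT' : T * T' = 1) (hT'T : T' * T = 1)
    (hT : ∀ v, QMinus k F (e a₀) (e b₀) (T *ᵥ v) = QPlus (k + 1) F v)
    (ψ : POmega F ⇑(QPlus (k + 1) F) ≃* POmega F ⇑(QMinus k F (e a₀) (e b₀)))
    (hψ1 : ∀ (g : GL (Fin (k + 1) ⊕ Fin (k + 1)) F) (g' : GL ((Fin k ⊕ Fin k) ⊕ Fin 2) F)
        (τ : F ≃+* F) (β : MulAut (POmega F ⇑(QPlus (k + 1) F))),
        (g' : Matrix _ _ F) * T.map τ = T * (g : Matrix _ _ F) →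
        Ind ⇑(QPlus (k + 1) F) β g τ →
        Ind ⇑(QMinus k F (e a₀) (e b₀)) (MulAut.congr ψ β) g' τ)
    (hψ2 : ∀ (g : GL (Fin (k + 1) ⊕ Fin (k + 1)) F) (g' : GL ((Fin k ⊕ Fin k) ⊕ Fin 2) F)
        (τ : F ≃+* F) (β' : MulAut (POmega F ⇑(QMinus k F (e a₀) (e b₀)))),
        (g' : Matrix _ _ F) * T.map τ = T * (g : Matrix _ _ F) →
        Ind ⇑(QMinus k F (e a₀) (e b₀)) β' g' τ →
        Ind ⇑(QPlus (k + 1) F) ((MulAut.congr ψ).symm β') g τ)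
    (hσM : (SemidirectProduct.inr (σ : RingAut F) : SGL ((Fin k ⊕ Fin k) ⊕ Fin 2) F) ∈
      GO ⇑(QMinus k F (e a₀) (e b₀)))
    (x₀ : MulAut (POmega F ⇑(QPlus (k + 1) F)))
    (hx₀ : MulAut.congr ψ x₀ =
      Theta ⇑(QMinus k F (e a₀) (e b₀)) (inrS (QMinus k F (e a₀) (e b₀)) σ hσM))
    (q₀ : ((Fin k ⊕ Fin k) ⊕ Fin 2 → F₀) → F₀) (hq₀ : ⇑(QMinus k F₀ a₀ b₀) = q₀) :
    Nonempty (↥(gInndiag ⇑(QPlus (k + 1) F) ⊓ Subgroup.centralizer {x₀}) ≃*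
      ↥(gInndiagM k a₀ b₀ q₀)) := by
  subst hq₀
  have h2₀ : (2 : F₀) ≠ 0 := by
    intro h0
    apply h2
    have := congrArg e h0
    rwa [map_ofNat, map_zero] at this
  have hF := ringChar_ne_two' h2
  have hF₀ := ringChar_ne_two' h2₀
  have hm1 : 1 ≤ k + 1 := by omega
  have hQ : (polarBilin (QMinus k F (e a₀) (e b₀))).Nondegenerate :=
    nondeg_of_polarSep _ (polarSep_minus' (e a₀) (e b₀) hD)
  have hn : 7 ≤ Fintype.card ((Fin k ⊕ Fin k) ⊕ Fin 2) := by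
    rw [card_minus]
    omega
  obtain ⟨hQ₀, -⟩ := minus_nondeg (by omega : 3 ≤ k) a₀ b₀ hab₀
  have hD1 : gInndiag ⇑(QPlus (k + 1) F) =
      ((simSgn (QPlus (k + 1) F) (hv_plus hm1) (k + 1)).ker).map (simAut ⇑(QPlus (k + 1) F)) :=
    inndiagPlus_eq hF hm1
  have hSGN := Cfsg.Agent.Lib.Helper21.GFSGN.sgnKer_map_eq k (e a₀) (e b₀) T T' hTT' hT'T hT hD ψ hψ1 hψ2
  obtain ⟨e0⟩ := Cfsg.Agent.Lib.Helper21.MFABS.cent_map (MulAut.congr ψ)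
    (gInndiag ⇑(QPlus (k + 1) F)) x₀
  rw [hD1, hSGN, hx₀] at e0
  have e1 := MulEquiv.subgroupCongr
    (psi0_range e k a₀ b₀ h2₀ hab₀ hQ hn σ hσM 2 two_pos hσ2 he).symm
  have e2 := QuotientGroup.quotientKerEquivRange (psi0 e k a₀ b₀)
  have e3 : ↥((simSgn (QMinus k F₀ a₀ b₀) (hv_minus a₀ b₀) (k + 1)).ker) ⧸ (psi0 e k a₀ b₀).ker ≃*
      ↥((simSgn (QMinus k F₀ a₀ b₀) (hv_minus a₀ b₀) (k + 1)).ker) ⧸
        ((iotaO (QMinus k F₀ a₀ b₀)).comp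
          (Subgroup.subtype ((simSgn (QMinus k F₀ a₀ b₀) (hv_minus a₀ b₀) (k + 1)).ker))).ker :=
    QuotientGroup.quotientMulEquivOfEq (psi0_ker e k a₀ b₀ hQ hQ₀ hn)
  have e4 := QuotientGroup.quotientKerEquivRange ((iotaO (QMinus k F₀ a₀ b₀)).comp
    (Subgroup.subtype ((simSgn (QMinus k F₀ a₀ b₀) (hv_minus a₀ b₀) (k + 1)).ker)))
  have e5 := MulEquiv.subgroupCongr (range_sub k a₀ b₀)
  unfold gInndiagM
  rw [inndiagMinus_eq hF₀ a₀ b₀ hab₀, hD1]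
  exact ⟨e0.trans (e1.trans (e2.symm.trans (e3.trans (e4.trans e5))))⟩

set_option maxHeartbeats 3200000 in
/-- the centralizer of the standard model, characteristic two -/
theorem cent_model_even {F₀ : Type v} [Field F₀] [Fintype F₀] {F : Type u} [Field F] [Fintype F]
    (h2 : (2 : F) = 0) {k : ℕ} (hk : 4 ≤ k) (e : F₀ →+* F) (σ : F ≃+* F)
    (he : ∀ x : F, σ x = x ↔ x ∈ Set.range e)
    (a₀ b₀ : F₀)
    (hab₀ : ∀ z₁ z₂ : F₀, z₁ ^ 2 + a₀ * z₁ * z₂ + b₀ * z₂ ^ 2 = 0 → z₁ = 0 ∧ z₂ = 0)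
    (hD : e a₀ ^ 2 - 4 * e b₀ ≠ 0)
    (ψ : POmega F ⇑(QPlus (k + 1) F) ≃* POmega F ⇑(QMinus k F (e a₀) (e b₀)))
    (hσM : (SemidirectProduct.inr (σ : RingAut F) : SGL ((Fin k ⊕ Fin k) ⊕ Fin 2) F) ∈
      GO ⇑(QMinus k F (e a₀) (e b₀)))
    (x₀ : MulAut (POmega F ⇑(QPlus (k + 1) F)))
    (hx₀ : MulAut.congr ψ x₀ =
      Theta ⇑(QMinus k F (e a₀) (e b₀)) (inrS (QMinus k F (e a₀) (e b₀)) σ hσM))
    (hinn : gInndiag ⇑(QPlus (k + 1) F) = Inn (POmega F ⇑(QPlus (k + 1) F)))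
    (q₀ : ((Fin k ⊕ Fin k) ⊕ Fin 2 → F₀) → F₀) (hq₀ : ⇑(QMinus k F₀ a₀ b₀) = q₀) :
    Nonempty (↥(gInndiag ⇑(QPlus (k + 1) F) ⊓ Subgroup.centralizer {x₀}) ≃*
      ↥(Inn (POmega F₀ q₀))) := by
  subst hq₀
  have hQ : (polarBilin (QMinus k F (e a₀) (e b₀))).Nondegenerate :=
    nondeg_of_polarSep _ (polarSep_minus' (e a₀) (e b₀) hD)
  have hn : 7 ≤ Fintype.card ((Fin k ⊕ Fin k) ⊕ Fin 2) := by
    rw [card_minus]
    omega
  obtain ⟨hQ₀, -⟩ := minus_nondeg (by omega : 3 ≤ k) a₀ b₀ hab₀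
  obtain ⟨e0⟩ := Cfsg.Agent.Lib.Helper21.MFABS.cent_map (MulAut.congr ψ)
    (gInndiag ⇑(QPlus (k + 1) F)) x₀
  rw [hinn, Cfsg.Agent.Lib.Helper21.MFABS.inn_map_congr ψ, hx₀] at e0
  have hv₀ : QMinus k F₀ a₀ b₀ (Pi.single (Sum.inr 0) 1) ≠ 0 := by
    rw [QMinus_apply]
    simp
  obtain ⟨e1⟩ := Cfsg.Agent.Lib.Helper86.MFCENTE.h86_cent_generic h2 e (QMinus k F₀ a₀ b₀)
    (QMinus k F (e a₀) (e b₀)) (QMinus_map e k a₀ b₀) hQ₀ hQ hn (Pi.single (Sum.inr 0) 1) hv₀ σ he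
    hσM _ ((field_iffS (QMinus k F (e a₀) (e b₀)) σ hσM _).mpr rfl)
  rw [hinn]
  exact ⟨e0.trans e1⟩

/-- the characteristic of `F` -/
theorem two_eq_zero_iff {F : Type u} [Field F] [Fintype F] {p f : ℕ} [Fact p.Prime]
    (hF : Fintype.card F = p ^ f) : (2 : F) = 0 ↔ p = 2 := by
  have hp0 : (p : F) = 0 := by
    have h := Nat.cast_card_eq_zero F
    rw [hF, Nat.cast_pow] at h
    have hf0 : f ≠ 0 := by
      intro h0
      subst h0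
      rw [pow_zero] at hF
      have := Fintype.one_lt_card (α := F)
      omega
    exact (pow_eq_zero_iff hf0).mp h
  constructor
  · intro h2
    by_contra hp
    have hpp : p.Prime := Fact.out
    rcases hpp.eq_two_or_odd with h | h
    · exact hp h
    · have h3 : p = 2 * (p / 2) + 1 := by omega
      have h4 : (p : F) = 1 := by
        rw [h3]
        push_cast
        rw [h2, zero_mul, zero_add]
      rw [h4] at hp0
      exact one_ne_zero hp0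
  · intro hp
    rw [hp] at hp0
    exact_mod_cast hp0

theorem sigma_of_gf_q {F : Type u} [Field F] [Fintype F] {k : ℕ} (hk : 4 ≤ k)
    (q : (Fin (k + 1) ⊕ Fin (k + 1) → F) → F) (hq : ⇑(QPlus (k + 1) F) = q)
    (x : MulAut (POmega F q)) (hx : gfClassOf q x) (hx2 : orderOf x = 2) :
    ∃ σ : F ≃+* F, orderOf (σ : RingAut F) = 2 := by
  obtain rfl : q = quadFormPlus (k + 1) F := hq.symm.trans (coe_QPlus (k + 1) F)
  exact sigma_of_gf hk x hx hx2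

theorem conj_q {F : Type u} [Field F] [Fintype F] {k : ℕ} (hk : 4 ≤ k)
    (q : (Fin (k + 1) ⊕ Fin (k + 1) → F) → F) (hq : ⇑(QPlus (k + 1) F) = q)
    (x y : MulAut (POmega F q)) (hx : gfClassOf q x) (hx2 : orderOf x = 2)
    (hy : gfClassOf q y) (hy2 : orderOf y = 2) : IsConjUnder (gInndiag q) x y := by
  obtain rfl : q = quadFormPlus (k + 1) F := hq.symm.trans (coe_QPlus (k + 1) F)
  have hm : 5 ≤ k + 1 := by omega
  have hδ := Cfsg.Agent.Lib.Helper28.GFCONJ.gf_diff_mem hm x y hx hx2 hy hy2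
  have h := (Cfsg.Agent.S2736.result hm x (y * x⁻¹) (Or.inr hx) Nat.prime_two hx2 hδ).mp
    (by rw [inv_mul_cancel_right]; exact hy2)
  rw [inv_mul_cancel_right] at h
  exact h

theorem split2_q {F : Type u} [Field F] [Fintype F] (h2 : (2 : F) = 0) {k : ℕ} (hk : 4 ≤ k)
    (q : (Fin (k + 1) ⊕ Fin (k + 1) → F) → F) (hq : ⇑(QPlus (k + 1) F) = q) :
    gInndiag q = Inn (POmega F q) := by
  obtain rfl : q = quadFormPlus (k + 1) F := hq.symm.trans (coe_QPlus (k + 1) F)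
  exact Cfsg.Agent.Lib.Helper52.GFSPLIT2.inndiag_plus_eq_inn h2 (by omega)

set_option maxHeartbeats 3200000 in
/-- the statement for the standard model -/
theorem model_q {F₀ : Type v} [Field F₀] [Fintype F₀] {F : Type u} [Field F] [Fintype F]
    {p f : ℕ} [Fact p.Prime] (hF : Fintype.card F = p ^ f) {k : ℕ} (hk : 4 ≤ k)
    (q : (Fin (k + 1) ⊕ Fin (k + 1) → F) → F) (hq : ⇑(QPlus (k + 1) F) = q)
    (σ : F ≃+* F) (hσ2 : orderOf (σ : RingAut F) = 2)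
    (hF₀ : Fintype.card F₀ = p ^ (f / 2)) :
    ∃ x₀ : MulAut (POmega F q), gfClassOf q x₀ ∧ orderOf x₀ = 2 ∧
      (∃ a₀ b₀ : F₀,
        (∀ z₁ z₂ : F₀, z₁ ^ 2 + a₀ * z₁ * z₂ + b₀ * z₂ ^ 2 = 0 → z₁ = 0 ∧ z₂ = 0) ∧
        Nonempty (↥(gInndiag q ⊓ Subgroup.centralizer {x₀}) ≃*
          ↥(inndiagPOmegaMinus k F₀ a₀ b₀))) ∧
      (p = 2 → splitClassCount (gInndiag q) (Inn (POmega F q)) x₀ = 1) ∧
      ((p ≠ 2 ∧ Odd (k + 1) ∧ p ^ (f / 2) % 4 = 1) →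
        splitClassCount (gInndiag q) (Inn (POmega F q)) x₀ = 4) ∧
      ((p ≠ 2 ∧ ¬ (Odd (k + 1) ∧ p ^ (f / 2) % 4 = 1)) →
        splitClassCount (gInndiag q) (Inn (POmega F q)) x₀ = 2) := by
  obtain ⟨hdvd, -⟩ := Cfsg.Agent.Lib.Helper53.Fix.fixed_card hF σ hσ2
  obtain ⟨e, he⟩ := Cfsg.Agent.Lib.Helper53.Fix.exists_embedding hF σ hσ2 F₀ hF₀
  have hstd := std_model hk q hq e σ hσ2 he
  obtain ⟨lam, a₀, b₀, T', ψ, hσM, x₀, hstd⟩ := hstd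
  have hne := hstd.1
  have ha₀ := hstd.2.1
  have hb₀ := hstd.2.2.1
  have hab₀ := hstd.2.2.2.1
  have hTT' := hstd.2.2.2.2.1
  have hT'T := hstd.2.2.2.2.2.1
  have hψ1 := hstd.2.2.2.2.2.2.1
  have hψ2 := hstd.2.2.2.2.2.2.2.1
  have hx₀ := hstd.2.2.2.2.2.2.2.2.1
  have hgf := hstd.2.2.2.2.2.2.2.2.2.1
  have hord := hstd.2.2.2.2.2.2.2.2.2.2
  clear hstd
  subst hq
  have hD : e a₀ ^ 2 - 4 * e b₀ ≠ 0 := by
    rw [ha₀, hb₀]
    exact gA_disc σ lam hne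
  have hT : ∀ v, QMinus k F (e a₀) (e b₀) (gT k σ lam *ᵥ v) = QPlus (k + 1) F v := by
    rw [ha₀, hb₀]
    exact gT_isometry k σ lam hne
  have hcard : Fintype.card F = Fintype.card F₀ ^ 2 := by
    rw [hF, hF₀, ← pow_mul, Nat.div_mul_cancel hdvd]
  refine ⟨x₀, hgf, hord, ?_⟩
  by_cases h2 : (2 : F) = 0
  · have hp2 : p = 2 := (two_eq_zero_iff hF).mp h2
    have h2₀ : (2 : F₀) = 0 := e.injective (by rw [map_ofNat, h2, map_zero])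
    have hinn := split2_q h2 hk ⇑(QPlus (k + 1) F) rfl
    refine ⟨⟨a₀, b₀, hab₀, ?_⟩, ?_, ?_, ?_⟩
    · have h1 := cent_model_even h2 hk e σ he a₀ b₀ hab₀ hD ψ hσM x₀ hx₀ hinn
        (quadFormMinus k F₀ a₀ b₀) (coe_QMinus k F₀ a₀ b₀)
      rw [Cfsg.Agent.Lib.Helper53.MinusMain.inndiag_eq_inn h2₀ (by omega) a₀ b₀ hab₀]
      exact h1
    · intro _
      rw [hinn]
      exact Cfsg.Agent.Lib.Helper21.MFABS.split_self _ x₀
    · rintro ⟨hp, -⟩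
      exact absurd hp2 hp
    · rintro ⟨hp, -⟩
      exact absurd hp2 hp
  · have hp2 : p ≠ 2 := fun hp => h2 ((two_eq_zero_iff hF).mpr hp)
    have hso := Cfsg.Agent.Lib.Helper52.GFSplit.split_odd h2 hk e σ hσ2 he hcard lam hne a₀ b₀ ha₀ hb₀ T'
      hTT' hT'T ψ hψ1 hψ2 hσM x₀ hx₀
    rw [hF₀] at hso
    refine ⟨⟨a₀, b₀, hab₀, ?_⟩, ?_, ?_, ?_⟩
    · exact cent_model_odd h2 hk e σ hσ2 he a₀ b₀ hab₀ hD (gT k σ lam) T' hTT' hT'T hT ψ hψ1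
        hψ2 hσM x₀ hx₀ (quadFormMinus k F₀ a₀ b₀) (coe_QMinus k F₀ a₀ b₀)
    · intro hp
      exact absurd hp hp2
    · rintro ⟨-, h⟩
      exact hso.1 h
    · rintro ⟨-, h⟩
      exact hso.2 h

set_option maxHeartbeats 1600000 in
/-- S2717 for a form given as a function -/
theorem main_q {F₀ : Type v} [Field F₀] [Fintype F₀] {F : Type u} [Field F] [Fintype F]
    {p f : ℕ} [Fact p.Prime] (hF : Fintype.card F = p ^ f) {k : ℕ} (hk : 4 ≤ k)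
    (q : (Fin (k + 1) ⊕ Fin (k + 1) → F) → F) (hq : ⇑(QPlus (k + 1) F) = q)
    (x : MulAut (POmega F q)) (hx : gfClassOf q x) (hx2 : orderOf x = 2)
    (hF₀ : Fintype.card F₀ = p ^ (f / 2)) :
    Even f ∧
      (∀ y : MulAut (POmega F q), gfClassOf q y → orderOf y = 2 →
        IsConjUnder (gInndiag q) x y) ∧
      (∃ a₀ b₀ : F₀,
        (∀ z₁ z₂ : F₀, z₁ ^ 2 + a₀ * z₁ * z₂ + b₀ * z₂ ^ 2 = 0 → z₁ = 0 ∧ z₂ = 0) ∧
        Nonempty (↥(gInndiag q ⊓ Subgroup.centralizer {x}) ≃*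
          ↥(inndiagPOmegaMinus k F₀ a₀ b₀))) ∧
      (p = 2 → splitClassCount (gInndiag q) (Inn (POmega F q)) x = 1) ∧
      ((p ≠ 2 ∧ Odd (k + 1) ∧ p ^ (f / 2) % 4 = 1) →
        splitClassCount (gInndiag q) (Inn (POmega F q)) x = 4) ∧
      ((p ≠ 2 ∧ ¬ (Odd (k + 1) ∧ p ^ (f / 2) % 4 = 1)) →
        splitClassCount (gInndiag q) (Inn (POmega F q)) x = 2) := by
  obtain ⟨σ, hσ2⟩ := sigma_of_gf_q hk q hq x hx hx2
  obtain ⟨hdvd, -⟩ := Cfsg.Agent.Lib.Helper53.Fix.fixed_card hF σ hσ2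
  have hmodel := model_q (F₀ := F₀) hF hk q hq σ hσ2 hF₀
  obtain ⟨x₀, hgf₀, hord₀, hcent, hs1, hs4, hs2⟩ := hmodel
  obtain ⟨a₀, b₀, hab₀, ⟨ecent⟩⟩ := hcent
  obtain ⟨h, hhD, hxe⟩ := conj_q hk q hq x₀ x hgf₀ hord₀ hx hx2
  have hH : ∀ d ∈ gInndiag q, h * d * h⁻¹ ∈ gInndiag q :=
    fun d hd => mul_mem (mul_mem hhD hd) (inv_mem hhD)
  have hH' : ∀ d ∈ gInndiag q, h⁻¹ * d * h ∈ gInndiag q :=
    fun d hd => mul_mem (mul_mem (inv_mem hhD) hd) hhD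
  have hK : ∀ n ∈ Inn (POmega F q), h * n * h⁻¹ ∈ Inn (POmega F q) :=
    fun n hn => (innNormal (POmega F q)).conj_mem n hn h
  have hK' : ∀ n ∈ Inn (POmega F q), h⁻¹ * n * h ∈ Inn (POmega F q) := by
    intro n hn
    have := (innNormal (POmega F q)).conj_mem n hn h⁻¹
    rwa [inv_inv] at this
  have hsplit := Cfsg.Agent.Lib.Helper53.SplitAbs.split_conj (gInndiag q) (Inn (POmega F q)) h
    hH hH' hK hK' x₀
  have ec := Cfsg.Agent.Lib.Helper53.SplitAbs.centConj (gInndiag q) h hH hH' x₀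
  rw [← hxe] at hsplit ec
  refine ⟨even_iff_two_dvd.mpr hdvd, fun y hy hy2 => conj_q hk q hq x y hx hx2 hy hy2,
    ⟨a₀, b₀, hab₀, ⟨ec.symm.trans ecent⟩⟩, ?_, ?_, ?_⟩
  · intro hp
    rw [hsplit]
    exact hs1 hp
  · intro hp
    rw [hsplit]
    exact hs4 hp
  · intro hp
    rw [hsplit]
    exact hs2 hp

end Cfsg.Agent.Lib.Helper51.GFMain
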