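import Mathlib
import Cfsg.Agent.Lib.Helper54.OrthInnPlus

/-!
# S2718 (helper51): reflection lemmas and the spinor norm of a commutator with a similarity
-/

set_option autoImplicit false
set_option linter.unusedSectionVars false
set_option linter.unusedVariables false

namespace Cfsg.Agent.Lib.Helper51.GGRefl

open Module QuadraticMap Matrix
open Cfsg Cfsg.Agent.Lib.Helper51 Cfsg.Agent.Lib.Helper54

section Refl

variable {ι : Type} [Fintype ι] [DecidableEq ι] {F : Type*} [Field F]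
variable (Q : QuadraticForm F (ι → F))

/-- the product of two reflections, pointwise -/
theorem two_refl_apply (x y v : ι → F) :
    (reflectionMatrix ⇑Q x * reflectionMatrix ⇑Q y) *ᵥ v =
      v - ((Q y)⁻¹ * polar ⇑Q y v) • y -
        ((Q x)⁻¹ * (polar ⇑Q x v - (Q y)⁻¹ * polar ⇑Q y v * polar ⇑Q x y)) • x := by
  rw [← Matrix.mulVec_mulVec, reflectionMatrix_mulVec, reflectionMatrix_mulVec]
  congr 3
  rw [QuadraticMap.polar_sub_right, polar_smul_right']

/-- reflections in orthogonal vectors commute -/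
theorem refl_comm_of_orth (h2 : (2 : F) ≠ 0) (x y : ι → F) (hxy : polar ⇑Q x y = 0) :
    reflectionMatrix ⇑Q x * reflectionMatrix ⇑Q y =
      reflectionMatrix ⇑Q y * reflectionMatrix ⇑Q x := by
  apply matrix_ext_mulVec
  intro v
  have hyx : polar ⇑Q y x = 0 := by rw [polar_comm', hxy]
  rw [two_refl_apply, two_refl_apply, hxy, hyx, mul_zero, mul_zero, sub_zero, sub_zero]
  abel

/-- a similarity anticommuting with its adjoint: `G * G = -μ` forces `B(u, G u) = 0` -/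
theorem polar_self_image_eq_zero (h2 : (2 : F) ≠ 0) (G : Matrix ι ι F) (μ : F) (hμ : μ ≠ 0)
    (hGG : G * G = (-μ) • (1 : Matrix ι ι F)) (hG : ∀ v, Q (G *ᵥ v) = μ * Q v) (u : ι → F) :
    polar ⇑Q u (G *ᵥ u) = 0 := by
  have hpol : ∀ x y, polar ⇑Q (G *ᵥ x) (G *ᵥ y) = μ * polar ⇑Q x y := by
    intro x y
    unfold polar
    rw [← Matrix.mulVec_add, hG, hG, hG]
    ring
  have h1 := hpol u (G *ᵥ u)
  rw [Matrix.mulVec_mulVec, hGG, Matrix.smul_mulVec, Matrix.one_mulVec, polar_smul_right',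
    polar_comm' Q (G *ᵥ u) u] at h1
  have h3 : (2 * μ) * polar ⇑Q u (G *ᵥ u) = 0 := by linear_combination -h1
  rcases mul_eq_zero.mp h3 with h | h
  · exact absurd h (mul_ne_zero h2 hμ)
  · exact h

/-- the rotation lemma: for `G * G = -μ`, the product of the reflections in `w = s u + t G u` and
`u` is centralised by `G` -/
theorem rot_comm (h2 : (2 : F) ≠ 0) (G : Matrix ι ι F) (μ : F) (hμ : μ ≠ 0)
    (hGG : G * G = (-μ) • (1 : Matrix ι ι F)) (hG : ∀ v, Q (G *ᵥ v) = μ * Q v) (u : ι → F)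
    (hu : Q u ≠ 0) (s t : F) (hn : s ^ 2 + μ * t ^ 2 ≠ 0) :
    Q (s • u + t • (G *ᵥ u)) = (s ^ 2 + μ * t ^ 2) * Q u ∧
    reflectionMatrix ⇑Q (G *ᵥ (s • u + t • (G *ᵥ u))) * reflectionMatrix ⇑Q (G *ᵥ u) =
      reflectionMatrix ⇑Q (s • u + t • (G *ᵥ u)) * reflectionMatrix ⇑Q u := by
  have hpol : ∀ x y, polar ⇑Q (G *ᵥ x) (G *ᵥ y) = μ * polar ⇑Q x y := by
    intro x y
    unfold polar
    rw [← Matrix.mulVec_add, hG, hG, hG]
    ring
  have h0 := polar_self_image_eq_zero Q h2 G μ hμ hGG hG u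
  have h0' : polar ⇑Q (G *ᵥ u) u = 0 := by rw [polar_comm', h0]
  have hGGu : G *ᵥ (G *ᵥ u) = (-μ) • u := by
    rw [Matrix.mulVec_mulVec, hGG, Matrix.smul_mulVec, Matrix.one_mulVec]
  have hQw : Q (s • u + t • (G *ᵥ u)) = (s ^ 2 + μ * t ^ 2) * Q u := by
    have h1 : Q (s • u + t • (G *ᵥ u)) = Q (s • u) + Q (t • (G *ᵥ u)) +
        polar ⇑Q (s • u) (t • (G *ᵥ u)) := by
      unfold polar
      ring
    rw [h1, QuadraticMap.map_smul, QuadraticMap.map_smul, hG, polar_smul_left', polar_smul_right',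
      h0]
    simp only [smul_eq_mul]
    ring
  refine ⟨hQw, ?_⟩
  have hGw : G *ᵥ (s • u + t • (G *ᵥ u)) = s • (G *ᵥ u) + (-(μ * t)) • u := by
    rw [Matrix.mulVec_add, Matrix.mulVec_smul, Matrix.mulVec_smul, hGGu, smul_smul]
    congr 2
    ring
  have hQGw : Q (G *ᵥ (s • u + t • (G *ᵥ u))) = μ * ((s ^ 2 + μ * t ^ 2) * Q u) := by
    rw [hG, hQw]
  apply matrix_ext_mulVec
  intro v
  rw [two_refl_apply, two_refl_apply, hQGw, hQw, hG]
  have e1 : polar ⇑Q (G *ᵥ (s • u + t • (G *ᵥ u))) v =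
      s * polar ⇑Q (G *ᵥ u) v - μ * t * polar ⇑Q u v := by
    rw [hGw, QuadraticMap.polar_add_left, polar_smul_left', polar_smul_left']
    ring
  have e2 : polar ⇑Q (G *ᵥ (s • u + t • (G *ᵥ u))) (G *ᵥ u) = 2 * s * μ * Q u := by
    rw [hpol, QuadraticMap.polar_add_left, polar_smul_left', polar_smul_left', polar_self, h0']
    ring
  have e3 : polar ⇑Q (s • u + t • (G *ᵥ u)) v =
      s * polar ⇑Q u v + t * polar ⇑Q (G *ᵥ u) v := by
    rw [QuadraticMap.polar_add_left, polar_smul_left', polar_smul_left']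
  have e4 : polar ⇑Q (s • u + t • (G *ᵥ u)) u = 2 * s * Q u := by
    rw [QuadraticMap.polar_add_left, polar_smul_left', polar_smul_left', polar_self, h0']
    ring
  rw [e1, e2, e3, e4, hGw]
  funext i
  simp only [Pi.sub_apply, Pi.add_apply, Pi.smul_apply, smul_eq_mul]
  field_simp
  ring

end Refl

section Spin

variable {ι : Type} [Fintype ι] [DecidableEq ι] {F : Type*} [Field F] [Fintype F]
variable (Q : QuadraticForm F (ι → F))

/-- conjugating a product of reflections by a similarity -/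
theorem sim_mul_reflList (hv : ∃ v, Q v ≠ 0) (t : ↥(Geo.quadSimilarityGroup (F := F) ⇑Q))
    (vs : List (ι → F)) (hvs : ∀ v ∈ vs, Q v ≠ 0)
    (hvs' : ∀ v ∈ vs.map (fun v => ((t : GL ι F) : Matrix ι ι F) *ᵥ v), Q v ≠ 0) :
    t * isoSim Q (reflList Q vs hvs) =
      isoSim Q (reflList Q (vs.map (fun v => ((t : GL ι F) : Matrix ι ι F) *ᵥ v)) hvs') * t := by
  induction vs with
  | nil =>
    show t * 1 = 1 * t
    rw [mul_one, one_mul]
  | cons v vs ih =>
    have hvs1 : ∀ w ∈ vs, Q w ≠ 0 := fun w hw => hvs w (List.mem_cons_of_mem _ hw)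
    have hvs1' : ∀ w ∈ vs.map (fun v => ((t : GL ι F) : Matrix ι ι F) *ᵥ v), Q w ≠ 0 :=
      fun w hw => hvs' w (by rw [List.map_cons]; exact List.mem_cons_of_mem _ hw)
    have hv0 : Q v ≠ 0 := hvs v List.mem_cons_self
    have hv1 : Q (((t : GL ι F) : Matrix ι ι F) *ᵥ v) ≠ 0 :=
      hvs' _ (by rw [List.map_cons]; exact List.mem_cons_self)
    have e1 : reflList Q (v :: vs) hvs = refl Q v hv0 * reflList Q vs hvs1 := rfl
    have e2 : reflList Q ((v :: vs).map (fun v => ((t : GL ι F) : Matrix ι ι F) *ᵥ v)) hvs' =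
        refl Q (((t : GL ι F) : Matrix ι ι F) *ᵥ v) hv1 *
          reflList Q (vs.map (fun v => ((t : GL ι F) : Matrix ι ι F) *ᵥ v)) hvs1' := rfl
    rw [e1, e2, isoSim_mul, isoSim_mul, ← mul_assoc, sim_mul_refl Q hv t v hv0 hv1, mul_assoc,
      ih hvs1 hvs1', mul_assoc]

/-- the sign characters of a reflection and of its conjugate by a similarity with non-square
multiplier are opposite -/
theorem spin_pair (h2 : (2 : F) ≠ 0) (hv : ∃ v, Q v ≠ 0)
    (t : ↥(Geo.quadSimilarityGroup (F := F) ⇑Q)) (ht : ¬ IsSquare ((simMul Q hv t : Fˣ) : F))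
    (v : ι → F) (hv0 : Q v ≠ 0) (hv1 : Q (((t : GL ι F) : Matrix ι ι F) *ᵥ v) ≠ 0) :
    spinChar Q 1 (refl Q (((t : GL ι F) : Matrix ι ι F) *ᵥ v) hv1) *
      spinChar Q 1 (refl Q v hv0) = -1 := by
  have hν0 : ((simMul Q hv t : Fˣ) : F) ≠ 0 := Units.ne_zero _
  have hiff := isSquare_mul_iff (x := ((simMul Q hv t : Fˣ) : F)) (y := Q v) hν0 hv0
  by_cases hsq : IsSquare (Q v)
  · have h1 : ¬ IsSquare ((1 : F) * Q (((t : GL ι F) : Matrix ι ι F) *ᵥ v)) := by
      rw [one_mul, simMul_spec Q hv t v, hiff]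
      tauto
    rw [spinChar_refl_of_not_isSquare Q h2 1 one_ne_zero _ hv1 h1,
      spinChar_refl_of_isSquare Q h2 1 one_ne_zero v hv0 (by rwa [one_mul])]
    rfl
  · have h1 : IsSquare ((1 : F) * Q (((t : GL ι F) : Matrix ι ι F) *ᵥ v)) := by
      rw [one_mul, simMul_spec Q hv t v, hiff]
      tauto
    rw [spinChar_refl_of_isSquare Q h2 1 one_ne_zero _ hv1 h1,
      spinChar_refl_of_not_isSquare Q h2 1 one_ne_zero v hv0 (by rwa [one_mul])]
    rfl

theorem spin_list (h2 : (2 : F) ≠ 0) (hv : ∃ v, Q v ≠ 0)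
    (t : ↥(Geo.quadSimilarityGroup (F := F) ⇑Q)) (ht : ¬ IsSquare ((simMul Q hv t : Fˣ) : F))
    (vs : List (ι → F)) (hvs : ∀ v ∈ vs, Q v ≠ 0)
    (hvs' : ∀ v ∈ vs.map (fun v => ((t : GL ι F) : Matrix ι ι F) *ᵥ v), Q v ≠ 0) :
    spinChar Q 1 (reflList Q (vs.map (fun v => ((t : GL ι F) : Matrix ι ι F) *ᵥ v)) hvs') *
      spinChar Q 1 (reflList Q vs hvs) = (-1) ^ vs.length := by
  induction vs with
  | nil =>
    show spinChar Q 1 1 * spinChar Q 1 1 = _
    rw [map_one, one_mul, List.length_nil, pow_zero]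
  | cons v vs ih =>
    have hvs1 : ∀ w ∈ vs, Q w ≠ 0 := fun w hw => hvs w (List.mem_cons_of_mem _ hw)
    have hvs1' : ∀ w ∈ vs.map (fun v => ((t : GL ι F) : Matrix ι ι F) *ᵥ v), Q w ≠ 0 :=
      fun w hw => hvs' w (by rw [List.map_cons]; exact List.mem_cons_of_mem _ hw)
    have hv0 : Q v ≠ 0 := hvs v List.mem_cons_self
    have hv1 : Q (((t : GL ι F) : Matrix ι ι F) *ᵥ v) ≠ 0 :=
      hvs' _ (by rw [List.map_cons]; exact List.mem_cons_self)
    have e1 : reflList Q (v :: vs) hvs = refl Q v hv0 * reflList Q vs hvs1 := rfl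
    have e2 : reflList Q ((v :: vs).map (fun v => ((t : GL ι F) : Matrix ι ι F) *ᵥ v)) hvs' =
        refl Q (((t : GL ι F) : Matrix ι ι F) *ᵥ v) hv1 *
          reflList Q (vs.map (fun v => ((t : GL ι F) : Matrix ι ι F) *ᵥ v)) hvs1' := rfl
    rw [e1, e2, map_mul, map_mul, mul_mul_mul_comm, spin_pair Q h2 hv t ht v hv0 hv1,
      ih hvs1 hvs1', List.length_cons, pow_succ, mul_comm]

/-- **the spinor norm of a commutator**: a similarity with non-square multiplier and an isometry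
of determinant `≠ 1` have a commutator outside `Ω` -/
theorem comm_not_mem (hF : ringChar F ≠ 2) (hQ : PolarSep Q) (hv : ∃ v, Q v ≠ 0)
    (t : ↥(Geo.quadSimilarityGroup (F := F) ⇑Q)) (ht : ¬ IsSquare ((simMul Q hv t : Fˣ) : F))
    (s : ↥(isometryGroup F ⇑Q)) (hs : detO Q s ≠ 1) :
    ∃ s' : ↥(isometryGroup F ⇑Q), s' ∉ commutator ↥(isometryGroup F ⇑Q) ∧
      t * isoSim Q s * t⁻¹ * (isoSim Q s)⁻¹ = isoSim Q s' := by
  have h2 : (2 : F) ≠ 0 := Ring.two_ne_zero hF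
  obtain ⟨vs, hvs, rfl⟩ := exists_reflList Q h2 hQ s
  have hvs' : ∀ v ∈ vs.map (fun v => ((t : GL ι F) : Matrix ι ι F) *ᵥ v), Q v ≠ 0 := by
    intro w hw
    obtain ⟨v, hvm, rfl⟩ := List.mem_map.mp hw
    rw [simMul_spec Q hv t v]
    exact mul_ne_zero (Units.ne_zero _) (hvs v hvm)
  have hodd : Odd vs.length := by
    rw [← Nat.not_even_iff_odd]
    intro hev
    apply hs
    rw [detO_reflList, hev.neg_one_pow]
  refine ⟨reflList Q (vs.map (fun v => ((t : GL ι F) : Matrix ι ι F) *ᵥ v)) hvs' *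
    (reflList Q vs hvs)⁻¹, ?_, ?_⟩
  · intro hmem
    have h1 := spinChar_eq_one_of_mem Q 1 _ hmem
    rw [map_mul, map_inv, Int.units_inv_eq_self, spin_list Q h2 hv t ht vs hvs hvs',
      hodd.neg_one_pow] at h1
    exact absurd h1 (by decide)
  · rw [sim_mul_reflList Q hv t vs hvs hvs', isoSim_mul, isoSim_inv]
    group

end Spin

end Cfsg.Agent.Lib.Helper51.GGRefl
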