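import Mathlib
import Cfsg.Agent.Lib.Helper51.GGRefl
import Cfsg.Agent.Lib.Helper8.GGUNIV
import Cfsg.Agent.Lib.Helper30.GGQEXT
import Cfsg.Agent.Lib.Helper51.GFDefs2
import Cfsg.Agent.Lib.Helper53.SplitAbs

/-!
# S2718 (helper51): splitting of the class of an involutory similarity graph automorphism of
`PΩ⁺_{2m}(q)`, `q` odd
-/

set_option autoImplicit false
set_option linter.unusedSectionVars false
set_option linter.unusedVariables false

namespace Cfsg.Agent.Lib.Helper51.GGMain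

open Module QuadraticMap Matrix
open Cfsg Cfsg.Agent.Lib.Helper51 Cfsg.Agent.Lib.Helper54 Cfsg.Agent.Lib.Helper51.GGRefl
  Cfsg.Agent.Lib.Helper51.GF

/-! ## abstract counting -/

theorem count_four {X : Type*} [Group X] (D N : Subgroup X) (hND : N ≤ D) {A : Type*}
    [CommGroup A] (hA : Nat.card A = 4) (φ : ↥D →* A) (hφ : Function.Surjective φ)
    (hker : φ.ker = N.subgroupOf D) (x : X)
    (h1 : ∃ c ∈ D ⊓ Subgroup.centralizer {x}, c ∉ N)
    (h2 : ∃ D₂ : Subgroup X, N ≤ D₂ ∧ D ⊓ Subgroup.centralizer {x} ≤ D₂ ∧ ¬ D ≤ D₂) :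
    splitClassCount D N x = 2 := by
  have key := Cfsg.Agent.Lib.Helper53.SplitAbs.split_abstract D.subtype φ hφ x
  rw [Subgroup.range_subtype, hker, Subgroup.subgroupOf_map_subtype, inf_eq_left.mpr hND] at key
  have : Finite A := Nat.finite_of_card_ne_zero (by rw [hA]; norm_num)
  obtain ⟨S, hS⟩ : ∃ S : Subgroup A, S = ((Subgroup.centralizer {x}).comap D.subtype).map φ :=
    ⟨_, rfl⟩
  rw [← hS] at key
  have hmul := S.card_mul_index
  rw [hA] at hmul
  have hmemS : ∀ c (hc : c ∈ D), c ∈ Subgroup.centralizer {x} → φ ⟨c, hc⟩ ∈ S := by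
    intro c hc hcx
    rw [hS]
    exact ⟨⟨c, hc⟩, hcx, rfl⟩
  obtain ⟨c, ⟨hcD, hcx⟩, hcN⟩ := h1
  obtain ⟨D₂, hN2, hC2, hD2⟩ := h2
  have hne_bot : Nat.card S ≠ 1 := by
    intro h1
    have hb : S = ⊥ := Subgroup.card_eq_one.mp h1
    have h2 : φ ⟨c, hcD⟩ ∈ S := hmemS c hcD hcx
    rw [hb, Subgroup.mem_bot] at h2
    have h3 : (⟨c, hcD⟩ : ↥D) ∈ φ.ker := MonoidHom.mem_ker.mpr h2
    rw [hker] at h3
    exact hcN (Subgroup.mem_subgroupOf.mp h3)
  have hne_top : Nat.card S ≠ 4 := by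
    intro h4
    have ht : S = ⊤ := (Subgroup.card_eq_iff_eq_top S).mp (by rw [h4, hA])
    apply hD2
    intro d hd
    have hdS : φ ⟨d, hd⟩ ∈ S := by
      rw [ht]
      trivial
    rw [hS] at hdS
    obtain ⟨c', hc', hcd⟩ := hdS
    have hk : (⟨d, hd⟩ : ↥D) * c'⁻¹ ∈ φ.ker := by
      rw [MonoidHom.mem_ker, map_mul, map_inv, hcd, mul_inv_cancel]
    rw [hker] at hk
    have h1 : d * (c'.1)⁻¹ ∈ N := Subgroup.mem_subgroupOf.mp hk
    have h2 : c'.1 ∈ D₂ := hC2 ⟨c'.2, hc'⟩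
    have h3 : d = d * (c'.1)⁻¹ * c'.1 := by group
    rw [h3]
    exact mul_mem (hN2 h1) h2
  have hdvd : Nat.card S ∣ 4 := ⟨S.index, hmul.symm⟩
  have hle : Nat.card S ≤ 4 := Nat.le_of_dvd (by norm_num) hdvd
  have hpos : 0 < Nat.card S := Nat.card_pos
  have hcard2 : Nat.card S = 2 := by
    have h3 : Nat.card S ≠ 3 := by
      intro h3
      rw [h3] at hdvd
      omega
    omega
  rw [key]
  rw [hcard2] at hmul
  omega

theorem count_two {X : Type*} [Group X] (D N : Subgroup X) (hND : N ≤ D) {A : Type*}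
    [CommGroup A] (hA : Nat.card A = 2) (φ : ↥D →* A) (hφ : Function.Surjective φ)
    (hker : φ.ker = N.subgroupOf D) (x : X) :
    splitClassCount D N x = 1 ∨ splitClassCount D N x = 2 := by
  have key := Cfsg.Agent.Lib.Helper53.SplitAbs.split_abstract D.subtype φ hφ x
  rw [Subgroup.range_subtype, hker, Subgroup.subgroupOf_map_subtype, inf_eq_left.mpr hND] at key
  have : Finite A := Nat.finite_of_card_ne_zero (by rw [hA]; norm_num)
  obtain ⟨S, hS⟩ : ∃ S : Subgroup A, S = ((Subgroup.centralizer {x}).comap D.subtype).map φ :=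
    ⟨_, rfl⟩
  rw [← hS] at key
  have hmul := S.card_mul_index
  rw [hA] at hmul
  rw [key]
  have hdvd : S.index ∣ 2 := ⟨Nat.card S, by rw [mul_comm]; exact hmul.symm⟩
  have hle : S.index ≤ 2 := Nat.le_of_dvd (by norm_num) hdvd
  have hpos : S.index ≠ 0 := by
    intro h0
    rw [h0] at hmul
    omega
  omega

/-! ## squares -/

theorem unit_isSquare_iff {K : Type*} [Field K] (a : Kˣ) : IsSquare a ↔ IsSquare (a : K) := by
  constructor
  · rintro ⟨r, rfl⟩
    exact ⟨(r : K), by rw [Units.val_mul]⟩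
  · rintro ⟨r, hr⟩
    have hr0 : r ≠ 0 := by
      rintro rfl
      rw [mul_zero] at hr
      exact a.ne_zero hr
    exact ⟨Units.mk0 r hr0, Units.ext (by rw [hr]; rfl)⟩

theorem unit_sq_of_not_not {K : Type*} [Field K] [Fintype K] (hK : ringChar K ≠ 2) (a b : Kˣ)
    (ha : ¬ IsSquare a) (hb : ¬ IsSquare b) : IsSquare (a * b⁻¹) := by
  classical
  rw [unit_isSquare_iff] at ha hb
  have h1 : quadraticChar K ((a * b : Kˣ) : K) = 1 := by
    rw [Units.val_mul, map_mul, quadraticChar_neg_one_iff_not_isSquare.mpr ha,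
      quadraticChar_neg_one_iff_not_isSquare.mpr hb]
    norm_num
  have h2 : IsSquare ((a * b : Kˣ) : K) :=
    (quadraticChar_one_iff_isSquare (a * b).ne_zero).mp h1
  rw [← unit_isSquare_iff] at h2
  have h3 : a * b⁻¹ = (a * b) * (b⁻¹ * b⁻¹) := by group
  rw [h3]
  exact h2.mul ⟨b⁻¹, rfl⟩

/-- a binary form `s² + μ t²` represents a non-square -/
theorem exists_binary_nonsquare {K : Type*} [Field K] [Fintype K] (hK : ringChar K ≠ 2) (μ : K)
    (hμ : μ ≠ 0) : ∃ s t : K, ¬ IsSquare (s ^ 2 + μ * t ^ 2) := by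
  classical
  obtain ⟨n, hn⟩ := FiniteField.exists_nonsquare hK
  have hf : (Polynomial.X ^ 2 : Polynomial K).degree = 2 := Polynomial.degree_X_pow 2
  have hg : (Polynomial.C μ * Polynomial.X ^ 2 - Polynomial.C n : Polynomial K).degree = 2 := by
    rw [Polynomial.degree_sub_C (by rw [Polynomial.degree_C_mul_X_pow 2 hμ]; norm_num),
      Polynomial.degree_C_mul_X_pow 2 hμ]
    rfl
  obtain ⟨a, b, hab⟩ := FiniteField.exists_root_sum_quadratic hf hg
    (FiniteField.odd_card_of_char_ne_two hK)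
  refine ⟨a, b, ?_⟩
  simp only [Polynomial.eval_pow, Polynomial.eval_X, Polynomial.eval_sub, Polynomial.eval_mul,
    Polynomial.eval_C] at hab
  have : a ^ 2 + μ * b ^ 2 = n := by linear_combination hab
  rw [this]
  exact hn

/-! ## general lemmas on similarities -/

section Sim

variable {ι : Type} [Fintype ι] [DecidableEq ι] {F : Type*} [Field F] [Fintype F]
variable (Q : QuadraticForm F (ι → F))

theorem isoSim_injective : Function.Injective (isoSim Q) := by
  intro a b h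
  have h1 := congrArg (fun z : ↥(Geo.quadSimilarityGroup (F := F) ⇑Q) => (z : GL ι F)) h
  exact Subtype.ext h1

theorem exists_iso_of_simMul_one (hv : ∃ v, Q v ≠ 0)
    (g : ↥(Geo.quadSimilarityGroup (F := F) ⇑Q)) (h : simMul Q hv g = 1) :
    ∃ s : ↥(isometryGroup F ⇑Q), isoSim Q s = g := by
  refine ⟨⟨(g : GL ι F), (Cfsg.Agent.Lib.Helper54.mem_isometryGroup_iff' ⇑Q _).mpr (fun u => ?_)⟩,
    rfl⟩
  rw [simMul_spec Q hv g u, h, Units.val_one, one_mul]

theorem scalar_comm (c : Fˣ) (x : ↥(Geo.quadSimilarityGroup (F := F) ⇑Q)) :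
    scalarSim Q c * x = x * scalarSim Q c := by
  apply Subtype.ext
  apply Units.ext
  show (((scalarSim Q c : ↥(Geo.quadSimilarityGroup (F := F) ⇑Q)) : GL ι F) : Matrix ι ι F) *
      ((x : GL ι F) : Matrix ι ι F) = ((x : GL ι F) : Matrix ι ι F) *
      (((scalarSim Q c : ↥(Geo.quadSimilarityGroup (F := F) ⇑Q)) : GL ι F) : Matrix ι ι F)
  rw [coe_scalarSim, Matrix.smul_mul, Matrix.mul_smul, Matrix.one_mul, Matrix.mul_one]

theorem simMul_scalarSim (hv : ∃ v, Q v ≠ 0) (c : Fˣ) : simMul Q hv (scalarSim Q c) = c * c := by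
  apply Units.ext
  rw [simMul_of_scalar Q hv (scalarSim Q c) (c : F) (coe_scalarSim Q c), Units.val_mul]

/-- a similarity with square multiplier is a scalar times an isometry -/
theorem exists_scalar_iso (hv : ∃ v, Q v ≠ 0) (g : ↥(Geo.quadSimilarityGroup (F := F) ⇑Q))
    (h : IsSquare (simMul Q hv g)) :
    ∃ (c : Fˣ) (s : ↥(isometryGroup F ⇑Q)), g = scalarSim Q c * isoSim Q s := by
  obtain ⟨c, hc⟩ := h
  have h1 : simMul Q hv ((scalarSim Q c)⁻¹ * g) = 1 := by
    rw [map_mul, map_inv, simMul_scalarSim, hc, inv_mul_cancel]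
  obtain ⟨s, hs⟩ := exists_iso_of_simMul_one Q hv _ h1
  exact ⟨c, s, by rw [hs, mul_inv_cancel_left]⟩

theorem two_refl_not_mem (hF : ringChar F ≠ 2) (x y : ι → F) (hx : Q x ≠ 0) (hy : Q y ≠ 0)
    (hns : ¬ IsSquare (Q x * Q y)) :
    detO Q (refl Q x hx * refl Q y hy) = 1 ∧
      refl Q x hx * refl Q y hy ∉ commutator ↥(isometryGroup F ⇑Q) := by
  have hiff := isSquare_mul_iff (x := Q x) (y := Q y) hx hy
  by_cases hsx : IsSquare (Q x)
  · have hsy : ¬ IsSquare (Q y) := fun h => hns (hiff.mpr ⟨fun _ => h, fun _ => hsx⟩)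
    exact exists_special_not_commutator Q hF x y hx hy hsx hsy
  · have hsy : IsSquare (Q y) := by
      by_contra h
      exact hns (hiff.mpr ⟨fun h' => absurd h' hsx, fun h' => absurd h' h⟩)
    obtain ⟨hd, hn⟩ := exists_special_not_commutator Q hF y x hy hx hsy hsx
    have hinv : refl Q x hx * refl Q y hy = (refl Q y hy * refl Q x hx)⁻¹ := by
      rw [_root_.mul_inv_rev, refl_inv, refl_inv]
    refine ⟨?_, ?_⟩
    · rw [hinv, map_inv, hd, inv_one]
    · rw [hinv]
      intro hmem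
      exact hn (by simpa using inv_mem hmem)

/-- conjugating a product of two reflections by a similarity -/
theorem sim_mul_two_refl (hv : ∃ v, Q v ≠ 0) (t : ↥(Geo.quadSimilarityGroup (F := F) ⇑Q))
    (x y : ι → F) (hx : Q x ≠ 0) (hy : Q y ≠ 0)
    (hx' : Q (((t : GL ι F) : Matrix ι ι F) *ᵥ x) ≠ 0)
    (hy' : Q (((t : GL ι F) : Matrix ι ι F) *ᵥ y) ≠ 0) :
    t * isoSim Q (refl Q x hx * refl Q y hy) =
      isoSim Q (refl Q (((t : GL ι F) : Matrix ι ι F) *ᵥ x) hx' *
        refl Q (((t : GL ι F) : Matrix ι ι F) *ᵥ y) hy') * t := by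
  rw [isoSim_mul, isoSim_mul, ← mul_assoc, sim_mul_refl Q hv t x hx hx', mul_assoc,
    sim_mul_refl Q hv t y hy hy', mul_assoc]

end Sim

/-! ## the centraliser consists of similarities with square multiplier -/

section Cent

variable {ι : Type} [Fintype ι] [DecidableEq ι] {F : Type*} [Field F] [Fintype F]
variable (Q : QuadraticForm F (ι → F))

theorem central_cancel {G : Type*} [Group G] (z : G) (hz : ∀ x : G, z * x = x * z) (a b : G) :
    a * (z * b) * a⁻¹ * (z * b)⁻¹ = a * b * a⁻¹ * b⁻¹ := by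
  calc a * (z * b) * a⁻¹ * (z * b)⁻¹ = a * b * (z * a⁻¹) * z⁻¹ * b⁻¹ := by
        rw [hz b]
        group
    _ = a * b * (a⁻¹ * z) * z⁻¹ * b⁻¹ := by rw [hz a⁻¹]
    _ = a * b * a⁻¹ * b⁻¹ := by group

theorem central_cancel' {G : Type*} [Group G] (z : G) (hz : ∀ x : G, z * x = x * z) (a b : G) :
    a * (z * b * a) * a⁻¹ * (z * b * a)⁻¹ = a * b * a⁻¹ * b⁻¹ := by
  calc a * (z * b * a) * a⁻¹ * (z * b * a)⁻¹ = a * b * (z * a⁻¹) * z⁻¹ * b⁻¹ := by
        rw [hz b]
        group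
    _ = a * b * (a⁻¹ * z) * z⁻¹ * b⁻¹ := by rw [hz a⁻¹]
    _ = a * b * a⁻¹ * b⁻¹ := by group

set_option maxHeartbeats 1600000 in
theorem sq_of_cent (hF : ringChar F ≠ 2) (hQ : PolarSep Q) (hv : ∃ v, Q v ≠ 0) (m : ℕ)
    (hcard : Fintype.card ι = 2 * m)
    (hker : ∀ g : ↥(Geo.quadSimilarityGroup (F := F) ⇑Q), simAut ⇑Q g = 1 →
      ∃ α : F, ((g : GL ι F) : Matrix ι ι F) = α • 1)
    (hneg : negO Q ∈ commutator ↥(isometryGroup F ⇑Q))
    (g h : ↥(Geo.quadSimilarityGroup (F := F) ⇑Q))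
    (hh : simSgn Q hv m h = 1) (hg : simSgn Q hv m g ≠ 1)
    (hcomm : simAut ⇑Q h * simAut ⇑Q g = simAut ⇑Q g * simAut ⇑Q h) :
    IsSquare (simMul Q hv h) := by
  by_contra hns
  have hk : simAut ⇑Q (h * g * h⁻¹ * g⁻¹) = 1 := by
    rw [map_mul, map_mul, map_mul, map_inv, map_inv, hcomm]
    group
  obtain ⟨α, hα⟩ := hker _ hk
  have hmul1 : simMul Q hv (h * g * h⁻¹ * g⁻¹) = 1 := by
    rw [map_mul, map_mul, map_mul, map_inv, map_inv, mul_right_comm (simMul Q hv h),
      mul_inv_cancel, one_mul, mul_inv_cancel]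
  have hαα : α * α = 1 := by
    have h1 := simMul_of_scalar Q hv _ α hα
    rw [hmul1, Units.val_one] at h1
    exact h1.symm
  have hkiso : ∃ s₀ : ↥(isometryGroup F ⇑Q), s₀ ∈ commutator ↥(isometryGroup F ⇑Q) ∧
      h * g * h⁻¹ * g⁻¹ = isoSim Q s₀ := by
    rcases mul_self_eq_one_iff.mp hαα with rfl | rfl
    · refine ⟨1, Subgroup.one_mem _, ?_⟩
      apply Subtype.ext
      apply Units.ext
      rw [hα, one_smul]
      rfl
    · refine ⟨negO Q, hneg, ?_⟩
      apply Subtype.ext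
      apply Units.ext
      rw [hα]
      show _ = (((negO Q : ↥(isometryGroup F ⇑Q)) : GL ι F) : Matrix ι ι F)
      rw [coe_negO, neg_smul, one_smul]
  obtain ⟨s₀, hs₀, hks₀⟩ := hkiso
  by_cases hsq : IsSquare (simMul Q hv g)
  · obtain ⟨c, s, hgs⟩ := exists_scalar_iso Q hv g hsq
    have hs : detO Q s ≠ 1 := by
      intro h1
      apply hg
      rw [hgs, map_mul, simSgn_of_scalar Q hv m hcard (scalarSim Q c) (c : F) (coe_scalarSim Q c),
        simSgn_isoSim, h1, one_mul]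
    obtain ⟨s', hs', heq⟩ := comm_not_mem Q hF hQ hv h
      (fun hh' => hns ((unit_isSquare_iff _).mpr hh')) s hs
    have e1 : h * g * h⁻¹ * g⁻¹ = isoSim Q s' := by
      rw [hgs, central_cancel (scalarSim Q c) (scalar_comm Q c), heq]
    rw [hks₀] at e1
    have e2 : s₀ = s' := isoSim_injective Q e1
    exact hs' (e2 ▸ hs₀)
  · have hsq' : IsSquare (simMul Q hv (h * g⁻¹)) := by
      rw [map_mul, map_inv]
      exact unit_sq_of_not_not hF _ _ hns hsq
    obtain ⟨c, s, hgs⟩ := exists_scalar_iso Q hv (h * g⁻¹) hsq'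
    have hh' : h = scalarSim Q c * isoSim Q s * g := by
      rw [← hgs]
      group
    have hs : detO Q s ≠ 1 := by
      intro h1
      apply hg
      have h3 : simSgn Q hv m (h * g⁻¹) = 1 := by
        rw [hgs, map_mul, simSgn_of_scalar Q hv m hcard (scalarSim Q c) (c : F)
          (coe_scalarSim Q c), simSgn_isoSim, h1, one_mul]
      rw [map_mul, map_inv, hh, one_mul, inv_eq_one] at h3
      exact h3
    obtain ⟨s', hs', heq⟩ := comm_not_mem Q hF hQ hv g
      (fun hh' => hsq ((unit_isSquare_iff _).mpr hh')) s hs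
    have e1 : (h * g * h⁻¹ * g⁻¹)⁻¹ = isoSim Q s' := by
      have e0 : (h * g * h⁻¹ * g⁻¹)⁻¹ = g * h * g⁻¹ * h⁻¹ := by group
      rw [e0, hh', central_cancel' (scalarSim Q c) (scalar_comm Q c), heq]
    rw [hks₀, ← isoSim_inv] at e1
    have e2 : s₀⁻¹ = s' := isoSim_injective Q e1
    exact hs' (e2 ▸ inv_mem hs₀)

end Cent

/-! ## an element of the centraliser outside `Ω` -/

section Plus

variable {F : Type*} [Field F] [Fintype F] {m : ℕ}

set_option maxHeartbeats 1600000 in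
theorem exists_cent (hF : ringChar F ≠ 2) (hm : 3 ≤ m) (hm1 : 1 ≤ m)
    (g : ↥(Geo.quadSimilarityGroup (F := F) ⇑(QPlus m F)))
    (hg : simSgn (QPlus m F) (hv_plus hm1) m g ≠ 1)
    (hgg : simAut ⇑(QPlus m F) (g * g) = 1) :
    ∃ s : ↥(isometryGroup F ⇑(QPlus m F)), detO (QPlus m F) s = 1 ∧
      s ∉ commutator ↥(isometryGroup F ⇑(QPlus m F)) ∧
      g * isoSim (QPlus m F) s = isoSim (QPlus m F) s * g := by
  have h2 : (2 : F) ≠ 0 := Ring.two_ne_zero hF
  have hv := hv_plus (F := F) hm1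
  obtain ⟨G, hGdef⟩ : ∃ G : Matrix (Fin m ⊕ Fin m) (Fin m ⊕ Fin m) F,
      G = ((g : GL (Fin m ⊕ Fin m) F) : Matrix (Fin m ⊕ Fin m) (Fin m ⊕ Fin m) F) := ⟨_, rfl⟩
  obtain ⟨μ, hμdef⟩ : ∃ μ : F, μ = ((simMul (QPlus m F) (hv_plus hm1) g : Fˣ) : F) := ⟨_, rfl⟩
  have hμ0 : μ ≠ 0 := by
    rw [hμdef]
    exact Units.ne_zero _
  have hG : ∀ v, QPlus m F (G *ᵥ v) = μ * QPlus m F v := by
    intro v
    rw [hGdef, hμdef]
    exact simMul_spec (QPlus m F) (hv_plus hm1) g v
  obtain ⟨α, hα⟩ := simAut_ker_plus hm (g * g) hgg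
  have hGG : G * G = α • (1 : Matrix (Fin m ⊕ Fin m) (Fin m ⊕ Fin m) F) := by
    rw [hGdef, ← hα]
    rfl
  have hαμ : α * α = μ * μ := by
    have h1 := simMul_of_scalar (QPlus m F) (hv_plus hm1) (g * g) α hα
    rw [map_mul, Units.val_mul, ← hμdef] at h1
    exact h1.symm
  -- the general shape of the conclusion from two vectors
  have key : ∀ (x y : Fin m ⊕ Fin m → F) (hx : QPlus m F x ≠ 0) (hy : QPlus m F y ≠ 0),
      ¬ IsSquare (QPlus m F x * QPlus m F y) →
      reflectionMatrix ⇑(QPlus m F) (G *ᵥ x) * reflectionMatrix ⇑(QPlus m F) (G *ᵥ y) =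
        reflectionMatrix ⇑(QPlus m F) x * reflectionMatrix ⇑(QPlus m F) y →
      ∃ s : ↥(isometryGroup F ⇑(QPlus m F)), detO (QPlus m F) s = 1 ∧
        s ∉ commutator ↥(isometryGroup F ⇑(QPlus m F)) ∧
        g * isoSim (QPlus m F) s = isoSim (QPlus m F) s * g := by
    intro x y hx hy hns hmat
    obtain ⟨hd, hn⟩ := two_refl_not_mem (QPlus m F) hF x y hx hy hns
    have hx' : QPlus m F (((g : GL (Fin m ⊕ Fin m) F) :
        Matrix (Fin m ⊕ Fin m) (Fin m ⊕ Fin m) F) *ᵥ x) ≠ 0 := by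
      rw [← hGdef, hG]
      exact mul_ne_zero hμ0 hx
    have hy' : QPlus m F (((g : GL (Fin m ⊕ Fin m) F) :
        Matrix (Fin m ⊕ Fin m) (Fin m ⊕ Fin m) F) *ᵥ y) ≠ 0 := by
      rw [← hGdef, hG]
      exact mul_ne_zero hμ0 hy
    refine ⟨refl (QPlus m F) x hx * refl (QPlus m F) y hy, hd, hn, ?_⟩
    rw [sim_mul_two_refl (QPlus m F) (hv_plus hm1) g x y hx hy hx' hy']
    congr 2
    apply isometry_ext
    rw [coe_mul', coe_mul', coe_refl, coe_refl, coe_refl, coe_refl, ← hGdef]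
    exact hmat
  rcases mul_self_eq_mul_self_iff.mp hαμ with hαeq | hαeq
  · -- `G * G = μ`
    rw [hαeq] at hGG
    by_cases hsq : IsSquare μ
    · obtain ⟨c, hc⟩ := hsq
      have hc0 : c ≠ 0 := by
        rintro rfl
        rw [mul_zero] at hc
        exact hμ0 hc
      have hJJ : (c⁻¹ • G) * (c⁻¹ • G) = 1 := by
        rw [Matrix.smul_mul, Matrix.mul_smul, hGG, smul_smul, smul_smul, hc]
        have : c⁻¹ * c⁻¹ * (c * c) = 1 := by field_simp
        rw [this, one_smul]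
      have hJ : ∀ v, QPlus m F ((c⁻¹ • G) *ᵥ v) = QPlus m F v := by
        intro v
        rw [Matrix.smul_mulVec, QuadraticMap.map_smul, hG, hc, smul_eq_mul]
        field_simp
      have hscal : ∀ a : F, G = a • (1 : Matrix (Fin m ⊕ Fin m) (Fin m ⊕ Fin m) F) → False := by
        intro a ha
        apply hg
        exact simSgn_of_scalar (QPlus m F) (hv_plus hm1) m card_plus g a (by rw [← hGdef, ha])
      have hJ1 : c⁻¹ • G ≠ 1 := by
        intro h1
        apply hscal c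
        have := congrArg (fun M => c • M) h1
        simp only [smul_smul, mul_inv_cancel₀ hc0, one_smul] at this
        exact this
      have hJ2 : c⁻¹ • G ≠ -1 := by
        intro h1
        apply hscal (-c)
        have := congrArg (fun M => c • M) h1
        simp only [smul_smul, mul_inv_cancel₀ hc0, one_smul, smul_neg] at this
        rw [this, neg_smul]
      have hcard3 : 3 ≤ Fintype.card (Fin m ⊕ Fin m) := by
        rw [card_plus]
        omega
      obtain ⟨ε, hε, huniv⟩ := Cfsg.Agent.Lib.Helper8.GGUNIV.univ_eigen h2 (QPlus m F) polarSep_plus hcard3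
        (c⁻¹ • G) hJJ hJ hJ1 hJ2
      obtain ⟨n, hn⟩ := FiniteField.exists_nonsquare hF
      have hn0 : n ≠ 0 := by
        rintro rfl
        exact hn ⟨0, (mul_zero 0).symm⟩
      obtain ⟨x, hJx, hQx⟩ := huniv 1 one_ne_zero
      obtain ⟨y, hJy, hQy⟩ := huniv n hn0
      have hε0 : c * ε ≠ 0 := by
        rcases hε with rfl | rfl
        · rw [mul_one]
          exact hc0
        · rw [mul_neg, mul_one]
          exact neg_ne_zero.mpr hc0
      have hGx : ∀ z, (c⁻¹ • G) *ᵥ z = ε • z → G *ᵥ z = (c * ε) • z := by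
        intro z hz
        rw [Matrix.smul_mulVec] at hz
        have := congrArg (fun w => c • w) hz
        simp only [smul_smul, mul_inv_cancel₀ hc0, one_smul] at this
        exact this
      refine key x y (by rw [hQx]; exact one_ne_zero) (by rw [hQy]; exact hn0)
        (by rw [hQx, hQy, one_mul]; exact hn) ?_
      rw [hGx x hJx, hGx y hJy, reflectionMatrix_smul _ x _ hε0, reflectionMatrix_smul _ y _ hε0]
    · have hm2 : 2 ≤ m := by omega
      obtain ⟨u, hu1, hu0⟩ := Cfsg.Agent.Lib.Helper30.GGQEXT.exists_unit_orth h2 hm2 G μ hsq hGG hG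
      have hGGu : G *ᵥ (G *ᵥ u) = μ • u := by
        rw [Matrix.mulVec_mulVec, hGG, Matrix.smul_mulVec, Matrix.one_mulVec]
      have hQGu : QPlus m F (G *ᵥ u) = μ := by rw [hG, hu1, mul_one]
      refine key u (G *ᵥ u) (by rw [hu1]; exact one_ne_zero) (by rw [hQGu]; exact hμ0)
        (by rw [hu1, hQGu, one_mul]; exact hsq) ?_
      rw [hGGu, reflectionMatrix_smul _ u _ hμ0]
      exact refl_comm_of_orth (QPlus m F) h2 (G *ᵥ u) u (by rw [polar_comm', hu0])
  · -- `G * G = -μ`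
    rw [hαeq] at hGG
    obtain ⟨s, t, hst⟩ := exists_binary_nonsquare hF μ hμ0
    have hn : s ^ 2 + μ * t ^ 2 ≠ 0 := by
      intro h0
      rw [h0] at hst
      exact hst ⟨0, (mul_zero 0).symm⟩
    obtain ⟨u, hu⟩ := hv
    obtain ⟨hQw, hrot⟩ := rot_comm (QPlus m F) h2 G μ hμ0 hGG hG u hu s t hn
    have hw : QPlus m F (s • u + t • (G *ᵥ u)) ≠ 0 := by
      rw [hQw]
      exact mul_ne_zero hn hu
    refine key (s • u + t • (G *ᵥ u)) u hw hu ?_ hrot
    rw [hQw]
    rintro ⟨r, hr⟩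
    apply hst
    refine ⟨r / QPlus m F u, ?_⟩
    field_simp
    linear_combination hr

end Plus

/-! ## the statement for a form given as a function -/

section Main

variable {F : Type*} [Field F] [Fintype F] {m : ℕ}

set_option maxHeartbeats 3200000 in
theorem main_q (hodd : Odd (Fintype.card F)) (hm : 4 ≤ m)
    (q : (Fin m ⊕ Fin m → F) → F) (hq : ⇑(QPlus m F) = q)
    (γ : MulAut (POmega F q))
    (hγ : ∃ g : GL (Fin m ⊕ Fin m) F, g ∈ Geo.quadSimilarityGroup (F := F) q ∧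
      ¬ PreservesSingularClasses q (g : Matrix (Fin m ⊕ Fin m) (Fin m ⊕ Fin m) F) ∧
      IsInducedBySemilinearPOmega q g (RingEquiv.refl F) γ)
    (hγ2 : orderOf γ = 2) :
    (splitClassCount (gInndiag q) (Inn (POmega F q)) γ = 1 ∨
      splitClassCount (gInndiag q) (Inn (POmega F q)) γ = 2) ∧
    (¬ (Odd m ∧ Fintype.card F % 4 = 3) →
      splitClassCount (gInndiag q) (Inn (POmega F q)) γ = 2) := by
  classical
  subst hq
  have hF := ringChar_ne_two_of_odd hodd
  have h2 : (2 : F) ≠ 0 := Ring.two_ne_zero hF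
  have hm1 : 1 ≤ m := by omega
  have hm3 : 3 ≤ m := by omega
  obtain ⟨g₀, hg₀, hnp, hind⟩ := hγ
  obtain ⟨g, hgdef⟩ : ∃ g : ↥(Geo.quadSimilarityGroup (F := F) ⇑(QPlus m F)), g = ⟨g₀, hg₀⟩ :=
    ⟨_, rfl⟩
  have hγg : γ = simAut ⇑(QPlus m F) g := by
    rw [hgdef]
    exact (Cfsg.Agent.Lib.Helper54.induced_iff _ ⟨g₀, hg₀⟩ γ).mp hind
  have hsgn : simSgn (QPlus m F) (hv_plus hm1) m g ≠ 1 := by
    intro h
    apply hnp
    have h3 := (preserves_iff_plus hF hm1 g).mpr h
    rw [hgdef] at h3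
    exact h3
  subst hγg
  have hgg : simAut ⇑(QPlus m F) (g * g) = 1 := by
    rw [map_mul, ← pow_two, ← hγ2]
    exact pow_orderOf_eq_one _
  have hD1 : gInndiag ⇑(QPlus m F) =
      ((simSgn (QPlus m F) (hv_plus hm1) m).ker).map (simAut ⇑(QPlus m F)) :=
    inndiagPlus_eq hF hm1
  have hInnLe : Inn (POmega F ⇑(QPlus m F)) ≤ gInndiag ⇑(QPlus m F) := by
    rw [hD1, inn_eq]
    exact Subgroup.map_mono (omega_le_sgnKer (QPlus m F) (hv_plus hm1) m)
  obtain ⟨gen2, gen4, genV⟩ := plus_inndiag_gen hodd hm3 ⇑(QPlus m F) rfl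
  have hcase1 : (Odd m ∧ Fintype.card F % 4 = 3) →
      (splitClassCount (gInndiag ⇑(QPlus m F)) (Inn (POmega F ⇑(QPlus m F)))
          (simAut ⇑(QPlus m F) g) = 1 ∨
        splitClassCount (gInndiag ⇑(QPlus m F)) (Inn (POmega F ⇑(QPlus m F)))
          (simAut ⇑(QPlus m F) g) = 2) := by
    intro hc
    obtain ⟨φ, hφ, hker⟩ := gen2 hc
    exact count_two (gInndiag ⇑(QPlus m F)) (Inn _) hInnLe
      (by rw [Nat.card_eq_fintype_card, Fintype.card_multiplicative, ZMod.card]) φ hφ hker _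
  have hcase2 : ¬ (Odd m ∧ Fintype.card F % 4 = 3) →
      splitClassCount (gInndiag ⇑(QPlus m F)) (Inn (POmega F ⇑(QPlus m F)))
          (simAut ⇑(QPlus m F) g) = 2 := by
    intro hc
    have hneg : negO (QPlus m F) ∈ commutator ↥(isometryGroup F ⇑(QPlus m F)) :=
      (negO_mem_plus_iff h2).mpr ((neg_one_cond hodd m).mpr hc)
    have h1 : ∃ c ∈ gInndiag ⇑(QPlus m F) ⊓ Subgroup.centralizer {simAut ⇑(QPlus m F) g},
        c ∉ Inn (POmega F ⇑(QPlus m F)) := by
      obtain ⟨s, hdet, hsn, hcomm⟩ := exists_cent hF hm3 hm1 g hsgn hgg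
      refine ⟨simAut ⇑(QPlus m F) (isoSim (QPlus m F) s), ⟨?_, ?_⟩, ?_⟩
      · rw [hD1]
        exact ⟨_, MonoidHom.mem_ker.mpr (by rw [simSgn_isoSim, hdet]), rfl⟩
      · refine Subgroup.mem_centralizer_iff.mpr ?_
        intro y hy
        rw [Set.mem_singleton_iff] at hy
        rw [hy, ← map_mul, ← map_mul, hcomm]
      · rw [inn_eq]
        rintro ⟨y, hy, hys⟩
        have hmem : isoSim (QPlus m F) s ∈
            (omegaGL ⇑(QPlus m F)).subgroupOf (Geo.quadSimilarityGroup (F := F) ⇑(QPlus m F)) ⊔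
              (simAut ⇑(QPlus m F)).ker := by
          have h3 : isoSim (QPlus m F) s = y * (y⁻¹ * isoSim (QPlus m F) s) := by group
          rw [h3]
          exact Subgroup.mul_mem_sup hy
            (MonoidHom.mem_ker.mpr (by rw [map_mul, map_inv, hys, inv_mul_cancel]))
        exact hsn ((iso_mem_join_iff (QPlus m F) (hv_plus hm1) (simAut_ker_plus hm3) hneg s).mp
          hmem)
    have h2' : ∃ D₂ : Subgroup (MulAut (POmega F ⇑(QPlus m F))),
        Inn (POmega F ⇑(QPlus m F)) ≤ D₂ ∧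
        gInndiag ⇑(QPlus m F) ⊓ Subgroup.centralizer {simAut ⇑(QPlus m F) g} ≤ D₂ ∧
        ¬ gInndiag ⇑(QPlus m F) ≤ D₂ := by
      obtain ⟨M₂, hM₂⟩ : ∃ M₂ : Subgroup ↥(Geo.quadSimilarityGroup (F := F) ⇑(QPlus m F)),
          ∀ g, g ∈ M₂ ↔ IsSquare (simMul (QPlus m F) (hv_plus hm1) g) := by
        refine ⟨((powMonoidHom 2 : Fˣ →* Fˣ).range).comap (simMul (QPlus m F) (hv_plus hm1)),
          fun g => ?_⟩
        rw [Subgroup.mem_comap, MonoidHom.mem_range]
        constructor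
        · rintro ⟨r, hr⟩
          exact ⟨r, by rw [← hr, powMonoidHom_apply, pow_two]⟩
        · rintro ⟨r, hr⟩
          exact ⟨r, by rw [hr, powMonoidHom_apply, pow_two]⟩
      have hkerM₂ : ∀ g, simAut ⇑(QPlus m F) g = 1 → g ∈ M₂ := by
        intro g hg
        obtain ⟨α, hα⟩ := simAut_ker_plus hm3 g hg
        rw [hM₂, unit_isSquare_iff]
        exact ⟨α, simMul_of_scalar (QPlus m F) (hv_plus hm1) g α hα⟩
      have hmemD₂ : ∀ g, simAut ⇑(QPlus m F) g ∈ M₂.map (simAut ⇑(QPlus m F)) → g ∈ M₂ := by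
        rintro g ⟨g', hg', heq⟩
        have h1 : simAut ⇑(QPlus m F) (g'⁻¹ * g) = 1 := by
          rw [map_mul, map_inv, heq, inv_mul_cancel]
        have h3 : g = g' * (g'⁻¹ * g) := by group
        rw [h3]
        exact mul_mem hg' (hkerM₂ _ h1)
      refine ⟨M₂.map (simAut ⇑(QPlus m F)), ?_, ?_, ?_⟩
      · rw [inn_eq]
        rintro _ ⟨g, hg, rfl⟩
        refine ⟨g, (hM₂ g).mpr ?_, rfl⟩
        obtain ⟨s, rfl, -⟩ := (mem_omega_sub_iff (QPlus m F) g).mp hg
        rw [simMul_isoSim]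
        exact ⟨1, (one_mul 1).symm⟩
      · rintro c ⟨hcD, hcx⟩
        have hcD' := hcD
        rw [hD1] at hcD'
        obtain ⟨h, hh, rfl⟩ := hcD'
        refine ⟨h, (hM₂ h).mpr ?_, rfl⟩
        have hcomm : simAut ⇑(QPlus m F) h * simAut ⇑(QPlus m F) g =
            simAut ⇑(QPlus m F) g * simAut ⇑(QPlus m F) h :=
          (Subgroup.mem_centralizer_iff.mp hcx _ (Set.mem_singleton _)).symm
        exact sq_of_cent (QPlus m F) hF polarSep_plus (hv_plus hm1) m card_plus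
          (simAut_ker_plus hm3) hneg g h (MonoidHom.mem_ker.mp hh) hsgn hcomm
      · intro hle
        obtain ⟨a, hns⟩ := FiniteField.exists_nonsquare hF
        have ha0 : a ≠ 0 := by
          rintro rfl
          exact hns ⟨0, (mul_zero 0).symm⟩
        have hd : simAut ⇑(QPlus m F) (plusScale m (Units.mk0 a ha0)) ∈
            gInndiag ⇑(QPlus m F) := by
          rw [hD1]
          exact ⟨_, MonoidHom.mem_ker.mpr (simSgn_plusScale hm1 _), rfl⟩
        have h1 := hmemD₂ _ (hle hd)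
        rw [hM₂, simMul_plusScale hm1, unit_isSquare_iff] at h1
        exact hns h1
    by_cases hmo : Odd m
    · have hq1 : Fintype.card F % 4 = 1 := by
        have h3 := Nat.odd_iff.mp hodd
        by_contra h
        apply hc
        refine ⟨hmo, ?_⟩
        omega
      obtain ⟨φ, hφ, hker⟩ := gen4 ⟨hmo, hq1⟩
      exact count_four (gInndiag ⇑(QPlus m F)) (Inn _) hInnLe
        (by rw [Nat.card_eq_fintype_card, Fintype.card_multiplicative, ZMod.card]) φ hφ hker _
        h1 h2'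
    · obtain ⟨φ, hφ, hker⟩ := genV (Nat.not_odd_iff_even.mp hmo)
      exact count_four (gInndiag ⇑(QPlus m F)) (Inn _) hInnLe
        (by rw [Nat.card_eq_fintype_card, Fintype.card_multiplicative, Fintype.card_prod,
          ZMod.card]) φ hφ hker _ h1 h2'
  refine ⟨?_, hcase2⟩
  by_cases hc : Odd m ∧ Fintype.card F % 4 = 3
  · exact hcase1 hc
  · exact Or.inr (hcase2 hc)

end Main

end Cfsg.Agent.Lib.Helper51.GGMain
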