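import Mathlib
import Cfsg.Agent.Lib.Helper2.GTPLUS

set_option autoImplicit false

/-! Piece GT5-FODD of S2699 (helper51 for helper53): a symmetric invertible matrix `N` of odd size
`2m+1` over a finite field of odd characteristic defines a form isometric to a scalar multiple of
`quadFormOdd m`. -/

namespace Cfsg.Agent.Lib.Helper51.GT5FODD

open Matrix Cfsg Cfsg.Agent.Lib.Helper51

theorem gram_QOdd {F : Type*} [Field F] (m : ℕ) :
    gram (QOdd m F) = Matrix.fromBlocks (Matrix.diagonal (fun _ : Unit => (2 : F))) 0 0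
      (Matrix.fromBlocks 0 1 1 0) := by
  ext a b
  rw [gram_apply, polar_QOdd]
  rcases a with i | i | i <;> rcases b with j | j | j <;>
    simp [Pi.single_apply, Matrix.one_apply, eq_comm]

theorem det_gram_QOdd {F : Type*} [Field F] (m : ℕ) :
    (gram (QOdd m F)).det = 2 * (-1) ^ m := by
  rw [gram_QOdd, Matrix.det_fromBlocks_zero₂₁, det_swapBlocks', Matrix.det_diagonal]
  simp

theorem gram_smul {F : Type*} [Field F] {ι : Type} [Fintype ι] [DecidableEq ι] (c : F)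
    (Q : QuadraticForm F (ι → F)) : gram (c • Q) = c • gram Q := by
  ext i j
  rw [Matrix.smul_apply, gram_apply, gram_apply, smul_eq_mul]
  simp only [QuadraticMap.polar, QuadraticMap.smul_apply, smul_eq_mul]
  ring

/-- GT5-FODD -/
theorem form_odd {F : Type*} [Field F] [Fintype F] (h2 : (2 : F) ≠ 0) (m : ℕ)
    (N : Matrix (Fin (2 * m + 1)) (Fin (2 * m + 1)) F) (hN : N.transpose = N)
    (hdet : N.det ≠ 0) :
    ∃ (c : F) (e : (Unit ⊕ (Fin m ⊕ Fin m) → F) ≃ₗ[F] (Fin (2 * m + 1) → F)), c ≠ 0 ∧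
      ∀ v, e v ⬝ᵥ (N *ᵥ e v) = c * Cfsg.quadFormOdd m F v := by
  obtain ⟨c, hc⟩ : ∃ c : F, c = (-1) ^ m * N.det := ⟨_, rfl⟩
  have hc0 : c ≠ 0 := by
    rw [hc]
    exact mul_ne_zero (pow_ne_zero _ (neg_ne_zero.mpr one_ne_zero)) hdet
  have hcard : Fintype.card (Unit ⊕ (Fin m ⊕ Fin m)) = 2 * m + 1 := by
    rw [Fintype.card_sum, Fintype.card_sum, Fintype.card_fin, Fintype.card_unit]; ring
  have hg : (gram (c • QOdd m F)).det = c ^ (2 * m + 1) * (2 * (-1) ^ m) := by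
    rw [gram_smul, Matrix.det_smul, det_gram_QOdd, hcard]
  have hQ : (gram (c • QOdd m F)).det ≠ 0 := by
    rw [hg]
    exact mul_ne_zero (pow_ne_zero _ hc0)
      (mul_ne_zero h2 (pow_ne_zero _ (neg_ne_zero.mpr one_ne_zero)))
  have hsq : IsSquare ((gram (c • QOdd m F)).det * (2 ^ (2 * m + 1) * N.det)) := by
    refine ⟨c ^ (m + 1) * 2 ^ (m + 1), ?_⟩
    rw [hg]
    have h1 : (-1 : F) ^ m * N.det = c := hc.symm
    have h3 : c ^ (2 * m + 1) = c ^ (m + 1) * c ^ m := by rw [← pow_add]; congr 1; omega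
    have h4 : (2 : F) ^ (2 * m + 1) = 2 ^ (m + 1) * 2 ^ m := by rw [← pow_add]; congr 1; omega
    have h5 : c ^ (m + 1) = c ^ m * c := pow_succ c m
    have h6 : (2 : F) ^ (m + 1) = 2 ^ m * 2 := pow_succ 2 m
    rw [h3, h4]
    calc c ^ (m + 1) * c ^ m * (2 * (-1) ^ m) * (2 ^ (m + 1) * 2 ^ m * N.det)
        = c ^ (m + 1) * 2 ^ (m + 1) * (c ^ m * ((-1) ^ m * N.det) * (2 ^ m * 2)) := by ring
      _ = c ^ (m + 1) * 2 ^ (m + 1) * (c ^ (m + 1) * 2 ^ (m + 1)) := by rw [h1, ← h5, ← h6]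
  obtain ⟨e, he⟩ := Cfsg.Agent.Lib.Helper2.GTPLUS.h2_equiv_of_gram h2 (c • QOdd m F) hQ hcard N hN
    hdet hsq
  refine ⟨c, e, hc0, fun v => ?_⟩
  rw [he v, QuadraticMap.smul_apply, coe_QOdd, smul_eq_mul]

end Cfsg.Agent.Lib.Helper51.GT5FODD
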