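import Mathlib
import Cfsg.Prelude.Def_Classical
import Cfsg.Agent.Lib.Helper53.GT5Def

set_option autoImplicit false

/-! Piece GT5-QHAT of S2699 (helper51 for helper53): in characteristic 2 the form `Qhat m F` on
`F^(2m+1)` is equivalent to `quadFormOdd m F`, by an explicit triangular change of coordinates. -/

namespace Cfsg.Agent.Lib.Helper51.GT5QHAT

open Cfsg Cfsg.Agent.Lib.Helper53.GT5Def Finset

section model

variable {F : Type*} [Field F]

theorem sum_sq_char2 (h20 : (2 : F) = 0) (V : ℕ → F) (n : ℕ) :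
    (∑ i ∈ range n, V i) ^ 2 = ∑ i ∈ range n, V i ^ 2 := by
  induction n with
  | zero => simp
  | succ n ih =>
    rw [sum_range_succ, sum_range_succ, ← ih]
    linear_combination ((∑ i ∈ range n, V i) * V n) * h20

theorem cast_mul_succ (h20 : (2 : F) = 0) (m : ℕ) : (m : F) * ((m : F) + 1) = 0 := by
  induction m with
  | zero => simp
  | succ m ih =>
    push_cast
    linear_combination ih + ((m : F) + 1) * h20

/-- the key identity in the model indexed by `ℕ` -/
theorem model_id (h20 : (2 : F) = 0) (V : ℕ → F) (m : ℕ) :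
    (∑ j ∈ range (2 * m + 1), (∑ i ∈ range j, V i) * V j) +
        ((m : F) + 1) * ∑ i ∈ range (2 * m + 1), V i ^ 2 =
      (V 0 + ∑ k ∈ range m, ((k : F) + 2) * (V (2 * k + 1) + V (2 * k + 2))) ^ 2 +
        ∑ k ∈ range m, (V (2 * k + 1) + ∑ i ∈ range (2 * k + 1), V i) *
          (V (2 * k + 2) + ∑ i ∈ range (2 * k + 1), V i) := by
  induction m with
  | zero => simp
  | succ m ih =>
    have e1 : 2 * (m + 1) + 1 = (2 * m + 1) + 1 + 1 := by ring
    have hS := sum_sq_char2 h20 V (2 * m + 1)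
    have hm := cast_mul_succ (F := F) h20 m
    rw [e1, sum_range_succ (fun j => (∑ i ∈ range j, V i) * V j) (2 * m + 1 + 1),
      sum_range_succ (fun j => (∑ i ∈ range j, V i) * V j) (2 * m + 1),
      sum_range_succ (fun i => V i ^ 2) (2 * m + 1 + 1),
      sum_range_succ (fun i => V i ^ 2) (2 * m + 1),
      sum_range_succ (fun i => V i) (2 * m + 1),
      sum_range_succ _ m, sum_range_succ _ m]
    have e2 : 2 * m + 1 + 1 = 2 * m + 2 := by ring
    rw [e2]
    push_cast
    linear_combination ih -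
      ((V 0 + ∑ k ∈ range m, ((k : F) + 2) * (V (2 * k + 1) + V (2 * k + 2))) * ((m : F) + 2) *
        (V (2 * m + 1) + V (2 * m + 2)) + ((m : F) + 2) ^ 2 * (V (2 * m + 1) * V (2 * m + 2)) +
        ((m : F) + 1) * (V (2 * m + 1) ^ 2 + V (2 * m + 2) ^ 2)) * h20 - hS -
      (V (2 * m + 1) ^ 2 + V (2 * m + 2) ^ 2) * hm

/-- triangular injectivity in the model -/
theorem model_inj (h20 : (2 : F) = 0) (V : ℕ → F) (m : ℕ)
    (hz : V 0 + ∑ k ∈ range m, ((k : F) + 2) * (V (2 * k + 1) + V (2 * k + 2)) = 0)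
    (hx : ∀ k < m, V (2 * k + 1) + ∑ i ∈ range (2 * k + 1), V i = 0)
    (hy : ∀ k < m, V (2 * k + 2) + ∑ i ∈ range (2 * k + 1), V i = 0) :
    ∀ i < 2 * m + 1, V i = 0 := by
  have hpair : ∀ k < m, V (2 * k + 1) + V (2 * k + 2) = 0 := by
    intro k hk
    linear_combination hx k hk + hy k hk - (∑ i ∈ range (2 * k + 1), V i) * h20
  have h0 : V 0 = 0 := by
    have : ∑ k ∈ range m, ((k : F) + 2) * (V (2 * k + 1) + V (2 * k + 2)) = 0 := by
      apply sum_eq_zero
      intro k hk
      rw [hpair k (mem_range.mp hk), mul_zero]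
    rw [this, add_zero] at hz
    exact hz
  have hS : ∀ k ≤ m, ∑ i ∈ range (2 * k + 1), V i = 0 := by
    intro k
    induction k with
    | zero =>
      intro _
      simp [h0]
    | succ k ih =>
      intro hk
      have e1 : 2 * (k + 1) + 1 = (2 * k + 1) + 1 + 1 := by ring
      rw [e1, sum_range_succ, sum_range_succ, ih (by omega)]
      have := hpair k (by omega)
      have e2 : 2 * k + 1 + 1 = 2 * k + 2 := by ring
      rw [e2]
      linear_combination this
  intro i hi
  rcases Nat.even_or_odd' i with ⟨k, rfl | rfl⟩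
  · rcases Nat.eq_zero_or_pos k with rfl | hk
    · exact h0
    · obtain ⟨j, rfl⟩ : ∃ j, k = j + 1 := ⟨k - 1, by omega⟩
      have h1 := hy j (by omega)
      rw [hS j (by omega), add_zero] at h1
      have e : 2 * (j + 1) = 2 * j + 2 := by ring
      rw [e]
      exact h1
  · have h1 := hx k (by omega)
    rw [hS k (by omega), add_zero] at h1
    exact h1

end model

section fin

variable {F : Type*} [Field F]

/-- extension by zero -/
def ext {n : ℕ} (v : Fin n → F) (i : ℕ) : F := if h : i < n then v ⟨i, h⟩ else 0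

theorem ext_coe {n : ℕ} (v : Fin n → F) (i : Fin n) : ext v (i : ℕ) = v i := by
  unfold ext
  rw [dif_pos i.2]

theorem ext_add {n : ℕ} (u v : Fin n → F) (i : ℕ) : ext (u + v) i = ext u i + ext v i := by
  unfold ext
  split_ifs
  · rfl
  · rw [add_zero]

theorem ext_smul {n : ℕ} (c : F) (v : Fin n → F) (i : ℕ) : ext (c • v) i = c * ext v i := by
  unfold ext
  split_ifs
  · rfl
  · rw [mul_zero]

theorem Qhat_eq (m : ℕ) (v : Fin (2 * m + 1) → F) :
    Qhat m F v = (∑ j ∈ range (2 * m + 1), (∑ i ∈ range j, ext v i) * ext v j) +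
        ((m : F) + 1) * ∑ i ∈ range (2 * m + 1), ext v i ^ 2 := by
  unfold Qhat
  congr 1
  · have h1 : ∀ i j : Fin (2 * m + 1), (if i < j then v i * v j else 0) =
        (fun a b : ℕ => if a < b then ext v a * ext v b else 0) (i : ℕ) (j : ℕ) := by
      intro i j
      simp only [ext_coe, Fin.lt_def]
    simp_rw [h1]
    rw [Fin.sum_univ_eq_sum_range
      (fun a => ∑ j : Fin (2 * m + 1), (fun a b : ℕ => if a < b then ext v a * ext v b else 0) a
        (j : ℕ)) (2 * m + 1)]
    have h2 : ∀ a : ℕ, (∑ j : Fin (2 * m + 1),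
        (fun a b : ℕ => if a < b then ext v a * ext v b else 0) a (j : ℕ)) =
        ∑ b ∈ range (2 * m + 1), (if a < b then ext v a * ext v b else 0) := by
      intro a
      exact Fin.sum_univ_eq_sum_range (fun b => if a < b then ext v a * ext v b else 0) (2 * m + 1)
    simp_rw [h2]
    rw [sum_comm]
    apply sum_congr rfl
    intro j hj
    rw [sum_mul, ← sum_filter]
    apply sum_congr
    · ext i
      simp only [mem_filter, mem_range]
      have := mem_range.mp hj
      omega
    · intro i _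
      rfl
  · congr 1
    have h1 : ∀ i : Fin (2 * m + 1), v i ^ 2 = (fun a : ℕ => ext v a ^ 2) (i : ℕ) := by
      intro i
      simp only [ext_coe]
    simp_rw [h1]
    exact Fin.sum_univ_eq_sum_range (fun a => ext v a ^ 2) (2 * m + 1)

/-- the forward coordinate change -/
def phiFun (m : ℕ) (v : Fin (2 * m + 1) → F) : Unit ⊕ (Fin m ⊕ Fin m) → F :=
  Sum.elim (fun _ => ext v 0 + ∑ k ∈ range m, ((k : F) + 2) * (ext v (2 * k + 1) + ext v (2 * k + 2)))
    (Sum.elim (fun k : Fin m => ext v (2 * (k : ℕ) + 1) + ∑ i ∈ range (2 * (k : ℕ) + 1), ext v i)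
      (fun k : Fin m => ext v (2 * (k : ℕ) + 2) + ∑ i ∈ range (2 * (k : ℕ) + 1), ext v i))

def phi (m : ℕ) : (Fin (2 * m + 1) → F) →ₗ[F] (Unit ⊕ (Fin m ⊕ Fin m) → F) where
  toFun := phiFun m
  map_add' u v := by
    funext idx
    rcases idx with _ | k | k
    · simp only [phiFun, Sum.elim_inl, Pi.add_apply, ext_add]
      have : ∀ k : ℕ, ((k : F) + 2) * (ext u (2 * k + 1) + ext v (2 * k + 1) +
          (ext u (2 * k + 2) + ext v (2 * k + 2))) =
          ((k : F) + 2) * (ext u (2 * k + 1) + ext u (2 * k + 2)) +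
          ((k : F) + 2) * (ext v (2 * k + 1) + ext v (2 * k + 2)) := fun k => by ring
      simp_rw [this]
      rw [sum_add_distrib]
      ring
    · simp only [phiFun, Sum.elim_inl, Sum.elim_inr, Pi.add_apply, ext_add]
      rw [sum_add_distrib]
      ring
    · simp only [phiFun, Sum.elim_inl, Sum.elim_inr, Pi.add_apply, ext_add]
      rw [sum_add_distrib]
      ring
  map_smul' c v := by
    funext idx
    rcases idx with _ | k | k
    · simp only [phiFun, Sum.elim_inl, Pi.smul_apply, ext_smul, RingHom.id_apply, smul_eq_mul]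
      rw [mul_add, mul_sum]
      congr 1
      apply sum_congr rfl
      intro k _
      ring
    · simp only [phiFun, Sum.elim_inl, Sum.elim_inr, Pi.smul_apply, ext_smul, RingHom.id_apply,
        smul_eq_mul]
      rw [← mul_sum]
      ring
    · simp only [phiFun, Sum.elim_inl, Sum.elim_inr, Pi.smul_apply, ext_smul, RingHom.id_apply,
        smul_eq_mul]
      rw [← mul_sum]
      ring

theorem phi_apply (m : ℕ) (v : Fin (2 * m + 1) → F) : phi m v = phiFun m v := rfl

theorem quadFormOdd_phi (h20 : (2 : F) = 0) (m : ℕ) (v : Fin (2 * m + 1) → F) :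
    Cfsg.quadFormOdd m F (phi m v) = Qhat m F v := by
  rw [Qhat_eq, model_id h20 (ext v) m, phi_apply]
  unfold Cfsg.quadFormOdd
  simp only [phiFun, Sum.elim_inl, Sum.elim_inr]
  congr 1
  exact Fin.sum_univ_eq_sum_range (fun k => (ext v (2 * k + 1) + ∑ i ∈ range (2 * k + 1), ext v i) *
    (ext v (2 * k + 2) + ∑ i ∈ range (2 * k + 1), ext v i)) m

theorem phi_injective (h20 : (2 : F) = 0) (m : ℕ) : Function.Injective (phi (F := F) m) := by
  rw [← LinearMap.ker_eq_bot, LinearMap.ker_eq_bot']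
  intro v hv
  rw [phi_apply] at hv
  have hz := congrFun hv (Sum.inl ())
  have hx : ∀ k : Fin m, _ := fun k => congrFun hv (Sum.inr (Sum.inl k))
  have hy : ∀ k : Fin m, _ := fun k => congrFun hv (Sum.inr (Sum.inr k))
  simp only [phiFun, Sum.elim_inl, Sum.elim_inr, Pi.zero_apply] at hz hx hy
  have key := model_inj h20 (ext v) m hz (fun k hk => hx ⟨k, hk⟩) (fun k hk => hy ⟨k, hk⟩)
  funext i
  rw [Pi.zero_apply, ← ext_coe v i]
  exact key i i.2

end fin

/-- GT5-QHAT -/
theorem qhat_equiv {F : Type*} [Field F] [Fintype F] (h20 : (2 : F) = 0) (m : ℕ) :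
    ∃ e : (Unit ⊕ (Fin m ⊕ Fin m) → F) ≃ₗ[F] (Fin (2 * m + 1) → F),
      ∀ v, Qhat m F (e v) = Cfsg.quadFormOdd m F v := by
  have hdim : Module.finrank F (Fin (2 * m + 1) → F) =
      Module.finrank F (Unit ⊕ (Fin m ⊕ Fin m) → F) := by
    rw [Module.finrank_fintype_fun_eq_card, Module.finrank_fintype_fun_eq_card, Fintype.card_fin,
      Fintype.card_sum, Fintype.card_sum, Fintype.card_fin, Fintype.card_unit]
    ring
  let E := LinearMap.linearEquivOfInjective (phi (F := F) m) (phi_injective h20 m) hdim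
  refine ⟨E.symm, fun v => ?_⟩
  rw [← quadFormOdd_phi h20 m (E.symm v)]
  have : phi m (E.symm v) = E (E.symm v) := rfl
  rw [this, LinearEquiv.apply_symm_apply]

end Cfsg.Agent.Lib.Helper51.GT5QHAT
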