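import Mathlib
import Cfsg.Agent.S2581

/-!
# S2646 (helper51): centralisers of unipotent elements of `GU_n(q)` — shared definitions

`Pm K d` is the block anti-diagonal permutation matrix on the index type of
`Cfsg.jordanTypeMatrix d K`; `Cfsg.Agent.S2581.NN K d` (the nilpotent part of the Jordan matrix,
`jordanTypeMatrix d K = NN K d + 1`) is self-adjoint for the Hermitian form it defines:
`(NN K d)ᵀ = Pm K d * NN K d * Pm K d`.
-/

set_option autoImplicit false

namespace Cfsg.Agent.Lib.Helper51.GUC

universe v

/-- the block anti-diagonal permutation matrix: `Pm x y = 1` iff `x`, `y` lie in the same block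
`k` and their positions add up to `d k - 1`. -/
def Pm (K : Type v) [Field K] {t : ℕ} (d : Fin t → ℕ) :
    Matrix ((k : Fin t) × Fin (d k)) ((k : Fin t) × Fin (d k)) K :=
  Matrix.of fun x y => if x.1 = y.1 ∧ (x.2 : ℕ) + (y.2 : ℕ) + 1 = d x.1 then 1 else 0

end Cfsg.Agent.Lib.Helper51.GUC
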