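import Mathlib
import Cfsg.Agent.S2581
import Cfsg.Agent.Lib.Helper18.Unitary
import Cfsg.Agent.Lib.Helper51.GUCDefs
import Cfsg.Agent.Lib.Helper76.GUCFIX
import Cfsg.Agent.Lib.Helper76.GUCFIBER

/-!
# S2646 (helper51), piece GUC-COUNT: counting the nonsingular `θ`-fixed elements of the
commutant of the nilpotent Jordan matrix `NN K d`, where `θ X = Pm * (X.map (· ^ q))ᵀ * Pm`.
-/

set_option autoImplicit false
set_option linter.unusedSectionVars false

namespace Cfsg.Agent.Lib.Helper51.GUCCount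

open Matrix Cfsg.Agent.Lib.Helper51.GUC
open Cfsg.Agent.S2581 (NN mult top o)
open Cfsg.Agent.Lib.Helper7 (herm_add_pow herm_pow_pow herm_q_ne_zero)
open Cfsg.Agent.Lib.Helper18 (herm_neg_pow exists_trace_one)

universe v

section pm

variable {K : Type v} [Field K] {t : ℕ} (d : Fin t → ℕ)

/-- reversal inside each block -/
def rev (x : (k : Fin t) × Fin (d k)) : (k : Fin t) × Fin (d k) :=
  ⟨x.1, ⟨d x.1 - 1 - (x.2 : ℕ), by have := x.2.2; omega⟩⟩

theorem rev_rev (x : (k : Fin t) × Fin (d k)) : rev d (rev d x) = x := by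
  obtain ⟨k, i⟩ := x
  simp only [rev]
  congr 1
  apply Fin.ext
  simp only
  have := i.2
  omega

theorem rev_iff (x y : (k : Fin t) × Fin (d k)) :
    (x.1 = y.1 ∧ (x.2 : ℕ) + (y.2 : ℕ) + 1 = d x.1) ↔ y = rev d x := by
  obtain ⟨k, i⟩ := x
  obtain ⟨l, j⟩ := y
  constructor
  · rintro ⟨h1, h2⟩
    simp only at h1 h2
    subst h1
    simp only [rev]
    congr 1
    apply Fin.ext
    simp only
    omega
  · intro h
    have h1 : l = k := congrArg Sigma.fst h
    subst h1
    have h2 : j = ⟨d l - 1 - (i : ℕ), by have := i.2; omega⟩ := eq_of_heq (Sigma.mk.inj h).2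
    refine ⟨rfl, ?_⟩
    rw [h2]
    simp only
    have := i.2
    omega

theorem Pm_apply (x y : (k : Fin t) × Fin (d k)) :
    Pm K d x y = if y = rev d x then 1 else 0 := by
  unfold Pm
  rw [Matrix.of_apply]
  exact if_congr (rev_iff d x y) rfl rfl

theorem Pm_mul_apply (Z : Matrix ((k : Fin t) × Fin (d k)) ((k : Fin t) × Fin (d k)) K)
    (x y : (k : Fin t) × Fin (d k)) : (Pm K d * Z) x y = Z (rev d x) y := by
  rw [Matrix.mul_apply, Finset.sum_eq_single (rev d x)]
  · rw [Pm_apply, if_pos rfl, one_mul]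
  · intro a _ ha
    rw [Pm_apply, if_neg ha, zero_mul]
  · intro h
    exact absurd (Finset.mem_univ _) h

theorem mul_Pm_apply (Z : Matrix ((k : Fin t) × Fin (d k)) ((k : Fin t) × Fin (d k)) K)
    (x y : (k : Fin t) × Fin (d k)) : (Z * Pm K d) x y = Z x (rev d y) := by
  rw [Matrix.mul_apply, Finset.sum_eq_single (rev d y)]
  · rw [Pm_apply, if_pos (rev_rev d y).symm, mul_one]
  · intro a _ ha
    rw [Pm_apply, if_neg, mul_zero]
    intro h
    apply ha
    rw [h, rev_rev]
  · intro h
    exact absurd (Finset.mem_univ _) h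

theorem Pm_mul_Pm : Pm K d * Pm K d = 1 := by
  ext x y
  rw [Pm_mul_apply, Pm_apply, rev_rev, Matrix.one_apply]
  by_cases h : x = y
  · rw [if_pos h.symm, if_pos h]
  · rw [if_neg (Ne.symm h), if_neg h]

theorem Pm_transpose : (Pm K d)ᵀ = Pm K d := by
  ext x y
  rw [Matrix.transpose_apply, Pm_apply, Pm_apply]
  by_cases h : x = rev d y
  · rw [if_pos h, if_pos (by rw [h, rev_rev])]
  · rw [if_neg h, if_neg]
    intro h'
    apply h
    rw [h', rev_rev]

theorem NN_apply (x z : (k : Fin t) × Fin (d k)) :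
    NN K d x z = if x.1 = z.1 ∧ (x.2 : ℕ) = (z.2 : ℕ) + 1 then 1 else 0 := by
  have h := Cfsg.Agent.S2581.NN_pow_apply (F := K) d 1 x z
  rw [pow_one] at h
  exact h

theorem NN_transpose : (NN K d)ᵀ = Pm K d * NN K d * Pm K d := by
  ext x y
  rw [mul_Pm_apply, Pm_mul_apply, Matrix.transpose_apply, NN_apply, NN_apply]
  obtain ⟨k, i⟩ := x
  obtain ⟨l, j⟩ := y
  simp only [rev]
  refine if_congr ?_ rfl rfl
  have hi := i.2
  have hj := j.2
  constructor
  · rintro ⟨h1, h2⟩
    subst h1
    exact ⟨rfl, by omega⟩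
  · rintro ⟨h1, h2⟩
    subst h1
    exact ⟨rfl, by omega⟩

theorem Pm_mul_NN : Pm K d * NN K d = (NN K d)ᵀ * Pm K d := by
  rw [NN_transpose, Matrix.mul_assoc, Pm_mul_Pm, Matrix.mul_one]

theorem Pm_mul_NN_transpose : Pm K d * (NN K d)ᵀ = NN K d * Pm K d := by
  rw [NN_transpose, ← Matrix.mul_assoc, ← Matrix.mul_assoc, Pm_mul_Pm, Matrix.one_mul]

end pm

section theta

variable {K : Type v} [Field K] [Fintype K] {q : ℕ} (hK : Fintype.card K = q ^ 2)
  {t : ℕ} (d : Fin t → ℕ)

/-- the `q`-power map as a ring endomorphism -/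
def sg : K →+* K where
  toFun x := x ^ q
  map_one' := one_pow q
  map_mul' x y := mul_pow x y q
  map_zero' := zero_pow (herm_q_ne_zero hK)
  map_add' x y := herm_add_pow hK x y

/-- the adjoint for the Hermitian form with Gram matrix `Pm` -/
def theta (q : ℕ) (X : Matrix ((k : Fin t) × Fin (d k)) ((k : Fin t) × Fin (d k)) K) :
    Matrix ((k : Fin t) × Fin (d k)) ((k : Fin t) × Fin (d k)) K :=
  Pm K d * (X.map (· ^ q))ᵀ * Pm K d

theorem theta_apply (X : Matrix ((k : Fin t) × Fin (d k)) ((k : Fin t) × Fin (d k)) K)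
    (x y : (k : Fin t) × Fin (d k)) : theta d q X x y = X (rev d y) (rev d x) ^ q := by
  rw [theta, mul_Pm_apply, Pm_mul_apply, Matrix.transpose_apply, Matrix.map_apply]

include hK in
theorem theta_add (X Y : Matrix ((k : Fin t) × Fin (d k)) ((k : Fin t) × Fin (d k)) K) :
    theta d q (X + Y) = theta d q X + theta d q Y := by
  ext x y
  rw [Matrix.add_apply, theta_apply, theta_apply, theta_apply, Matrix.add_apply,
    herm_add_pow hK]

include hK in
theorem theta_zero :
    theta d q (0 : Matrix ((k : Fin t) × Fin (d k)) ((k : Fin t) × Fin (d k)) K) = 0 := by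
  ext x y
  rw [theta_apply, Matrix.zero_apply, Matrix.zero_apply, zero_pow (herm_q_ne_zero hK)]

include hK in
theorem theta_neg (X : Matrix ((k : Fin t) × Fin (d k)) ((k : Fin t) × Fin (d k)) K) :
    theta d q (-X) = -theta d q X := by
  ext x y
  rw [Matrix.neg_apply, theta_apply, theta_apply, Matrix.neg_apply, herm_neg_pow hK]

theorem theta_smul (c : K) (X : Matrix ((k : Fin t) × Fin (d k)) ((k : Fin t) × Fin (d k)) K) :
    theta d q (c • X) = c ^ q • theta d q X := by
  ext x y
  rw [Matrix.smul_apply, theta_apply, theta_apply, Matrix.smul_apply, smul_eq_mul, smul_eq_mul,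
    mul_pow]

include hK in
theorem theta_theta (X : Matrix ((k : Fin t) × Fin (d k)) ((k : Fin t) × Fin (d k)) K) :
    theta d q (theta d q X) = X := by
  ext x y
  rw [theta_apply, theta_apply, rev_rev, rev_rev, herm_pow_pow hK]

include hK in
theorem NN_map : (NN K d).map (sg hK) = NN K d := by
  ext x y
  rw [Matrix.map_apply, NN_apply]
  split_ifs
  · exact map_one _
  · exact map_zero _

include hK in
theorem theta_comm {X : Matrix ((k : Fin t) × Fin (d k)) ((k : Fin t) × Fin (d k)) K}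
    (hX : X * NN K d = NN K d * X) : theta d q X * NN K d = NN K d * theta d q X := by
  have h1 : X.map (sg hK) * NN K d = NN K d * X.map (sg hK) := by
    have h := congrArg (fun M => M.map (sg hK)) hX
    simp only [Matrix.map_mul, NN_map hK d] at h
    exact h
  have h2 : (X.map (sg hK))ᵀ * (NN K d)ᵀ = (NN K d)ᵀ * (X.map (sg hK))ᵀ := by
    rw [← Matrix.transpose_mul, ← Matrix.transpose_mul, h1]
  show Pm K d * (X.map (sg hK))ᵀ * Pm K d * NN K d = NN K d * (Pm K d * (X.map (sg hK))ᵀ * Pm K d)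
  rw [Matrix.mul_assoc (Pm K d * (X.map (sg hK))ᵀ), Pm_mul_NN, ← Matrix.mul_assoc,
    Matrix.mul_assoc (Pm K d), h2, ← Matrix.mul_assoc, Pm_mul_NN_transpose]
  simp only [Matrix.mul_assoc]

theorem theta_top (hd : ∀ k, 1 ≤ d k)
    {Y : Matrix ((k : Fin t) × Fin (d k)) ((k : Fin t) × Fin (d k)) K}
    (hY : Y * NN K d = NN K d * Y) (l k : Fin t) (hlk : d l = d k) :
    theta d q Y (o hd l) (o hd k) = Y (o hd k) (o hd l) ^ q := by
  rw [theta_apply]
  congr 1
  have hk := hd k
  have hl := hd l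
  show Y ⟨k, ⟨d k - 1 - 0, by omega⟩⟩ ⟨l, ⟨d l - 1 - 0, by omega⟩⟩ = Y (o hd k) (o hd l)
  rw [Cfsg.Agent.S2581.entry_of_comm hd hY, dif_pos (by simp only; omega)]
  congr 1
  unfold o
  congr 1
  apply Fin.ext
  simp only
  omega

end theta

section count

variable {K : Type v} [Field K] [Fintype K] {q : ℕ} (hK : Fintype.card K = q ^ 2)
  {t : ℕ} (d : Fin t → ℕ)

include hK in
theorem card_fix (hd : ∀ k, 1 ≤ d k) :
    Nat.card {X : Matrix ((k : Fin t) × Fin (d k)) ((k : Fin t) × Fin (d k)) K //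
        X * NN K d = NN K d * X ∧ theta d q X = X} = q ^ (∑ k, ∑ l, min (d l) (d k)) := by
  classical
  let Wc : Submodule K (Matrix ((k : Fin t) × Fin (d k)) ((k : Fin t) × Fin (d k)) K) :=
    { carrier := {X | X * NN K d = NN K d * X}
      add_mem' := by
        intro X Y hX hY
        have hX' : X * NN K d = NN K d * X := hX
        have hY' : Y * NN K d = NN K d * Y := hY
        show (X + Y) * NN K d = NN K d * (X + Y)
        rw [add_mul, mul_add, hX', hY']
      zero_mem' := by
        show (0 : Matrix ((k : Fin t) × Fin (d k)) ((k : Fin t) × Fin (d k)) K) * NN K d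
          = NN K d * 0
        rw [zero_mul, mul_zero]
      smul_mem' := by
        intro c X hX
        have hX' : X * NN K d = NN K d * X := hX
        show (c • X) * NN K d = NN K d * (c • X)
        rw [Matrix.smul_mul, Matrix.mul_smul, hX'] }
  let θW : Wc →+ Wc :=
    { toFun := fun w => ⟨theta d q w.1, theta_comm hK d w.2⟩
      map_zero' := Subtype.ext (theta_zero hK d)
      map_add' := fun a b => Subtype.ext (theta_add hK d a.1 b.1) }
  have h1 := Cfsg.Agent.Lib.Helper76.GUCFIX.card_fixed_sq hK θW (fun w => Subtype.ext (theta_theta hK d w.1))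
    (fun c w => Subtype.ext (theta_smul d c w.1))
  have h2 : Nat.card Wc = (q ^ 2) ^ (∑ k, ∑ l, min (d l) (d k)) := by
    rw [← hK]
    exact Cfsg.Agent.S2581.card_comm hd
  have h3 : Nat.card {w : Wc // θW w = w}
      = Nat.card {X : Matrix ((k : Fin t) × Fin (d k)) ((k : Fin t) × Fin (d k)) K //
        X * NN K d = NN K d * X ∧ theta d q X = X} :=
    Nat.card_congr
      { toFun := fun w => ⟨w.1.1, w.1.2, congrArg Subtype.val w.2⟩
        invFun := fun X => ⟨⟨X.1, X.2.1⟩, Subtype.ext X.2.2⟩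
        left_inv := fun w => rfl
        right_inv := fun X => rfl }
  rw [← h3]
  apply Nat.pow_left_injective (two_ne_zero)
  show _ ^ 2 = _ ^ 2
  rw [h1, h2, ← pow_mul, ← pow_mul, mul_comm]

include hK in
theorem card_herm (S : Type) [Fintype S] [DecidableEq S] :
    Nat.card {B : Matrix S S K // (B.map (· ^ q))ᵀ = B}
      = q ^ (Fintype.card S * Fintype.card S) := by
  let θ : Matrix S S K →+ Matrix S S K :=
    { toFun := fun B => (B.map (· ^ q))ᵀ
      map_zero' := by
        ext i j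
        show (0 : K) ^ q = 0
        exact zero_pow (herm_q_ne_zero hK)
      map_add' := by
        intro A B
        ext i j
        show (A j i + B j i) ^ q = A j i ^ q + B j i ^ q
        exact herm_add_pow hK _ _ }
  have h1 : Nat.card {B : Matrix S S K // (B.map (· ^ q))ᵀ = B} ^ 2 = Nat.card (Matrix S S K) :=
    Cfsg.Agent.Lib.Helper76.GUCFIX.card_fixed_sq hK θ
      (by
        intro B
        ext i j
        show (B i j ^ q) ^ q = B i j
        exact herm_pow_pow hK _)
      (by
        intro c B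
        ext i j
        show (c * B j i) ^ q = c ^ q * B j i ^ q
        exact mul_pow _ _ _)
  have h2 := Cfsg.Agent.S2581.card_matrix' (F := K) S
  apply Nat.pow_left_injective (two_ne_zero)
  show _ ^ 2 = _ ^ 2
  rw [h1, h2, hK, ← pow_mul, ← pow_mul, mul_comm]

theorem card_block (s : ℕ) : Fintype.card {k : Fin t // d k = s} = mult d s := by
  rw [Fintype.card_subtype]
  rfl

set_option maxHeartbeats 1600000 in
include hK in
theorem herm_comm_count (hd : ∀ k, 1 ≤ d k) :
    Nat.card {X : Matrix ((k : Fin t) × Fin (d k)) ((k : Fin t) × Fin (d k)) K //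
        X * NN K d = NN K d * X ∧
        Pm K d * (X.map (· ^ q))ᵀ * Pm K d = X ∧ X.det ≠ 0} *
      q ^ (∑ s : Fin (Finset.univ.sup d + 1), mult d (s : ℕ) * mult d (s : ℕ)) =
    q ^ (∑ k, ∑ l, min (d l) (d k)) *
      ∏ s : Fin (Finset.univ.sup d + 1),
        Nat.card {B : Matrix {k : Fin t // d k = (s : ℕ)} {k : Fin t // d k = (s : ℕ)} K //
          (B.map (· ^ q))ᵀ = B ∧ B.det ≠ 0} := by
  classical
  let A : AddSubgroup (Matrix ((k : Fin t) × Fin (d k)) ((k : Fin t) × Fin (d k)) K) :=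
    { carrier := {X | X * NN K d = NN K d * X ∧ theta d q X = X}
      add_mem' := by
        intro X Y hX hY
        have hX' : X * NN K d = NN K d * X ∧ theta d q X = X := hX
        have hY' : Y * NN K d = NN K d * Y ∧ theta d q Y = Y := hY
        show (X + Y) * NN K d = NN K d * (X + Y) ∧ theta d q (X + Y) = X + Y
        refine ⟨?_, ?_⟩
        · rw [add_mul, mul_add, hX'.1, hY'.1]
        · rw [theta_add hK, hX'.2, hY'.2]
      zero_mem' := by
        show (0 : Matrix ((k : Fin t) × Fin (d k)) ((k : Fin t) × Fin (d k)) K) * NN K d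
          = NN K d * 0 ∧ theta d q 0 = 0
        exact ⟨by rw [zero_mul, mul_zero], theta_zero hK d⟩
      neg_mem' := by
        intro X hX
        have hX' : X * NN K d = NN K d * X ∧ theta d q X = X := hX
        show (-X) * NN K d = NN K d * (-X) ∧ theta d q (-X) = -X
        refine ⟨?_, ?_⟩
        · rw [neg_mul, mul_neg, hX'.1]
        · rw [theta_neg hK, hX'.2] }
  let HS : (s : Fin (Finset.univ.sup d + 1)) →
      AddSubgroup (Matrix {k : Fin t // d k = (s : ℕ)} {k : Fin t // d k = (s : ℕ)} K) :=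
    fun s =>
    { carrier := {B | (B.map (· ^ q))ᵀ = B}
      add_mem' := by
        intro X Y hX hY
        have hX' : (X.map (· ^ q))ᵀ = X := hX
        have hY' : (Y.map (· ^ q))ᵀ = Y := hY
        show ((X + Y).map (· ^ q))ᵀ = X + Y
        ext i j
        have e1 := congrFun (congrFun hX' i) j
        have e2 := congrFun (congrFun hY' i) j
        rw [Matrix.transpose_apply, Matrix.map_apply] at e1 e2
        rw [Matrix.transpose_apply, Matrix.map_apply, Matrix.add_apply, Matrix.add_apply,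
          herm_add_pow hK, e1, e2]
      zero_mem' := by
        show ((0 : Matrix {k : Fin t // d k = (s : ℕ)} {k : Fin t // d k = (s : ℕ)} K).map
          (· ^ q))ᵀ = 0
        ext i j
        rw [Matrix.transpose_apply, Matrix.map_apply, Matrix.zero_apply, Matrix.zero_apply,
          zero_pow (herm_q_ne_zero hK)]
      neg_mem' := by
        intro X hX
        have hX' : (X.map (· ^ q))ᵀ = X := hX
        show ((-X).map (· ^ q))ᵀ = -X
        ext i j
        have e1 := congrFun (congrFun hX' i) j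
        rw [Matrix.transpose_apply, Matrix.map_apply] at e1
        rw [Matrix.transpose_apply, Matrix.map_apply, Matrix.neg_apply, Matrix.neg_apply,
          herm_neg_pow hK, e1] }
  have hblock : ∀ (X : Matrix ((k : Fin t) × Fin (d k)) ((k : Fin t) × Fin (d k)) K),
      X * NN K d = NN K d * X → ∀ s : Fin (Finset.univ.sup d + 1),
      (top hd (theta d q X)).toSquareBlock d (s : ℕ)
        = (((top hd X).toSquareBlock d (s : ℕ)).map (· ^ q))ᵀ := by
    intro X hX s
    ext ⟨l, hl⟩ ⟨k, hk⟩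
    exact theta_top d hd hX l k (hl.trans hk.symm)
  let f : A →+ ((s : Fin (Finset.univ.sup d + 1)) → HS s) :=
    { toFun := fun X s => ⟨(top hd X.1).toSquareBlock d (s : ℕ), by
        have h := hblock X.1 X.2.1 s
        rw [X.2.2] at h
        exact h.symm⟩
      map_zero' := by
        funext s
        apply Subtype.ext
        ext ⟨l, hl⟩ ⟨k, hk⟩
        rfl
      map_add' := by
        intro X Y
        funext s
        apply Subtype.ext
        ext ⟨l, hl⟩ ⟨k, hk⟩
        rfl }
  have hf : Function.Surjective f := by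
    intro b
    obtain ⟨lam, hlam⟩ := exists_trace_one hK
    obtain ⟨X₀, hX₀c, hX₀b⟩ := Cfsg.Agent.S2581.exists_section (F := K) hd
      (fun s => lam • (b s).1)
    have hc : (X₀ + theta d q X₀) * NN K d = NN K d * (X₀ + theta d q X₀) := by
      rw [add_mul, mul_add, hX₀c, theta_comm hK d hX₀c]
    have hfix : theta d q (X₀ + theta d q X₀) = X₀ + theta d q X₀ := by
      rw [theta_add hK, theta_theta hK, add_comm]
    refine ⟨⟨X₀ + theta d q X₀, hc, hfix⟩, ?_⟩
    funext s
    apply Subtype.ext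
    ext ⟨l, hl⟩ ⟨k, hk⟩
    have e1 : X₀ (o hd l) (o hd k) = lam * (b s).1 ⟨l, hl⟩ ⟨k, hk⟩ :=
      congrFun (congrFun (hX₀b s) ⟨l, hl⟩) ⟨k, hk⟩
    have e2 : X₀ (o hd k) (o hd l) = lam * (b s).1 ⟨k, hk⟩ ⟨l, hl⟩ :=
      congrFun (congrFun (hX₀b s) ⟨k, hk⟩) ⟨l, hl⟩
    have e3 : (b s).1 ⟨k, hk⟩ ⟨l, hl⟩ ^ q = (b s).1 ⟨l, hl⟩ ⟨k, hk⟩ :=
      congrFun (congrFun (b s).2 ⟨l, hl⟩) ⟨k, hk⟩
    show X₀ (o hd l) (o hd k) + theta d q X₀ (o hd l) (o hd k) = (b s).1 ⟨l, hl⟩ ⟨k, hk⟩
    rw [theta_top d hd hX₀c l k (hl.trans hk.symm), e1, e2, mul_pow, e3]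
    linear_combination (b s).1 ⟨l, hl⟩ ⟨k, hk⟩ * hlam
  let T : Set ((s : Fin (Finset.univ.sup d + 1)) → HS s) := {b | ∀ s, (b s).1.det ≠ 0}
  have key := Cfsg.Agent.Lib.Helper76.GUCFIBER.card_preimage_mul f hf T
  have e1 : Nat.card {a : A // f a ∈ T}
      = Nat.card {X : Matrix ((k : Fin t) × Fin (d k)) ((k : Fin t) × Fin (d k)) K //
        X * NN K d = NN K d * X ∧
        Pm K d * (X.map (· ^ q))ᵀ * Pm K d = X ∧ X.det ≠ 0} :=
    Nat.card_congr
      { toFun := fun a => ⟨a.1.1, a.1.2.1, a.1.2.2,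
          (Cfsg.Agent.S2581.det_ne_zero_iff hd a.1.2.1).mpr a.2⟩
        invFun := fun X => ⟨⟨X.1, X.2.1, X.2.2.1⟩,
          (Cfsg.Agent.S2581.det_ne_zero_iff hd X.2.1).mp X.2.2.2⟩
        left_inv := fun a => rfl
        right_inv := fun X => rfl }
  have e2 : Nat.card ((s : Fin (Finset.univ.sup d + 1)) → HS s)
      = q ^ (∑ s : Fin (Finset.univ.sup d + 1), mult d (s : ℕ) * mult d (s : ℕ)) := by
    rw [Nat.card_pi, ← Finset.prod_pow_eq_pow_sum]
    refine Finset.prod_congr rfl (fun s _ => ?_)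
    have h := card_herm hK {k : Fin t // d k = (s : ℕ)}
    rw [card_block] at h
    exact h
  have e3 : Nat.card A = q ^ (∑ k, ∑ l, min (d l) (d k)) := card_fix hK d hd
  have e4 : Nat.card T = ∏ s : Fin (Finset.univ.sup d + 1),
      Nat.card {B : Matrix {k : Fin t // d k = (s : ℕ)} {k : Fin t // d k = (s : ℕ)} K //
        (B.map (· ^ q))ᵀ = B ∧ B.det ≠ 0} := by
    rw [← Nat.card_pi]
    exact Nat.card_congr
      { toFun := fun b s => ⟨(b.1 s).1, (b.1 s).2, b.2 s⟩
        invFun := fun c => ⟨fun s => ⟨(c s).1, (c s).2.1⟩, fun s => (c s).2.2⟩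
        left_inv := fun b => rfl
        right_inv := fun c => rfl }
  rw [← e1, ← e2, ← e3, ← e4]
  exact key

end count

end Cfsg.Agent.Lib.Helper51.GUCCount
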