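import Mathlib
import Cfsg.Agent.S2581
import Cfsg.Agent.Lib.Helper17.GUCNHERM
import Cfsg.Agent.Lib.Helper23.GUCCONJ
import Cfsg.Agent.Lib.Helper30.GUCGLCENT
import Cfsg.Agent.Lib.Helper35.GUCGUINT
import Cfsg.Agent.Lib.Helper84.GUCMODEL
import Cfsg.Agent.Lib.Helper51.GUCCount

/-!
# S2646 (helper51): order of the centraliser of a unipotent element of `GU_n(q)` — assembly

`|C_GU(u)| * #{invertible u-invariant Hermitian forms} = |C_GL(u)|` (orbit–stabiliser, piece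
GUC-ORBIT, taken here as the hypothesis `horb`), the count of the invariant Hermitian forms
(pieces GUC-CONJ, GUC-MODEL, GUC-COUNT, GUC-NHERM), the order of `C_GL(u)` (S2581, GUC-GLCENT)
and the order of `GU_a(q)` (GUC-GUINT).
-/

set_option autoImplicit false

namespace Cfsg.Agent.Lib.Helper51.GUCMain

open Matrix Cfsg.Agent.Lib.Helper51.GUC
open Cfsg.Agent.S2581 (NN mult)

set_option maxHeartbeats 1600000 in
theorem main_of_orbit {K : Type*} [Field K] [Fintype K] {q n t : ℕ} (hK : Fintype.card K = q ^ 2)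
    (d : Fin t → ℕ) (hd : ∀ k, 1 ≤ d k) (e : ((k : Fin t) × Fin (d k)) ≃ Fin n)
    (u : ↥(Cfsg.GU n K q))
    (hu : IsConj (Matrix.reindex e e (Cfsg.jordanTypeMatrix d K))
      ((u : GL (Fin n) K) : Matrix (Fin n) (Fin n) K))
    (horb : ∀ (m : ℕ) (u : ↥(Cfsg.GU m K q)),
      Nat.card ↥(Subgroup.centralizer ({u} : Set ↥(Cfsg.GU m K q))) *
        Nat.card {H : Matrix (Fin m) (Fin m) K // (H.map (· ^ q))ᵀ = H ∧ H.det ≠ 0 ∧
          (((u : GL (Fin m) K) : Matrix (Fin m) (Fin m) K).map (· ^ q))ᵀ * H *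
            ((u : GL (Fin m) K) : Matrix (Fin m) (Fin m) K) = H} =
      Nat.card {g : GL (Fin m) K // (g : Matrix (Fin m) (Fin m) K) *
          ((u : GL (Fin m) K) : Matrix (Fin m) (Fin m) K) =
        ((u : GL (Fin m) K) : Matrix (Fin m) (Fin m) K) * (g : Matrix (Fin m) (Fin m) K)}) :
    (Nat.card ↥(Subgroup.centralizer ({u} : Set ↥(Cfsg.GU n K q))) : ℤ) =
      (q : ℤ) ^ (2 * (∑ i ∈ Finset.range (Finset.univ.sup d + 1),
          ∑ j ∈ Finset.range (Finset.univ.sup d + 1),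
            if i < j then i * mult d i * mult d j else 0)
        + ∑ i ∈ Finset.range (Finset.univ.sup d + 1), (i - 1) * mult d i ^ 2) *
      ∏ i ∈ Finset.range (Finset.univ.sup d + 1),
        ((q : ℤ) ^ (mult d i * (mult d i - 1) / 2) *
          ∏ j : Fin (mult d i), ((q : ℤ) ^ ((j : ℕ) + 1) - (-1) ^ ((j : ℕ) + 1))) := by
  classical
  have hq0 : q ≠ 0 := by
    rintro rfl
    have h1 := Fintype.card_pos (α := K)
    rw [hK] at h1
    norm_num at h1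
  have hqpos : 0 < q := Nat.pos_of_ne_zero hq0
  obtain ⟨γ, hγ⟩ : ∃ γ : ℕ, γ = 2 * (∑ i ∈ Finset.range (Finset.univ.sup d + 1),
          ∑ j ∈ Finset.range (Finset.univ.sup d + 1),
            if i < j then i * mult d i * mult d j else 0)
        + ∑ i ∈ Finset.range (Finset.univ.sup d + 1), (i - 1) * mult d i ^ 2 := ⟨_, rfl⟩
  rw [← hγ]
  -- the pieces
  have hA := horb n u
  have hH := Cfsg.Agent.Lib.Helper30.GUCGLCENT.gl_cent_count d e (u : GL (Fin n) K) hu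
  have hS := Cfsg.Agent.S2581.card_centralizer (F := K) hd
  rw [← hγ, hK] at hS
  have hB := Cfsg.Agent.Lib.Helper23.GUCCONJ.hinv_conj hK e (Cfsg.jordanTypeMatrix d K)
    ((u : GL (Fin n) K) : Matrix (Fin n) (Fin n) K) hu
  have hC := Cfsg.Agent.Lib.Helper84.GUCMODEL.model_count hK d (fun M M' h => Cfsg.Agent.Lib.Helper23.GUCCONJ.hinv_conj hK (Equiv.refl _) M M' (by
    rw [Matrix.reindex_apply, Equiv.refl_symm, Equiv.coe_refl, Matrix.submatrix_id_id]
    exact h))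
  have hD := Cfsg.Agent.Lib.Helper51.GUCCount.herm_comm_count hK d hd
  have hE : ∀ s : Fin (Finset.univ.sup d + 1),
      Nat.card {B : Matrix {k : Fin t // d k = (s : ℕ)} {k : Fin t // d k = (s : ℕ)} K //
          (B.map (· ^ q))ᵀ = B ∧ B.det ≠ 0} * Nat.card ↥(Cfsg.GU (mult d (s : ℕ)) K q) =
        Nat.card (GL (Fin (mult d (s : ℕ))) K) := fun s =>
    Cfsg.Agent.Lib.Helper17.GUCNHERM.nherm_count hK _ (mult d (s : ℕ)) (Fintype.card_subtype _)
      (fun u' => horb _ u')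
  have hGL : ∀ a : ℕ, Nat.card (GL (Fin a) K) =
      ∏ j : Fin a, ((q ^ 2) ^ a - (q ^ 2) ^ (j : ℕ)) := by
    intro a
    rw [Matrix.card_GL_field, hK]
  have hsm := Cfsg.Agent.S2581.sum_min d hd
  rw [← hγ] at hsm
  -- abbreviations
  obtain ⟨Cu, hCu⟩ : ∃ Cu : ℕ, Cu = Nat.card ↥(Subgroup.centralizer ({u} : Set ↥(Cfsg.GU n K q))) :=
    ⟨_, rfl⟩
  obtain ⟨Xc, hXc⟩ : ∃ Xc : ℕ, Xc = Nat.card
      {X : Matrix ((k : Fin t) × Fin (d k)) ((k : Fin t) × Fin (d k)) K //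
        X * NN K d = NN K d * X ∧ Pm K d * (X.map (· ^ q))ᵀ * Pm K d = X ∧ X.det ≠ 0} :=
    ⟨_, rfl⟩
  obtain ⟨NH, hNH⟩ : ∃ NH : Fin (Finset.univ.sup d + 1) → ℕ, ∀ s, NH s = Nat.card
      {B : Matrix {k : Fin t // d k = (s : ℕ)} {k : Fin t // d k = (s : ℕ)} K //
          (B.map (· ^ q))ᵀ = B ∧ B.det ≠ 0} := ⟨_, fun _ => rfl⟩
  obtain ⟨G, hG⟩ : ∃ G : ℕ → ℕ, ∀ a, G a = Nat.card ↥(Cfsg.GU a K q) := ⟨_, fun _ => rfl⟩
  simp only [← hNH, ← hG] at hE hD
  rw [← hXc] at hD hC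
  rw [← hCu, hB.symm, hC, hH, hS] at hA
  rw [← hCu]
  -- `hA : Cu * Xc = (q^2)^γ * ∏ i ∈ range, ∏ j, ...`
  have hL : ∏ i ∈ Finset.range (Finset.univ.sup d + 1), ∏ j : Fin (mult d i),
      ((q ^ 2) ^ mult d i - (q ^ 2) ^ (j : ℕ)) =
      ∏ s : Fin (Finset.univ.sup d + 1), NH s * G (mult d (s : ℕ)) := by
    rw [← Fin.prod_univ_eq_prod_range (fun i => ∏ j : Fin (mult d i),
      ((q ^ 2) ^ mult d i - (q ^ 2) ^ (j : ℕ)))]
    apply Finset.prod_congr rfl
    intro s _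
    rw [hE s, hGL]
  rw [hL, Finset.prod_mul_distrib] at hA
  have hA2 : ∑ s : Fin (Finset.univ.sup d + 1), mult d (s : ℕ) * mult d (s : ℕ) =
      ∑ i ∈ Finset.range (Finset.univ.sup d + 1), mult d i * mult d i :=
    Fin.sum_univ_eq_sum_range (fun i => mult d i * mult d i) _
  rw [hsm, hA2] at hD
  obtain ⟨A2, hA2'⟩ : ∃ A2 : ℕ, A2 = ∑ i ∈ Finset.range (Finset.univ.sup d + 1),
      mult d i * mult d i := ⟨_, rfl⟩
  rw [← hA2'] at hD
  have hNHpos : 0 < ∏ s : Fin (Finset.univ.sup d + 1), NH s := by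
    apply Finset.prod_pos
    intro s _
    have h1 := hE s
    have h2 : 0 < Nat.card (GL (Fin (mult d (s : ℕ))) K) := Nat.card_pos
    rw [← h1] at h2
    exact Nat.pos_of_mul_pos_right h2 |> fun h => by
      rcases Nat.eq_zero_or_pos (NH s) with h0 | h0
      · rw [h0, zero_mul] at h2
        exact absurd h2 (lt_irrefl 0)
      · exact h0
  have key : Cu = q ^ γ * ∏ s : Fin (Finset.univ.sup d + 1), G (mult d (s : ℕ)) := by
    have hpos : 0 < q ^ (γ + A2) * ∏ s : Fin (Finset.univ.sup d + 1), NH s :=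
      Nat.mul_pos (pow_pos hqpos _) hNHpos
    apply Nat.eq_of_mul_eq_mul_right hpos
    calc Cu * (q ^ (γ + A2) * ∏ s : Fin (Finset.univ.sup d + 1), NH s)
        = Cu * (Xc * q ^ A2) := by rw [hD]
      _ = (Cu * Xc) * q ^ A2 := by ring
      _ = ((q ^ 2) ^ γ * ((∏ s : Fin (Finset.univ.sup d + 1), NH s) *
            ∏ s : Fin (Finset.univ.sup d + 1), G (mult d (s : ℕ)))) * q ^ A2 := by rw [hA]
      _ = q ^ γ * (∏ s : Fin (Finset.univ.sup d + 1), G (mult d (s : ℕ))) *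
            (q ^ (γ + A2) * ∏ s : Fin (Finset.univ.sup d + 1), NH s) := by
          rw [← pow_mul, pow_add]
          ring
  rw [key]
  push_cast
  congr 1
  rw [← Fin.prod_univ_eq_prod_range (fun i => (q : ℤ) ^ (mult d i * (mult d i - 1) / 2) *
          ∏ j : Fin (mult d i), ((q : ℤ) ^ ((j : ℕ) + 1) - (-1) ^ ((j : ℕ) + 1)))]
  apply Finset.prod_congr rfl
  intro s _
  rw [hG, Cfsg.Agent.Lib.Helper35.GUCGUINT.gu_card_int hK]

end Cfsg.Agent.Lib.Helper51.GUCMain
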