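import Cfsg.Agent.Lib.Helper98.H90Defs

/-!
# Project H74, batch 2 (S5990), piece AR90OB (helper51): the arithmetic for `i` odd, backward
-/

set_option autoImplicit false

namespace Cfsg.Agent.Lib.Helper98.H74

open Cfsg.Agent.Lib.Helper47 Cfsg.Agent.Lib.Helper98.T73 Module Polynomial

theorem AR90OB_key (c d m a : ℕ) (hc : 0 < c) (hm : 2 ≤ m) (hmd : m + 2 ≤ 2 * d)
    (hca : c * a < 2 * d)
    (hC : (2 * d) % c = 0 ∨ (0 < m % c ∧ m % c ≤ (2 * d) % c)) :
    ∃ b w, b ≤ a ∧ 0 < w ∧ m = c * b + w ∧ w + c * a ≤ 2 * d := by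
  have hdm := Nat.div_add_mod (2 * d) c
  have hmm := Nat.div_add_mod m c
  have h9 : (a + 1) * c = c * a + c := by ring
  rcases hC with h0 | ⟨hμ0, hμρ⟩
  · rw [h0, add_zero] at hdm
    have haD : a < (2 * d) / c := by
      apply Nat.lt_of_mul_lt_mul_left (a := c)
      rw [hdm]
      exact hca
    have hcD : (a + 1) * c ≤ 2 * d := by
      calc (a + 1) * c = c * (a + 1) := by ring
        _ ≤ c * ((2 * d) / c) := Nat.mul_le_mul_left _ haD
        _ = 2 * d := hdm
    by_cases hcase : (m - 1) / c ≤ a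
    · have h7 := Nat.div_add_mod (m - 1) c
      have h8 : (m - 1) % c < c := Nat.mod_lt _ hc
      exact ⟨(m - 1) / c, m - c * ((m - 1) / c), hcase, by omega, by omega, by omega⟩
    · push Not at hcase
      have h4 : (a + 1) * c ≤ m - 1 := (Nat.le_div_iff_mul_le hc).mp hcase
      exact ⟨a, m - c * a, le_refl _, by omega, by omega, by omega⟩
  · have haD : a ≤ (2 * d) / c := by
      rw [Nat.le_div_iff_mul_le hc]
      calc a * c = c * a := by ring
        _ ≤ 2 * d := le_of_lt hca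
    have hcD : c * a ≤ c * ((2 * d) / c) := Nat.mul_le_mul_left _ haD
    by_cases hcase : m / c ≤ a
    · exact ⟨m / c, m % c, hcase, hμ0, by omega, by omega⟩
    · push Not at hcase
      have h4 : (a + 1) * c ≤ m := (Nat.le_div_iff_mul_le hc).mp hcase
      exact ⟨a, m - c * a, le_refl _, by omega, by omega, by omega⟩

/-- AR90OB -/
theorem ar90_odd_bwd (i d m : ℕ) (hi : 1 ≤ i) (hodd : ¬ Even i) (hd : 4 ≤ d) (hm : 2 ≤ m)
    (hme : Even m) (hmd : m + 2 ≤ 2 * d) (hC : Cond90 i d m) : ModelH (-1) (-1) i d m := by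
  have hoddi : Odd i := Nat.not_even_iff_odd.mp hodd
  have hsgn : ∀ A, sgn i A = 1 := fun A => by
    unfold sgn
    rw [if_neg hodd]
  have hc : 0 < 2 * i := by omega
  unfold Cond90 at hC
  rw [if_neg hodd] at hC
  unfold ModelH
  intro A hA
  unfold Valid at hA
  obtain ⟨hA1, hiA, hAev, hAne⟩ := hA
  obtain ⟨a, ha⟩ := hAev hoddi
  have h6 : i * A = 2 * i * a := by
    rw [ha]
    ring
  have hne : 2 * d ≠ i * A := by
    intro h
    have h1 := hAne h
    rw [hsgn] at h1
    exact absurd h1 (by norm_num)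
  have hca : 2 * i * a < 2 * d := by omega
  have hC' : (2 * d) % (2 * i) = 0 ∨ (0 < m % (2 * i) ∧ m % (2 * i) ≤ (2 * d) % (2 * i)) := by
    rcases hC with h | ⟨-, h1, h2⟩
    · exact Or.inl h
    · exact Or.inr ⟨h1, h2⟩
  obtain ⟨b, w, hba, hw0, hmw, hwd⟩ := AR90OB_key (2 * i) d m a hc hm hmd hca hC'
  unfold MC
  have h3 : i * (2 * b) = 2 * i * b := by ring
  refine ⟨2 * b, w, by omega, fun _ => even_two_mul _, by omega, by omega, fun h => by omega,
    fun _ _ => by simp only [hsgn]⟩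

end Cfsg.Agent.Lib.Helper98.H74
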