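import Mathlib
import Cfsg.Agent.Lib.Helper70.SchurTwoA

set_option autoImplicit false

open scoped commutatorElement

universe u v

/-! Piece J2M-HQ of S2040 (helper51 for helper70): propagation of "all lifts are involutions" from
the class of `a₀` to an elementary abelian group of order 16. -/

namespace Cfsg.Agent.Lib.Helper51.J2MHQ

open Cfsg.Agent.Lib.Helper70

theorem hq_of_classes {Γ : Type u} {G : Type v} [Group Γ] [Group G] (σ : Γ →* G)
    (hσ : Function.Surjective σ) (hc : σ.ker ≤ Subgroup.center Γ) (h2 : ∀ ζ ∈ σ.ker, ζ * ζ = 1)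
    (a₀ : G) (ha₀ : a₀ * a₀ = 1) (hq0 : QOne σ a₀)
    (e : Fin 16 → G) (hmul : ∀ i j, e i * e j = e (i ^^^ j))
    (hcls : ∀ i : Fin 16, i = 0 ∨ (∃ k : G, e i = k * a₀ * k⁻¹) ∨
      ∃ i1 i2 i3 : Fin 16, i = i1 ^^^ i2 ^^^ i3 ∧ (∃ k : G, e i1 = k * a₀ * k⁻¹) ∧
        (∃ k : G, e i2 = k * a₀ * k⁻¹) ∧ (∃ k : G, e i3 = k * a₀ * k⁻¹) ∧
        (∃ k : G, e (i1 ^^^ i2) = k * a₀ * k⁻¹) ∧ (∃ k : G, e (i1 ^^^ i3) = k * a₀ * k⁻¹) ∧
        (∃ k : G, e (i2 ^^^ i3) = k * a₀ * k⁻¹)) :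
    ∀ i : Fin 16, ∀ b : Γ, σ b = e i → b * b = 1 := by
  have hr : ∀ x : G, x ∈ σ.range := fun x => MonoidHom.mem_range.mpr (hσ x)
  have hconj : ∀ i : Fin 16, (∃ k : G, e i = k * a₀ * k⁻¹) → QOne σ (e i) := by
    rintro i ⟨k, hk⟩
    rw [hk]
    exact qOne_conj hc h2 ha₀ hq0 (hr _) (hr _)
  have he0 : e 0 = 1 := by
    have h := hmul 0 0
    have h00 : (0 : Fin 16) ^^^ 0 = 0 := by decide
    rw [h00] at h
    exact mul_left_cancel (a := e 0) (by rw [h, mul_one])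
  have hxx : ∀ i : Fin 16, i ^^^ i = 0 := by decide
  have hxc : ∀ i j : Fin 16, i ^^^ j = j ^^^ i := by decide
  have hsq : ∀ i, e i * e i = 1 := by
    intro i
    rw [hmul, hxx, he0]
  have hcomm : ∀ i j, e i * e j = e j * e i := by
    intro i j
    rw [hmul, hmul, hxc]
  intro i
  rcases hcls i with rfl | h | ⟨i1, i2, i3, rfl, h1, h2', h3, h12, h13, h23⟩
  · intro b hb
    rw [he0] at hb
    exact h2 b (MonoidHom.mem_ker.mpr hb)
  · exact hconj i h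
  · have hprod : e (i1 ^^^ i2 ^^^ i3) = e i1 * e i2 * e i3 := by rw [hmul, hmul]
    rw [hprod]
    refine qOne_of_six hc h2 (hr _) (hr _) (hr _) (hsq _) (hsq _) (hsq _) (hcomm _ _)
      (hcomm _ _) (hcomm _ _) (hconj _ h1) (hconj _ h2') (hconj _ h3) ?_ ?_ ?_
    · rw [hmul]
      exact hconj _ h12
    · rw [hmul]
      exact hconj _ h13
    · rw [hmul]
      exact hconj _ h23

end Cfsg.Agent.Lib.Helper51.J2MHQ
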