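import Mathlib
import Cfsg.Prelude.Def_GeometricClasses
import Cfsg.Agent.Lib.Helper71.OK1
import Cfsg.Agent.Lib.Helper52.Siegel
import Cfsg.Agent.Lib.Helper55.OKA1

set_option autoImplicit false

namespace Cfsg.Agent.Lib.Helper51.OKE2b

open Matrix Cfsg.Agent.Lib.Helper71.SpK Cfsg.Agent.Lib.Helper71.OK
open Cfsg.Agent.Lib.Helper55.OKA1

theorem comm_eich {ι : Type} [Fintype ι] [DecidableEq ι] {F : Type*} [Field F] [Finite F]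
    {Q : QuadraticForm F (ι → F)} {L : Type*} [Field L] [Algebra F L] [FiniteDimensional F L]
    (S : KO (QuadraticMap.polar ⇑Q) L) (h2 : (2 : F) ≠ 0)
    (hQ : (QuadraticMap.polarBilin Q).Nondegenerate)
    (hr : (Module.finrank F L).Prime) (hd : 4 * Module.finrank F L ≤ Fintype.card ι) (M : Subgroup (GL ι F)) (hNM : S.NO Q ≤ M) (hMΩ : M ≤ Cfsg.Geo.omegaGL ⇑Q) {u : ι → F} (huu : S.B u u = 0) {g : GL ι F} (hg : g ∈ M)
    {w₁ w₂ : ι → F} {c₁ c₂ : L} (hw₁ : S.B w₁ u = 0) (hw₂ : S.B w₂ u = 0)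
    (hgx : ∀ x : ι → F, S.B x u = 0 → (g : Matrix ι ι F) *ᵥ x = x +
      S.φ (algebraMap F L (QuadraticMap.polar ⇑Q x w₁) * c₁ +
          algebraMap F L (QuadraticMap.polar ⇑Q x w₂) * c₂) *ᵥ u)
    {z₁ : ι → F} (hz₁ : S.B z₁ u = 0) :
    ∃ γ ∈ M, (γ : Matrix ι ι F) =
      Cfsg.Agent.Lib.Helper52.eichMat Q (S.φ (S.B z₁ w₁) *ᵥ u) (S.φ c₁ *ᵥ u) *
        Cfsg.Agent.Lib.Helper52.eichMat Q (S.φ (S.B z₁ w₂) *ᵥ u) (S.φ c₂ *ᵥ u) := by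
  have huz₁ : S.B u z₁ = 0 := by rw [S.B_symm]; exact hz₁
  obtain ⟨T, hT, hTx⟩ := exists_rho S h2 hQ hr hd huu huz₁
  have hgΩ := hMΩ hg
  have huw₁ : S.B u w₁ = 0 := by rw [S.B_symm]; exact hw₁
  have huw₂ : S.B u w₂ = 0 := by rw [S.B_symm]; exact hw₂
  have hβ : ∀ (t : F) (c : L), S.β (algebraMap F L t * c) = t * S.β c := by
    intro t c
    rw [← Algebra.smul_def, map_smul, smul_eq_mul]
  have hφ : ∀ (t : F) (c : L) (v : ι → F), S.φ (algebraMap F L t * c) *ᵥ v = t • (S.φ c *ᵥ v) := by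
    intro t c v
    rw [← Algebra.smul_def, S.φ_smul_mulVec]
  -- (1)
  have hgu : ∀ k : L, (g : Matrix ι ι F) *ᵥ (S.φ k *ᵥ u) = S.φ k *ᵥ u := by
    intro k
    rw [hgx _ (by rw [S.B_act, huu, mul_zero])]
    have e1 : QuadraticMap.polar ⇑Q (S.φ k *ᵥ u) w₁ = 0 := by
      rw [S.f_act, huw₁, mul_zero, map_zero]
    have e2 : QuadraticMap.polar ⇑Q (S.φ k *ᵥ u) w₂ = 0 := by
      rw [S.f_act, huw₂, mul_zero, map_zero]
    rw [e1, e2, map_zero, zero_mul, zero_mul, add_zero, S.φ_zero_mulVec, add_zero]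
  -- (2)
  have hB_u : ∀ x, S.B (((g⁻¹ : GL ι F) : Matrix ι ι F) *ᵥ x) u = S.B x u := by
    intro x
    apply S.β_ext
    intro l
    rw [← S.f_act_right, ← S.f_act_right, omega_polar_inv Q hgΩ, hgu]
  -- (3)
  have hB_z : ∀ x, S.B (((g⁻¹ : GL ι F) : Matrix ι ι F) *ᵥ x) z₁ = S.B x z₁
      + algebraMap F L (QuadraticMap.polar ⇑Q x (S.φ c₁ *ᵥ u)) * S.B z₁ w₁
      + algebraMap F L (QuadraticMap.polar ⇑Q x (S.φ c₂ *ᵥ u)) * S.B z₁ w₂ := by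
    intro x
    apply S.β_ext
    intro l
    rw [← S.f_act_right, omega_polar_inv Q hgΩ, hgx _ (by rw [S.B_act, hz₁, mul_zero]),
      QuadraticMap.polar_add_right, S.f_act_right l x z₁, S.f_act_right _ x u,
      S.f_act l z₁ w₁, S.f_act l z₁ w₂, S.f_act_right c₁ x u, S.f_act_right c₂ x u]
    have e1 : (algebraMap F L (S.β (l * S.B z₁ w₁)) * c₁ +
        algebraMap F L (S.β (l * S.B z₁ w₂)) * c₂) * S.B x u =
        algebraMap F L (S.β (l * S.B z₁ w₁)) * (c₁ * S.B x u) +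
        algebraMap F L (S.β (l * S.B z₁ w₂)) * (c₂ * S.B x u) := by ring
    have e2 : l * (S.B x z₁ + algebraMap F L (S.β (c₁ * S.B x u)) * S.B z₁ w₁ +
        algebraMap F L (S.β (c₂ * S.B x u)) * S.B z₁ w₂) =
        l * S.B x z₁ + algebraMap F L (S.β (c₁ * S.B x u)) * (l * S.B z₁ w₁) +
        algebraMap F L (S.β (c₂ * S.B x u)) * (l * S.B z₁ w₂) := by ring
    rw [e1, e2, map_add, map_add, map_add, hβ, hβ, hβ, hβ]
    ring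
  have hfuu : ∀ k k' : L, QuadraticMap.polar ⇑Q (S.φ k *ᵥ u) (S.φ k' *ᵥ u) = 0 := by
    intro k k'
    rw [S.f_act, S.B_act_right, huu, mul_zero, mul_zero, map_zero]
  have hQku : ∀ k : L, Q (S.φ k *ᵥ u) = 0 := by
    intro k
    exact S.Q_eq_zero h2 (by rw [S.B_act, S.B_act_right, huu, mul_zero, mul_zero])
  have hE : ∀ (ν c : L) (v : ι → F),
      Cfsg.Agent.Lib.Helper52.eichMat Q (S.φ ν *ᵥ u) (S.φ c *ᵥ u) *ᵥ v =
        v + QuadraticMap.polar ⇑Q v (S.φ c *ᵥ u) • (S.φ ν *ᵥ u)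
          - QuadraticMap.polar ⇑Q v (S.φ ν *ᵥ u) • (S.φ c *ᵥ u) := by
    intro ν c v
    rw [Cfsg.Agent.Lib.Helper52.eichMat_mulVec, hQku c, zero_mul, zero_smul, sub_zero,
      QuadraticMap.polar_comm _ (S.φ c *ᵥ u) v, QuadraticMap.polar_comm _ (S.φ ν *ᵥ u) v]
  refine ⟨g * T * g⁻¹ * T⁻¹,
    M.mul_mem (M.mul_mem (M.mul_mem hg (hNM hT)) (M.inv_mem hg)) (M.inv_mem (hNM hT)), ?_⟩
  apply Matrix.mulVec_injective
  funext x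
  rw [gl_mul_mulVec, gl_mul_mulVec, gl_mul_mulVec, ← Matrix.mulVec_mulVec, hE, hE]
  obtain ⟨y, hy⟩ : ∃ y : ι → F, y = ((T⁻¹ : GL ι F) : Matrix ι ι F) *ᵥ x := ⟨_, rfl⟩
  rw [← hy]
  have hTy : S.rho u z₁ y = x := by rw [← hTx, hy, gl_mulVec_inv']
  have hyu : S.B y u = S.B x u := by
    have h1 := S.NO_B hT y u
    rw [hTx, hTx, hTy, S.rho_self huu huz₁] at h1
    exact h1.symm
  obtain ⟨p, hp⟩ : ∃ p : ι → F, p = ((g⁻¹ : GL ι F) : Matrix ι ι F) *ᵥ y := ⟨_, rfl⟩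
  rw [← hp]
  have hgp : (g : Matrix ι ι F) *ᵥ p = y := by rw [hp, gl_mulVec_inv']
  have hpu : S.B p u = S.B x u := by rw [hp, hB_u, hyu]
  have hpz := hB_z y
  rw [← hp] at hpz
  have ht₁ : QuadraticMap.polar ⇑Q y (S.φ c₁ *ᵥ u) = QuadraticMap.polar ⇑Q x (S.φ c₁ *ᵥ u) := by
    rw [S.f_act_right, S.f_act_right, hyu]
  have ht₂ : QuadraticMap.polar ⇑Q y (S.φ c₂ *ᵥ u) = QuadraticMap.polar ⇑Q x (S.φ c₂ *ᵥ u) := by
    rw [S.f_act_right, S.f_act_right, hyu]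
  rw [ht₁, ht₂] at hpz
  have hg1 := hgx (S.φ (S.B x u) *ᵥ z₁) (by rw [S.B_act, hz₁, mul_zero])
  have hs₁ : QuadraticMap.polar ⇑Q (S.φ (S.B x u) *ᵥ z₁) w₁
      = QuadraticMap.polar ⇑Q x (S.φ (S.B z₁ w₁) *ᵥ u) := by
    rw [S.f_act, S.f_act_right, mul_comm]
  have hs₂ : QuadraticMap.polar ⇑Q (S.φ (S.B x u) *ᵥ z₁) w₂
      = QuadraticMap.polar ⇑Q x (S.φ (S.B z₁ w₂) *ᵥ u) := by
    rw [S.f_act, S.f_act_right, mul_comm]
  rw [hs₁, hs₂] at hg1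
  -- the right-hand side
  have hr1 : QuadraticMap.polar ⇑Q (x + QuadraticMap.polar ⇑Q x (S.φ c₂ *ᵥ u) • (S.φ (S.B z₁ w₂) *ᵥ u)
      - QuadraticMap.polar ⇑Q x (S.φ (S.B z₁ w₂) *ᵥ u) • (S.φ c₂ *ᵥ u)) (S.φ c₁ *ᵥ u)
      = QuadraticMap.polar ⇑Q x (S.φ c₁ *ᵥ u) := by
    rw [QuadraticMap.polar_sub_left, QuadraticMap.polar_add_left, QuadraticMap.polar_smul_left,
      QuadraticMap.polar_smul_left, hfuu, hfuu, smul_zero, smul_zero, add_zero, sub_zero]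
  have hr2 : QuadraticMap.polar ⇑Q (x + QuadraticMap.polar ⇑Q x (S.φ c₂ *ᵥ u) • (S.φ (S.B z₁ w₂) *ᵥ u)
      - QuadraticMap.polar ⇑Q x (S.φ (S.B z₁ w₂) *ᵥ u) • (S.φ c₂ *ᵥ u)) (S.φ (S.B z₁ w₁) *ᵥ u)
      = QuadraticMap.polar ⇑Q x (S.φ (S.B z₁ w₁) *ᵥ u) := by
    rw [QuadraticMap.polar_sub_left, QuadraticMap.polar_add_left, QuadraticMap.polar_smul_left,
      QuadraticMap.polar_smul_left, hfuu, hfuu, smul_zero, smul_zero, add_zero, sub_zero]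
  rw [hr1, hr2]
  -- the left-hand side
  rw [hTx p]
  unfold KO.rho at hTy ⊢
  rw [hyu] at hTy
  rw [hpu, hpz, Matrix.mulVec_sub, Matrix.mulVec_sub, Matrix.mulVec_add, Matrix.mulVec_smul,
    hgp, hgu, hgu, hg1, S.φ_add_mulVec, S.φ_add_mulVec, S.φ_add_mulVec, hφ, hφ, hφ, hφ]
  generalize QuadraticMap.polar ⇑Q x (S.φ c₁ *ᵥ u) = t₁ at *
  generalize QuadraticMap.polar ⇑Q x (S.φ c₂ *ᵥ u) = t₂ at *
  generalize QuadraticMap.polar ⇑Q x (S.φ (S.B z₁ w₁) *ᵥ u) = s₁ at *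
  generalize QuadraticMap.polar ⇑Q x (S.φ (S.B z₁ w₂) *ᵥ u) = s₂ at *
  generalize S.B x u = a at *
  rw [← hTy]
  module

end Cfsg.Agent.Lib.Helper51.OKE2b
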