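import Cfsg.Agent.S2583

set_option autoImplicit false
set_option linter.unusedSectionVars false

/-!
The Jordan type of a unipotent isometry on an invariant non-degenerate subspace.
-/

namespace Cfsg.Agent.Lib.Helper51.OSub

open Cfsg.Agent.Lib.Helper51.Jordan Cfsg.Agent.Lib.Helper51.JType
open Cfsg.Agent.Lib.Helper51.JOrth

universe u v

/-- If a unipotent isometry `f` of Jordan type `μ` (odd characteristic, symmetric form `B`)
stabilises a subspace `W` on which `B` is non-degenerate, then the Jordan type of `f` on `W` is a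
sub-multiset of `μ` in which even parts have even multiplicity. -/
theorem sub_type {F : Type v} [Field F] {V : Type u} [AddCommGroup V] [Module F V]
    [FiniteDimensional F V]
    (B : LinearMap.BilinForm F V) (hB : ∀ x y, B x y = B y x) (h2 : (2 : F) ≠ 0)
    (f : Module.End F V) (hf : ∀ x y, B (f x) (f y) = B x y)
    (μ : Multiset ℕ) (hμ : ∀ c ∈ μ, 0 < c) (hdim : μ.sum = Module.finrank F V)
    (hk : ∀ j, kap (f - 1) j = kapM μ j)
    (W : Submodule F V) (hW : ∀ x ∈ W, f x ∈ W)
    (hnd : ∀ w ∈ W, w ≠ 0 → ∃ x ∈ W, B x w ≠ 0) :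
    ∃ ν : Multiset ℕ, ν ≤ μ ∧ ν.sum = Module.finrank F W ∧ ∀ e, Even e → Even (ν.count e) := by
  have hN : (f - 1) ^ μ.sum = 0 := by
    apply pow_zero_of_kap
    rw [hk, (kapM_eq_sum_iff μ μ.sum).mpr (fun c hc => Multiset.le_sum_of_mem hc), hdim]
  have hnil : IsNilpotent (f - 1) := ⟨_, hN⟩
  have hunit : IsUnit f := by
    have := hnil.isUnit_one_add
    rwa [add_sub_cancel] at this
  have hinj : Function.Injective f := ((Module.End.isUnit_iff f).mp hunit).injective
  have hsurjW : ∀ x ∈ W, ∃ x' ∈ W, f x' = x := by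
    have hinjW : Function.Injective (f.restrict hW) := by
      intro a b hab
      apply Subtype.ext
      apply hinj
      have := congrArg Subtype.val hab
      simpa using this
    have hs := LinearMap.surjective_of_injective hinjW
    intro x hx
    obtain ⟨y, hy⟩ := hs ⟨x, hx⟩
    exact ⟨y, y.2, by have := congrArg Subtype.val hy; simpa using this⟩
  have hW' : ∀ y ∈ B.orthogonal W, f y ∈ B.orthogonal W := by
    intro y hy
    rw [LinearMap.BilinForm.mem_orthogonal_iff] at hy ⊢
    intro x hx
    obtain ⟨x', hx', rfl⟩ := hsurjW x hx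
    rw [hf]
    exact hy x' hx'
  have hrefl : B.IsRefl := fun x y h => by rw [hB]; exact h
  have hndW : (B.restrict W).Nondegenerate := by
    constructor
    · intro x hx
      by_contra hx0
      obtain ⟨y, hy, hne⟩ := hnd x x.2 (fun h => hx0 (Subtype.ext h))
      apply hne
      rw [hB]
      exact hx ⟨y, hy⟩
    · intro y hy
      by_contra hy0
      obtain ⟨x, hx, hne⟩ := hnd y y.2 (fun h => hy0 (Subtype.ext h))
      exact hne (hy ⟨x, hx⟩)
  have hcompl := LinearMap.BilinForm.isCompl_orthogonal_of_restrict_nondegenerate hrefl hndW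
  have hNW : ∀ x ∈ W, (f - 1) x ∈ W := fun x hx => by
    rw [LinearMap.sub_apply, Module.End.one_apply]
    exact W.sub_mem (hW x hx) hx
  have hNW' : ∀ x ∈ B.orthogonal W, (f - 1) x ∈ B.orthogonal W := fun x hx => by
    rw [LinearMap.sub_apply, Module.End.one_apply]
    exact (B.orthogonal W).sub_mem (hW' x hx) hx
  have hkap : ∀ j, kap (f - 1) j
      = kap ((f - 1).restrict hNW) j + kap ((f - 1).restrict hNW') j := by
    intro j
    rw [← kap_prod]
    symm
    apply kap_conj _ _ (Submodule.prodEquivOfIsCompl W (B.orthogonal W) hcompl)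
    rintro ⟨a, b⟩
    rw [Submodule.coe_prodEquivOfIsCompl', Submodule.coe_prodEquivOfIsCompl']
    simp [map_add]
  obtain ⟨ν, hνpos, hνsum, hνk⟩ := exists_type (Module.finrank F W) W ((f - 1).restrict hNW)
    (restrict_nil _ hnil W hNW) rfl
  obtain ⟨ν', hν'pos, hν'sum, hν'k⟩ := exists_type _ (B.orthogonal W) ((f - 1).restrict hNW')
    (restrict_nil _ hnil _ hNW') rfl
  have hμeq : μ = ν + ν' := by
    apply kapM_inj μ (ν + ν') hμ (fun c hc => by
      rcases Multiset.mem_add.mp hc with h | h
      · exact hνpos c h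
      · exact hν'pos c h)
    intro j
    rw [← hk, hkap, hνk, hν'k, kapM_add]
  refine ⟨ν, by rw [hμeq]; exact Multiset.le_add_right ν ν', hνsum, fun e he => ?_⟩
  rcases Nat.eq_zero_or_pos e with rfl | he0
  · rw [Multiset.count_eq_zero_of_notMem (fun h0 => absurd (hνpos 0 h0) (lt_irrefl 0))]
    exact ⟨0, rfl⟩
  · have e1 : f.restrict hW - 1 = (f - 1).restrict hNW := by
      apply LinearMap.ext
      intro w
      apply Subtype.ext
      simp
    have hodd : ∀ l, Odd l → ∃ k, Module.finrank F W = kapM ν l + 2 * k := by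
      intro l hl
      obtain ⟨k, hk'⟩ := Cfsg.Agent.S2583.odd_of_isometry (B.restrict W) (fun x y => hB _ _)
        hndW.2 h2 (f.restrict hW) (by rw [e1]; exact restrict_nil _ hnil W hNW)
        (fun x y => hf _ _) l hl
      rw [e1, hνk] at hk'
      exact ⟨k, hk'⟩
    obtain ⟨a, ha⟩ := he
    have ec := kapM_count ν e (by omega)
    obtain ⟨k1, h1⟩ := hodd (e + 1) ⟨a, by omega⟩
    obtain ⟨k2, h2'⟩ := hodd (e - 1) ⟨a - 1, by omega⟩
    rw [Nat.even_iff]
    omega

end Cfsg.Agent.Lib.Helper51.OSub
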