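import Cfsg.Agent.S2583

set_option autoImplicit false
set_option linter.unusedSectionVars false

/-!
The Jordan type of a unipotent isometry on an invariant non-degenerate subspace (second version,
keeping the kernel dimensions), and the hyperbolic type of a subspace on which all Jordan blocks
have size two.
-/

namespace Cfsg.Agent.Lib.Helper51.OSub2

open Cfsg.Agent.Lib.Helper51.Jordan Cfsg.Agent.Lib.Helper51.JType
open Cfsg.Agent.Lib.Helper51.JOrth

universe u v

/-- If a unipotent isometry `f` of Jordan type `μ` (odd characteristic, symmetric form `B`)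
stabilises a subspace `W` on which `B` is non-degenerate, then the Jordan type of `f` on `W` is a
sub-multiset of `μ` in which even parts have even multiplicity. -/
theorem sub_type' {F : Type v} [Field F] {V : Type u} [AddCommGroup V] [Module F V]
    [FiniteDimensional F V]
    (B : LinearMap.BilinForm F V) (hB : ∀ x y, B x y = B y x) (h2 : (2 : F) ≠ 0)
    (f : Module.End F V) (hf : ∀ x y, B (f x) (f y) = B x y)
    (μ : Multiset ℕ) (hμ : ∀ c ∈ μ, 0 < c) (hdim : μ.sum = Module.finrank F V)
    (hk : ∀ j, kap (f - 1) j = kapM μ j)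
    (W : Submodule F V) (hW : ∀ x ∈ W, f x ∈ W)
    (hnd : ∀ w ∈ W, w ≠ 0 → ∃ x ∈ W, B x w ≠ 0) :
    ∃ ν : Multiset ℕ, ν ≤ μ ∧ ν.sum = Module.finrank F W ∧ (∀ e, Even e → Even (ν.count e)) ∧
      ∃ hNW : ∀ x ∈ W, (f - 1) x ∈ W, ∀ j, kap ((f - 1).restrict hNW) j = kapM ν j := by
  have hN : (f - 1) ^ μ.sum = 0 := by
    apply pow_zero_of_kap
    rw [hk, (kapM_eq_sum_iff μ μ.sum).mpr (fun c hc => Multiset.le_sum_of_mem hc), hdim]
  have hnil : IsNilpotent (f - 1) := ⟨_, hN⟩
  have hunit : IsUnit f := by
    have := hnil.isUnit_one_add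
    rwa [add_sub_cancel] at this
  have hinj : Function.Injective f := ((Module.End.isUnit_iff f).mp hunit).injective
  have hsurjW : ∀ x ∈ W, ∃ x' ∈ W, f x' = x := by
    have hinjW : Function.Injective (f.restrict hW) := by
      intro a b hab
      apply Subtype.ext
      apply hinj
      have := congrArg Subtype.val hab
      simpa using this
    have hs := LinearMap.surjective_of_injective hinjW
    intro x hx
    obtain ⟨y, hy⟩ := hs ⟨x, hx⟩
    exact ⟨y, y.2, by have := congrArg Subtype.val hy; simpa using this⟩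
  have hW' : ∀ y ∈ B.orthogonal W, f y ∈ B.orthogonal W := by
    intro y hy
    rw [LinearMap.BilinForm.mem_orthogonal_iff] at hy ⊢
    intro x hx
    obtain ⟨x', hx', rfl⟩ := hsurjW x hx
    rw [hf]
    exact hy x' hx'
  have hrefl : B.IsRefl := fun x y h => by rw [hB]; exact h
  have hndW : (B.restrict W).Nondegenerate := by
    constructor
    · intro x hx
      by_contra hx0
      obtain ⟨y, hy, hne⟩ := hnd x x.2 (fun h => hx0 (Subtype.ext h))
      apply hne
      rw [hB]
      exact hx ⟨y, hy⟩
    · intro y hy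
      by_contra hy0
      obtain ⟨x, hx, hne⟩ := hnd y y.2 (fun h => hy0 (Subtype.ext h))
      exact hne (hy ⟨x, hx⟩)
  have hcompl := LinearMap.BilinForm.isCompl_orthogonal_of_restrict_nondegenerate hrefl hndW
  have hNW : ∀ x ∈ W, (f - 1) x ∈ W := fun x hx => by
    rw [LinearMap.sub_apply, Module.End.one_apply]
    exact W.sub_mem (hW x hx) hx
  have hNW' : ∀ x ∈ B.orthogonal W, (f - 1) x ∈ B.orthogonal W := fun x hx => by
    rw [LinearMap.sub_apply, Module.End.one_apply]
    exact (B.orthogonal W).sub_mem (hW' x hx) hx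
  have hkap : ∀ j, kap (f - 1) j
      = kap ((f - 1).restrict hNW) j + kap ((f - 1).restrict hNW') j := by
    intro j
    rw [← kap_prod]
    symm
    apply kap_conj _ _ (Submodule.prodEquivOfIsCompl W (B.orthogonal W) hcompl)
    rintro ⟨a, b⟩
    rw [Submodule.coe_prodEquivOfIsCompl', Submodule.coe_prodEquivOfIsCompl']
    simp [map_add]
  obtain ⟨ν, hνpos, hνsum, hνk⟩ := exists_type (Module.finrank F W) W ((f - 1).restrict hNW)
    (restrict_nil _ hnil W hNW) rfl
  obtain ⟨ν', hν'pos, hν'sum, hν'k⟩ := exists_type _ (B.orthogonal W) ((f - 1).restrict hNW')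
    (restrict_nil _ hnil _ hNW') rfl
  have hμeq : μ = ν + ν' := by
    apply kapM_inj μ (ν + ν') hμ (fun c hc => by
      rcases Multiset.mem_add.mp hc with h | h
      · exact hνpos c h
      · exact hν'pos c h)
    intro j
    rw [← hk, hkap, hνk, hν'k, kapM_add]
  refine ⟨ν, by rw [hμeq]; exact Multiset.le_add_right ν ν', hνsum, fun e he => ?_, hNW, hνk⟩
  rcases Nat.eq_zero_or_pos e with rfl | he0
  · rw [Multiset.count_eq_zero_of_notMem (fun h0 => absurd (hνpos 0 h0) (lt_irrefl 0))]
    exact ⟨0, rfl⟩
  · have e1 : f.restrict hW - 1 = (f - 1).restrict hNW := by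
      apply LinearMap.ext
      intro w
      apply Subtype.ext
      simp
    have hodd : ∀ l, Odd l → ∃ k, Module.finrank F W = kapM ν l + 2 * k := by
      intro l hl
      obtain ⟨k, hk'⟩ := Cfsg.Agent.S2583.odd_of_isometry (B.restrict W) (fun x y => hB _ _)
        hndW.2 h2 (f.restrict hW) (by rw [e1]; exact restrict_nil _ hnil W hNW)
        (fun x y => hf _ _) l hl
      rw [e1, hνk] at hk'
      exact ⟨k, hk'⟩
    obtain ⟨a, ha⟩ := he
    have ec := kapM_count ν e (by omega)
    obtain ⟨k1, h1⟩ := hodd (e + 1) ⟨a, by omega⟩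
    obtain ⟨k2, h2'⟩ := hodd (e - 1) ⟨a - 1, by omega⟩
    rw [Nat.even_iff]
    omega

/-- If all Jordan blocks of a unipotent isometry on an invariant subspace `W` have size two, then
the image of `f - 1` on `W` is a totally isotropic subspace of half the dimension. -/
theorem plus_of_all_two {F : Type v} [Field F] {V : Type u} [AddCommGroup V] [Module F V]
    [FiniteDimensional F V]
    (B : LinearMap.BilinForm F V) (f : Module.End F V) (hf : ∀ x y, B (f x) (f y) = B x y)
    (W : Submodule F V) (hNW : ∀ x ∈ W, (f - 1) x ∈ W) (ν : Multiset ℕ) (hν : ∀ c ∈ ν, c = 2)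
    (hsum : ν.sum = Module.finrank F W)
    (hk : ∀ j, kap ((f - 1).restrict hNW) j = kapM ν j) :
    ∃ U : Submodule F V, U ≤ W ∧ (∀ u ∈ U, B u u = 0) ∧
      2 * Module.finrank F U = Module.finrank F W := by
  obtain ⟨N, hN⟩ : ∃ N : Module.End F W, N = (f - 1).restrict hNW := ⟨_, rfl⟩
  rw [← hN] at hk
  have c1 : ∀ x : W, ((N x : W) : V) = f x - x := fun x => by
    rw [hN]
    simp
  have hN2 : N ^ 2 = 0 := by
    apply pow_zero_of_kap
    rw [hk, (kapM_eq_sum_iff ν 2).mpr (fun c hc => by rw [hν c hc]), hsum]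
  have hrep : ν = Multiset.replicate ν.card 2 := Multiset.eq_replicate.mpr ⟨rfl, hν⟩
  have hker : Module.finrank F (LinearMap.ker N) * 2 = Module.finrank F W := by
    have h1 := hk 1
    unfold kap at h1
    rw [pow_one] at h1
    have h2 : kapM ν 1 = ν.card := by
      conv_lhs => rw [hrep]
      simp [kapM]
    have h3 : ν.sum = ν.card * 2 := by
      conv_lhs => rw [hrep]
      simp
    rw [h1, h2, ← hsum, h3]
  have hrange : Module.finrank F (LinearMap.range N) * 2 = Module.finrank F W := by
    have := LinearMap.finrank_range_add_finrank_ker N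
    omega
  refine ⟨(LinearMap.range N).map W.subtype, ?_, ?_, ?_⟩
  · exact Submodule.map_subtype_le W _
  · rintro u ⟨y, ⟨w, rfl⟩, rfl⟩
    have h0 : N (N w) = 0 := by
      have := LinearMap.congr_fun hN2 w
      simpa [pow_two] using this
    have hNN : f (f w - w) = f w - w := by
      have h1 := congrArg Subtype.val h0
      rw [c1, c1] at h1
      exact sub_eq_zero.mp h1
    show B (W.subtype (N w)) (W.subtype (N w)) = 0
    rw [Submodule.subtype_apply, c1]
    have h2 := hf w (f w - w)
    rw [hNN] at h2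
    rw [LinearMap.map_sub₂, h2, sub_self]
  · rw [show Module.finrank F ((LinearMap.range N).map W.subtype)
        = Module.finrank F (LinearMap.range N) from
      LinearEquiv.finrank_eq (Submodule.equivSubtypeMap W _).symm]
    omega

end Cfsg.Agent.Lib.Helper51.OSub2
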