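import Cfsg.Agent.Lib.Helper96.HyMain
import Cfsg.Agent.Lib.Helper96.PiDefs

/-!
Project PM (S5991, architect helper96), piece FINALD (helper51).

`X₀ ⊔ span{ℓ₀}` of type `-1` is incompatible with a vector `w₀ ∈ X₀`, `B w₀ w₀ = α² c₁`
(`B ℓ₀ ℓ₀ = -c₁`, `ℓ₀ ⊥ X₀`), whose orthogonal complement in `X₀` is hyperbolic: the totally
singular half `U` of `X₀ ⊓ w₀^⊥` together with the singular vector `w₀ + α ℓ₀` is a totally
singular half of `X₀ ⊔ span{ℓ₀}`.
-/

set_option autoImplicit false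
set_option linter.unusedSectionVars false
set_option linter.unusedVariables false

namespace Cfsg.Agent.Lib.Helper51.Pm

open Module Cfsg.Agent.Lib.Helper96.Sp Cfsg.Agent.Lib.Helper96.BG Cfsg.Agent.Lib.Helper96.Hy
  Cfsg.Agent.Lib.Helper96.Pi Cfsg.Agent.Lib.Helper47

universe u

section Abstract

variable {F : Type u} [Field F] [Fintype F] {V : Type u} [AddCommGroup V] [Module F V]
  [FiniteDimensional F V] {B : LinearMap.BilinForm F V}

theorem finald_nd_span (x : V) (hx : B x x ≠ 0) : ND B (Submodule.span F {x}) := by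
  intro u hu h
  obtain ⟨a, rfl⟩ := Submodule.mem_span_singleton.mp hu
  have h1 := h x (Submodule.mem_span_singleton_self x)
  rw [map_smul, LinearMap.smul_apply, smul_eq_mul] at h1
  rcases mul_eq_zero.mp h1 with h2 | h2
  · rw [h2, zero_smul]
  · exact absurd h2 hx

theorem finald_orth_span_right (X : Submodule F V) (v : V) (h : ∀ u ∈ X, B u v = 0) :
    Orth B X (Submodule.span F {v}) := by
  intro u hu x hx
  obtain ⟨b, rfl⟩ := Submodule.mem_span_singleton.mp hx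
  rw [map_smul, smul_eq_mul, h u hu, mul_zero]

theorem finald_orth_span_left (X : Submodule F V) (v : V) (h : ∀ u ∈ X, B v u = 0) :
    Orth B (Submodule.span F {v}) X := by
  intro x hx u hu
  obtain ⟨b, rfl⟩ := Submodule.mem_span_singleton.mp hx
  rw [map_smul, LinearMap.smul_apply, smul_eq_mul, h u hu, mul_zero]

-- PIECE FINALD
theorem false_of_disc (hS : B.IsSymm) (h2 : (2 : F) ≠ 0) (hN : ND B ⊤) (hF : Facts B)
    (X₀ : Submodule F V) (hX₀ : ND B X₀) (c₁ : F) (hc₁ : c₁ ≠ 0) (ℓ₀ : V)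
    (hℓ₀ : ℓ₀ ∈ B.orthogonal X₀) (hℓ : B ℓ₀ ℓ₀ = -c₁)
    (htyp : Typ B (X₀ ⊔ Submodule.span F {ℓ₀}) (-1)) (w₀ : V) (hw₀ : w₀ ∈ X₀) (α : F)
    (hα : α ≠ 0) (hw : B w₀ w₀ = α * α * c₁)
    (hH : Hyp B (X₀ ⊓ B.orthogonal (Submodule.span F {w₀}))) : False := by
  have hperp : ∀ w ∈ X₀, B ℓ₀ w = 0 :=
    (Cfsg.Agent.Lib.Helper98.O72.mem_perp_iff' hS h2).mp hℓ₀
  have hperp' : ∀ w ∈ X₀, B w ℓ₀ = 0 := fun w hw' => by
    rw [Cfsg.Agent.Lib.Helper98.O72.sym_swap hS h2]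
    exact hperp w hw'
  have hww : B w₀ w₀ ≠ 0 := by
    rw [hw]
    exact mul_ne_zero (mul_ne_zero hα hα) hc₁
  have hll : B ℓ₀ ℓ₀ ≠ 0 := by
    rw [hℓ]
    exact neg_ne_zero.mpr hc₁
  have hw0ne : w₀ ≠ 0 := by
    intro h
    apply hww
    rw [h, map_zero]
  have hl0ne : ℓ₀ ≠ 0 := by
    intro h
    apply hll
    rw [h, map_zero]
  have hspanle : Submodule.span F {w₀} ≤ X₀ := by
    rw [Submodule.span_singleton_le_iff_mem]
    exact hw₀
  obtain ⟨-, -, hfin⟩ :=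
    Cfsg.Agent.Lib.Helper98.O72.nd_rel hS h2 (finald_nd_span w₀ hww) hX₀ hspanle
  rw [finrank_span_singleton hw0ne] at hfin
  obtain ⟨-, U, hUle, hUU, hUfin⟩ := hH
  have hUX : U ≤ X₀ := hUle.trans inf_le_left
  have hUw : ∀ u ∈ U, B u w₀ = 0 := fun u hu =>
    (Cfsg.Agent.Lib.Helper98.O72.mem_perp_iff' hS h2).mp (hUle hu).2 w₀
      (Submodule.mem_span_singleton_self w₀)
  have hUl : ∀ u ∈ U, B u ℓ₀ = 0 := fun u hu => hperp' u (hUX hu)
  obtain ⟨v, hv⟩ : ∃ v, v = w₀ + α • ℓ₀ := ⟨_, rfl⟩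
  have hUv : ∀ u ∈ U, B u v = 0 := by
    intro u hu
    rw [hv, map_add, map_smul, hUw u hu, hUl u hu, smul_zero, add_zero]
  have hvU : ∀ u ∈ U, B v u = 0 := fun u hu => by
    rw [Cfsg.Agent.Lib.Helper98.O72.sym_swap hS h2]
    exact hUv u hu
  have hvv : B v v = 0 := by
    rw [hv]
    simp only [map_add, map_smul, LinearMap.add_apply, LinearMap.smul_apply, smul_eq_mul, hw, hℓ,
      hperp w₀ hw₀, hperp' w₀ hw₀]
    ring
  have hvnU : v ∉ U := by
    intro hvU'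
    have h1 : v ∈ X₀ := hUX hvU'
    have h2' : α • ℓ₀ ∈ X₀ := by
      have e : α • ℓ₀ = v - w₀ := by
        rw [hv]
        abel
      rw [e]
      exact X₀.sub_mem h1 hw₀
    have h3 : ℓ₀ ∈ X₀ := (X₀.smul_mem_iff hα).mp h2'
    exact hll (hperp ℓ₀ h3)
  have hvne : v ≠ 0 := fun h => hvnU (by rw [h]; exact U.zero_mem)
  have hdisj : U ⊓ Submodule.span F {v} = ⊥ := by
    rw [eq_bot_iff]
    rintro x ⟨hxU, hxv⟩
    obtain ⟨a, rfl⟩ := Submodule.mem_span_singleton.mp hxv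
    rw [Submodule.mem_bot]
    by_cases ha : a = 0
    · rw [ha, zero_smul]
    · exact absurd ((U.smul_mem_iff ha).mp hxU) hvnU
  have hU'fin : finrank F ↥(U ⊔ Submodule.span F {v}) = finrank F U + 1 := by
    have h1 := Submodule.finrank_sup_add_finrank_inf_eq U (Submodule.span F {v})
    rw [hdisj, finrank_bot, finrank_span_singleton hvne] at h1
    omega
  have hU'orth : Orth B (U ⊔ Submodule.span F {v}) (U ⊔ Submodule.span F {v}) := by
    have hA : Orth B U (U ⊔ Submodule.span F {v}) :=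
      orth_sup_right hUU (finald_orth_span_right U v hUv)
    have hvspan : ∀ u ∈ Submodule.span F {v}, B v u = 0 := by
      intro u hu
      obtain ⟨b, rfl⟩ := Submodule.mem_span_singleton.mp hu
      rw [map_smul, smul_eq_mul, hvv, mul_zero]
    have hB : Orth B (Submodule.span F {v}) (U ⊔ Submodule.span F {v}) :=
      orth_sup_right (finald_orth_span_left U v hvU)
        (finald_orth_span_left (Submodule.span F {v}) v hvspan)
    exact orth_sup_right (Cfsg.Agent.Lib.Helper98.O72.orth_symm hS h2 hA)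
      (Cfsg.Agent.Lib.Helper98.O72.orth_symm hS h2 hB)
  obtain ⟨hZnd, hZfin⟩ := Cfsg.Agent.Lib.Helper98.O72.nd_sup hS h2 hX₀ (finald_nd_span ℓ₀ hll)
    (finald_orth_span_right X₀ ℓ₀ hperp')
  rw [finrank_span_singleton hl0ne] at hZfin
  have hU'Z : U ⊔ Submodule.span F {v} ≤ X₀ ⊔ Submodule.span F {ℓ₀} := by
    refine sup_le (hUX.trans le_sup_left) ?_
    rw [Submodule.span_singleton_le_iff_mem, hv]
    exact Submodule.add_mem _ (Submodule.mem_sup_left hw₀)
      (Submodule.smul_mem _ _ (Submodule.mem_sup_right (Submodule.mem_span_singleton_self ℓ₀)))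
  have hHyp : Hyp B (X₀ ⊔ Submodule.span F {ℓ₀}) :=
    ⟨hZnd, U ⊔ Submodule.span F {v}, hU'Z, hU'orth, by rw [hU'fin, hZfin]; omega⟩
  have hT := hF.typ_of_hyp _ hHyp (by rw [hZfin]; omega)
  have h11 := typ_unique hT htyp
  omega

end Abstract

end Cfsg.Agent.Lib.Helper51.Pm
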