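import Mathlib
import Cfsg.Agent.Lib.Helper36.R23Defs
import Cfsg.Agent.Lib.Helper24.TwUE6

/-!
# Project R23 (helper36, S1788), piece TWE6 (helper51)

`²E₆(q)` (over `K`, `|K| = q²`, characteristic 2) contains the elementary abelian 2-group
`{x_{p₁}(t) x_{p₆}(t^q) x_{p₂}(u) : t ∈ K, u ∈ 𝔽₂}` of order `2 q² ≥ 8`.
-/

set_option autoImplicit false

namespace Cfsg.Agent.Lib.Helper51.R23

open Cfsg Cfsg.Lie Cfsg.Agent.Lib.Helper36.R23 Cfsg.Agent.Lib.Helper24

theorem twe6_comm_chk : commuteChk chevE6 56 46 = true ∧ commuteChk chevE6 36 46 = true := by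
  decide +kernel

theorem twe6_lv : lvE6 56 = 39 ∧ lvE6 36 = 39 ∧ lvE6 46 = 37 := by decide +kernel

theorem twe6_rearr {G : Type*} [Group G] (A A' B B' C C' : G) (h1 : Commute A' B)
    (h2 : Commute A' C) (h3 : Commute B' C) :
    (A * A') * (B * B') * (C * C') = (A * B * C) * (A' * B' * C') := by
  calc (A * A') * (B * B') * (C * C') = A * (A' * B) * (B' * C) * C' := by group
    _ = A * (B * A') * (C * B') * C' := by rw [h1.eq, h3.eq]
    _ = A * B * (A' * C) * B' * C' := by group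
    _ = A * B * (C * A') * B' * C' := by rw [h2.eq]
    _ = (A * B * C) * (A' * B' * C') := by group

section

variable {K : Type} [Field K] [Fintype K] [CharP K 2]

/-- The elements of the elementary abelian subgroup. -/
noncomputable def twe6Elt (σ : K →+* K) (c : ZMod 2 →+* K) (v : K × ZMod 2) :
    GL chevE6.Idx K :=
  xGL chevE6 chevE6_mem 56 v.1 * xGL chevE6 chevE6_mem 36 (σ v.1) *
    xGL chevE6 chevE6_mem 46 (c v.2)

omit [Fintype K] [CharP K 2] in
theorem twe6Elt_eq_wGL (σ : K →+* K) (c : ZMod 2 →+* K) (v : K × ZMod 2) :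
    twe6Elt σ c v = wGL chevE6 chevE6_mem [(56, v.1), (36, σ v.1), (46, c v.2)] := by
  rw [wGL_three]
  rfl

omit [Fintype K] [CharP K 2] in
theorem twe6Elt_add (σ : K →+* K) (c : ZMod 2 →+* K) (v w : K × ZMod 2) :
    twe6Elt σ c (v + w) = twe6Elt σ c v * twe6Elt σ c w := by
  unfold twe6Elt
  rw [Prod.fst_add, Prod.snd_add, map_add, map_add,
    xGL_add chevE6 chevE6_mem 56 e6_lt.1, xGL_add chevE6 chevE6_mem 36 e6_lt.2.2.2.2.2,
    xGL_add chevE6 chevE6_mem 46 e6_lt.2.1]
  exact twe6_rearr _ _ _ _ _ _ (commute_of_chk chevE6 chevE6_mem 56 36 e6_comm_chk.1 _ _)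
    (commute_of_chk chevE6 chevE6_mem 56 46 twe6_comm_chk.1 _ _)
    (commute_of_chk chevE6 chevE6_mem 36 46 twe6_comm_chk.2 _ _)

omit [Fintype K] [CharP K 2] in
theorem twe6Elt_mem (q : ℕ) (σ : K →+* K) (hσ : ∀ t, σ t = t ^ q) (c : ZMod 2 →+* K)
    (v : K × ZMod 2) : twe6Elt σ c v ∈ twistedE6 K q := by
  unfold twe6Elt
  refine Subgroup.mul_mem _ ?_ ?_
  · have h := (e6_short_mem (K := K) q v.1).1.1
    rw [wGL_two] at h
    rw [hσ]
    exact h
  · refine e6_long_mem q (c v.2) ?_ 46 (Or.inl rfl)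
    have h1 : σ.comp c = c := Subsingleton.elim _ _
    rw [← hσ, ← RingHom.comp_apply, h1]

omit [Fintype K] [CharP K 2] in
theorem twe6Elt_inj (σ : K →+* K) (c : ZMod 2 →+* K) (v : K × ZMod 2)
    (h : twe6Elt σ c v = 1) : v = 0 := by
  rw [twe6Elt_eq_wGL] at h
  have hnil : wGL chevE6 chevE6_mem ([] : List (ℕ × K)) = 1 := wGL_nil _ _
  -- first the coordinate at the root 46
  have hu : c v.2 = 0 := by
    have hW : ∀ p ∈ [((56 : ℕ), v.1), (36, σ v.1), (46, c v.2)],
        p.2 = 0 ∨ (p.1 < chevE6.nroots ∧ 35 + 2 ≤ lvE6 p.1) := by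
      intro p hp
      simp only [List.mem_cons, List.not_mem_nil, or_false] at hp
      rcases hp with rfl | rfl | rfl
      · exact Or.inr ⟨e6_lt.1, by rw [twe6_lv.1]; norm_num⟩
      · exact Or.inr ⟨e6_lt.2.2.2.2.2, by rw [twe6_lv.2.1]; norm_num⟩
      · exact Or.inr ⟨e6_lt.2.1, by rw [twe6_lv.2.2]⟩
    have e := wGL_ent (F := K) chevE6 chevE6_mem lvE6 35 levE6
      [((56 : ℕ), v.1), (36, σ v.1), (46, c v.2)] 2 (by norm_num) hW 46 (iaE6 46) e6_lt.2.1
      (by rw [twe6_lv.2.2]; norm_num) (posE6.ia_lt 46 e6_pos.2.1)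
    have e0 := wGL_ent (F := K) chevE6 chevE6_mem lvE6 35 levE6
      ([] : List (ℕ × K)) 2 (by norm_num) (fun p hp => absurd hp (List.not_mem_nil)) 46 (iaE6 46)
      e6_lt.2.1 (by rw [twe6_lv.2.2]; norm_num) (posE6.ia_lt 46 e6_pos.2.1)
    rw [h] at e
    rw [hnil] at e0
    rw [e0] at e
    simp only [List.map_cons, List.map_nil, List.sum_cons, List.sum_nil, mul_zero] at e
    norm_num at e
    rcases posE6.ia_unit 46 e6_pos.2.1 with h1 | h1
    · rw [h1] at e
      rcases e with e | e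
      · simp at e
      · rw [e, map_zero]
    · rw [h1] at e
      rcases e with e | e
      · simp at e
      · rw [e, map_zero]
  have hv2 : v.2 = 0 := by
    have : c v.2 = c 0 := by rw [hu, map_zero]
    exact c.injective this
  -- then the coordinate at the root 56
  have ht : v.1 = 0 := by
    have hW : ∀ p ∈ [((56 : ℕ), v.1), (36, σ v.1), (46, c v.2)],
        p.2 = 0 ∨ (p.1 < chevE6.nroots ∧ 35 + 4 ≤ lvE6 p.1) := by
      intro p hp
      simp only [List.mem_cons, List.not_mem_nil, or_false] at hp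
      rcases hp with rfl | rfl | rfl
      · exact Or.inr ⟨e6_lt.1, by rw [twe6_lv.1]⟩
      · exact Or.inr ⟨e6_lt.2.2.2.2.2, by rw [twe6_lv.2.1]⟩
      · exact Or.inl hu
    have e := wGL_ent (F := K) chevE6 chevE6_mem lvE6 35 levE6
      [((56 : ℕ), v.1), (36, σ v.1), (46, c v.2)] 4 (by norm_num) hW 56 (iaE6 56) e6_lt.1
      (by rw [twe6_lv.1]; norm_num) (posE6.ia_lt 56 e6_pos.1)
    have e0 := wGL_ent (F := K) chevE6 chevE6_mem lvE6 35 levE6
      ([] : List (ℕ × K)) 4 (by norm_num) (fun p hp => absurd hp (List.not_mem_nil)) 56 (iaE6 56)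
      e6_lt.1 (by rw [twe6_lv.1]; norm_num) (posE6.ia_lt 56 e6_pos.1)
    rw [h] at e
    rw [hnil] at e0
    rw [e0] at e
    simp only [List.map_cons, List.map_nil, List.sum_cons, List.sum_nil, mul_zero] at e
    norm_num at e
    rcases posE6.ia_unit 56 e6_pos.1 with h1 | h1
    · rw [h1] at e
      rcases e with e | e
      · simp at e
      · exact e
    · rw [h1] at e
      rcases e with e | e
      · simp at e
      · exact e
  exact Prod.ext ht hv2

end

theorem twe6 : TwE6Stmt := by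
  intro K _ _ _ q hq hK
  obtain ⟨σ, hσ⟩ := exists_frob K q 2 hq hK
  let c : ZMod 2 →+* K := ZMod.castHom (dvd_refl 2) K
  let f : Multiplicative (K × ZMod 2) →* ↥(twistedE6 K q) :=
    MonoidHom.mk' (fun v => ⟨twe6Elt σ c (Multiplicative.toAdd v), twe6Elt_mem q σ hσ c _⟩)
      (fun a b => Subtype.ext (twe6Elt_add σ c _ _))
  have hV : ∀ v : K × ZMod 2, v + v = 0 := fun v =>
    Prod.ext (CharTwo.add_self_eq_zero _) (CharTwo.add_self_eq_zero _)
  refine prank_of_hom hV f ?_ ?_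
  · rw [injective_iff_map_eq_one]
    intro v hv
    have h1 : twe6Elt σ c (Multiplicative.toAdd v) = 1 := congrArg Subtype.val hv
    have h2 := twe6Elt_inj σ c _ h1
    exact Multiplicative.toAdd.injective h2
  · have h2 : 2 ≤ q := hq.two_le
    rw [Nat.card_prod, Nat.card_eq_fintype_card, hK, Nat.card_eq_fintype_card, ZMod.card]
    nlinarith
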