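import Cfsg.Agent.Lib.Helper51.DicksonTwo
import Cfsg.Agent.Lib.Helper52.QuadFin

set_option autoImplicit false
set_option linter.unusedSectionVars false

namespace Cfsg.Agent.Lib.Helper51

open Cfsg Module

section hyperplane

variable {ι : Type} [Fintype ι] [DecidableEq ι] {F : Type*} [Field F] [Fintype F]
variable (Q : QuadraticForm F (ι → F))

theorem eq_top_of_finrank_add_one (H E : Submodule F (ι → F))
    (hH : finrank F H + 1 = Fintype.card ι) (hHE : H ≤ E) (w : ι → F) (hwE : w ∈ E)
    (hwH : w ∉ H) : E = ⊤ := by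
  have hlt : H < E := lt_of_le_of_ne hHE (fun h => hwH (h ▸ hwE))
  have h1 := Submodule.finrank_lt_finrank_of_lt hlt
  apply Submodule.eq_top_of_finrank_eq
  have h2 := Submodule.finrank_le E
  rw [Module.finrank_fintype_fun_eq_card] at h2 ⊢
  omega

/-- An isometry fixing a hyperplane pointwise (and nothing more) is a reflection. -/
theorem eq_refl_of_finrank_fixSpace (hQ : (QuadraticMap.polarBilin Q).Nondegenerate)
    (g : isometryGroup F ⇑Q)
    (hfix : finrank F (fixSpace ((g : Matrix.GeneralLinearGroup ι F) : Matrix ι ι F)) + 1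
      = Fintype.card ι) :
    ∃ (z : ι → F) (hz : Q z ≠ 0), g = refl Q z hz := by
  set M := ((g : Matrix.GeneralLinearGroup ι F) : Matrix ι ι F) with hM
  have hne : fixSpace M ≠ ⊤ := by
    intro h
    rw [h, finrank_top, Module.finrank_fintype_fun_eq_card] at hfix
    omega
  obtain ⟨w, hw⟩ : ∃ w, w ∉ fixSpace M := by
    by_contra hcon
    apply hne
    rw [eq_top_iff]
    intro x _
    by_contra hx
    exact hcon ⟨x, hx⟩
  set z := M.mulVec w - w with hz
  have hMw : M.mulVec w = w + z := by rw [hz]; abel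
  have hz0 : z ≠ 0 := by
    intro h
    apply hw
    rw [mem_fixSpace]
    exact sub_eq_zero.mp h
  have hperp : ∀ y ∈ fixSpace M, QuadraticMap.polar ⇑Q z y = 0 :=
    fun y hy => polar_sub_fix Q g w y hy
  have hQz : Q z = - QuadraticMap.polar ⇑Q z w := by
    have h1 : Q (M.mulVec w) = Q w := isometry_apply Q g w
    rw [hMw, QuadraticMap.map_add Q w z, polar_comm' Q w z] at h1
    linear_combination h1
  have hQz0 : Q z ≠ 0 := by
    intro h0
    apply hz0
    apply hQ.1
    intro y
    have htop := eq_top_of_finrank_add_one (fixSpace M)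
      (LinearMap.ker (QuadraticMap.polarBilin Q z)) hfix
      (fun y hy => by
        rw [LinearMap.mem_ker, QuadraticMap.polarBilin_apply_apply]
        exact hperp y hy) w
      (by
        rw [LinearMap.mem_ker, QuadraticMap.polarBilin_apply_apply]
        rw [h0] at hQz
        linear_combination hQz) hw
    have hy : y ∈ LinearMap.ker (QuadraticMap.polarBilin Q z) := htop ▸ Submodule.mem_top
    exact LinearMap.mem_ker.mp hy
  refine ⟨z, hQz0, ?_⟩
  have htop := eq_top_of_finrank_add_one (fixSpace M)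
    (fixSpace (reflectionMatrix ⇑Q z * M)) hfix
    (fun y hy => by
      rw [mem_fixSpace, ← Matrix.mulVec_mulVec, (mem_fixSpace M y).mp hy, reflectionMatrix_mulVec,
        hperp y hy]
      simp) w
    (by
      rw [mem_fixSpace, ← Matrix.mulVec_mulVec, hMw, reflectionMatrix_mulVec,
        QuadraticMap.polar_add_right, polar_self]
      have hB : QuadraticMap.polar ⇑Q z w = - Q z := by linear_combination hQz
      have e : (Q z)⁻¹ * (QuadraticMap.polar ⇑Q z w + 2 * Q z) = 1 := by
        rw [hB]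
        field_simp
        ring
      rw [e, one_smul]
      abel) hw
  have hone : refl Q z hQz0 * g = 1 := by
    apply isometry_ext
    apply matrix_ext_mulVec
    intro x
    rw [coe_mul', coe_refl]
    have hx : x ∈ fixSpace (reflectionMatrix ⇑Q z * M) := htop ▸ Submodule.mem_top
    rw [(mem_fixSpace _ x).mp hx]
    simp
  calc g = (refl Q z hQz0 * refl Q z hQz0) * g := by rw [refl_mul_self, one_mul]
    _ = refl Q z hQz0 * (refl Q z hQz0 * g) := mul_assoc _ _ _
    _ = refl Q z hQz0 := by rw [hone, mul_one]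

end hyperplane

section three

variable {ι : Type} [Fintype ι] [DecidableEq ι] {F : Type*} [Field F] [Fintype F]
variable (Q : QuadraticForm F (ι → F))

theorem refl_sub_mem (S : Submodule F (ι → F)) (a : ι → F) (ha : a ∈ S) (y : ι → F) :
    (reflectionMatrix ⇑Q a).mulVec y - y ∈ S := by
  rw [reflectionMatrix_mulVec]
  have e : y - ((Q a)⁻¹ * QuadraticMap.polar ⇑Q a y) • a - y
      = -(((Q a)⁻¹ * QuadraticMap.polar ⇑Q a y) • a) := by abel
  rw [e]
  exact S.neg_mem (S.smul_mem _ ha)

open Classical in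
/-- Three reflections in vectors of a common plane compose to a reflection. -/
theorem exists_refl_eq_three (hQ : (QuadraticMap.polarBilin Q).Nondegenerate)
    (u v x : ι → F) (hu : Q u ≠ 0) (hv : Q v ≠ 0) (hx : Q x ≠ 0) (a b : F)
    (hxe : x = a • u + b • v) :
    ∃ (y : ι → F) (hy : Q y ≠ 0), refl Q u hu * refl Q v hv * refl Q x hx = refl Q y hy := by
  set g := refl Q u hu * refl Q v hv * refl Q x hx with hg
  have hall : ∀ w ∈ [u, v, x], Q w ≠ 0 := by
    intro w hw
    simp only [List.mem_cons, List.not_mem_nil, or_false] at hw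
    rcases hw with rfl | rfl | rfl <;> assumption
  have hgl : g = reflList Q [u, v, x] hall := by
    rw [reflList_cons, reflList_cons, reflList_cons, reflList_nil, mul_one, hg, mul_assoc]
  set M := ((g : Matrix.GeneralLinearGroup ι F) : Matrix ι ι F) with hM
  have hds : dsign M = -1 := by
    rw [hM, hgl, dsign_reflList Q hQ]
    have h3 : [u, v, x].length = 3 := rfl
    rw [h3]
    decide
  have hodd : Odd (M - 1).rank := by
    rw [dsign_eq_rank] at hds
    by_contra hev
    rw [Nat.not_odd_iff_even] at hev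
    rw [hev.neg_one_pow] at hds
    exact absurd hds (by decide)
  have hle : (M - 1).rank ≤ 2 := by
    set S := Submodule.span F ((({u, v} : Finset (ι → F)) : Set (ι → F))) with hS
    have huS : u ∈ S := Submodule.subset_span (by simp)
    have hvS : v ∈ S := Submodule.subset_span (by simp)
    have hxS : x ∈ S := by
      rw [hxe]
      exact S.add_mem (S.smul_mem _ huS) (S.smul_mem _ hvS)
    have hrange : LinearMap.range (M - 1).mulVecLin ≤ S := by
      rintro _ ⟨y, rfl⟩
      rw [Matrix.mulVecLin_apply, Matrix.sub_mulVec, Matrix.one_mulVec, hM, hg, coe_mul', coe_mul',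
        coe_refl, coe_refl, coe_refl, ← Matrix.mulVec_mulVec, ← Matrix.mulVec_mulVec]
      have h1 := refl_sub_mem Q S x hxS y
      have h2 := refl_sub_mem Q S v hvS ((reflectionMatrix ⇑Q x).mulVec y)
      have h3 := refl_sub_mem Q S u huS
        ((reflectionMatrix ⇑Q v).mulVec ((reflectionMatrix ⇑Q x).mulVec y))
      have h4 := S.add_mem (S.add_mem h3 h2) h1
      convert h4 using 1
      abel
    calc (M - 1).rank = finrank F (LinearMap.range (M - 1).mulVecLin) := rfl
      _ ≤ finrank F S := Submodule.finrank_mono hrange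
      _ ≤ ({u, v} : Finset (ι → F)).card := finrank_span_finset_le_card _
      _ ≤ 2 := Finset.card_le_two
  have hrank : (M - 1).rank = 1 := by
    obtain ⟨k, hk⟩ := hodd
    omega
  have hfix := finrank_fixSpace_add_rank M
  rw [hrank] at hfix
  exact eq_refl_of_finrank_fixSpace Q hQ g hfix

end three

section cls

variable {ι : Type} [Fintype ι] [DecidableEq ι] {F : Type*} [Field F] [Fintype F]
variable (Q : QuadraticForm F (ι → F))

/-- The subgroup generated by the reflections in vectors whose norm lies in the square class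
of `c`. -/
def Rc (c : F) : Subgroup (isometryGroup F ⇑Q) :=
  Subgroup.closure {g : ↥(isometryGroup F ⇑Q) | ∃ (v : ι → F) (t : F), t ≠ 0 ∧ Q v = c * t ^ 2 ∧
    ((g : Matrix.GeneralLinearGroup ι F) : Matrix ι ι F) = reflectionMatrix ⇑Q v}

theorem refl_mem_Rc (c : F) (hc : c ≠ 0) (v : ι → F) (hv : Q v ≠ 0) (hsq : IsSquare (c * Q v)) :
    refl Q v hv ∈ Rc Q c := by
  obtain ⟨s, hs⟩ := hsq
  have hs0 : s ≠ 0 := by
    rintro rfl
    rw [mul_zero] at hs
    exact mul_ne_zero hc hv hs
  refine Subgroup.subset_closure ⟨v, s / c, div_ne_zero hs0 hc, ?_, rfl⟩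
  field_simp
  linear_combination hs

theorem pair_mem_Rc_of_exists (h2 : (2 : F) ≠ 0) (hQ : (QuadraticMap.polarBilin Q).Nondegenerate)
    (c : F) (hc : c ≠ 0) (u v x : ι → F) (hu : Q u ≠ 0) (hv : Q v ≠ 0) (hx : Q x ≠ 0)
    (hcu : ¬ IsSquare (c * Q u)) (hcv : ¬ IsSquare (c * Q v)) (hcx : IsSquare (c * Q x))
    (a b : F) (hxe : x = a • u + b • v) :
    refl Q u hu * refl Q v hv ∈ Rc Q c := by
  obtain ⟨y, hy, e⟩ := exists_refl_eq_three Q hQ u v x hu hv hx a b hxe
  have hχ := congrArg (spinChar Q c) e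
  rw [map_mul, map_mul, spinChar_refl_of_not_isSquare Q h2 c hc u hu hcu,
    spinChar_refl_of_not_isSquare Q h2 c hc v hv hcv,
    spinChar_refl_of_isSquare Q h2 c hc x hx hcx, one_mul, one_mul] at hχ
  have hcy : IsSquare (c * Q y) := by
    by_contra hn
    rw [spinChar_refl_of_not_isSquare Q h2 c hc y hy hn] at hχ
    exact absurd hχ (by decide)
  have e2 : refl Q u hu * refl Q v hv = refl Q y hy * refl Q x hx := by
    rw [← e, mul_assoc, refl_mul_self, mul_one]
  rw [e2]
  exact (Rc Q c).mul_mem (refl_mem_Rc Q c hc y hy hcy) (refl_mem_Rc Q c hc x hx hcx)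

theorem Q_comb (u w : ι → F) (a b : F) :
    Q (a • u + b • w) = a * a * Q u + a * b * QuadraticMap.polar ⇑Q u w + b * b * Q w := by
  rw [QuadraticMap.map_add Q, QuadraticMap.map_smul, QuadraticMap.map_smul, polar_smul_left',
    polar_smul_right']
  simp only [smul_eq_mul]
  ring

/-- A non-degenerate plane over a finite field of odd order represents every non-zero element. -/
theorem exists_comb_Q_eq (h2 : (2 : F) ≠ 0) (u w : ι → F) (hu : Q u ≠ 0)
    (hdisc : 4 * Q u * Q w - QuadraticMap.polar ⇑Q u w ^ 2 ≠ 0) (e : F) (he : e ≠ 0) :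
    ∃ a b : F, Q (a • u + b • w) = e := by
  have h4 : (4 : F) ≠ 0 := by
    have : (4 : F) = 2 * 2 := by norm_num
    rw [this]
    exact mul_ne_zero h2 h2
  have hD : Q w - QuadraticMap.polar ⇑Q u w ^ 2 / (4 * Q u) ≠ 0 := by
    intro h
    apply hdisc
    field_simp at h
    linear_combination h
  obtain ⟨s, t, hst⟩ := Cfsg.Agent.Lib.Helper52.exists_sq_add_sq h2 (Q u / e)
    ((Q w - QuadraticMap.polar ⇑Q u w ^ 2 / (4 * Q u)) / e) (div_ne_zero hu he)
    (div_ne_zero hD he)
  refine ⟨s - t * QuadraticMap.polar ⇑Q u w / (2 * Q u), t, ?_⟩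
  rw [Q_comb]
  field_simp at hst
  field_simp
  linear_combination hst

theorem pair_mem_Rc_of_disc (h2 : (2 : F) ≠ 0) (hQ : (QuadraticMap.polarBilin Q).Nondegenerate)
    (c : F) (hc : c ≠ 0) (u w : ι → F) (hu : Q u ≠ 0) (hw : Q w ≠ 0)
    (hcu : ¬ IsSquare (c * Q u)) (hcw : ¬ IsSquare (c * Q w))
    (hdisc : 4 * Q u * Q w - QuadraticMap.polar ⇑Q u w ^ 2 ≠ 0) :
    refl Q u hu * refl Q w hw ∈ Rc Q c := by
  obtain ⟨a, b, hx⟩ := exists_comb_Q_eq Q h2 u w hu hdisc c hc
  have hx0 : Q (a • u + b • w) ≠ 0 := by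
    rw [hx]
    exact hc
  exact pair_mem_Rc_of_exists Q h2 hQ c hc u w _ hu hw hx0 hcu hcw
    (by rw [hx]; exact ⟨c, rfl⟩) a b rfl

end cls

section perp

variable {ι : Type} [Fintype ι] [DecidableEq ι] {F : Type*} [Field F] [Fintype F]
variable (Q : QuadraticForm F (ι → F))

/-- A family of vectors for which a projection onto its orthogonal space exists. -/
def HasProj {k : ℕ} (a : Fin k → ι → F) : Prop :=
  ∀ t : ι → F, ∃ c : Fin k → F, ∀ j, QuadraticMap.polar ⇑Q (a j) (t - ∑ i, c i • a i) = 0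

theorem hasProj_zero (a : Fin 0 → ι → F) : HasProj Q a :=
  fun _ => ⟨fun i => i.elim0, fun j => j.elim0⟩

theorem polar_sum_right {k : ℕ} (x : ι → F) (c : Fin k → F) (a : Fin k → ι → F) :
    QuadraticMap.polar ⇑Q x (∑ i, c i • a i) = ∑ i, c i * QuadraticMap.polar ⇑Q x (a i) := by
  rw [← QuadraticMap.polarBilin_apply_apply, map_sum]
  apply Finset.sum_congr rfl
  intro i _
  rw [map_smul, smul_eq_mul, QuadraticMap.polarBilin_apply_apply]

theorem HasProj.cons_nonsingular {k : ℕ} {a : Fin k → ι → F} (h2 : (2 : F) ≠ 0)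
    (ha : HasProj Q a) (y : ι → F) (hy : Q y ≠ 0)
    (hay : ∀ j, QuadraticMap.polar ⇑Q (a j) y = 0) :
    HasProj Q (Fin.cons y a : Fin (k + 1) → ι → F) := by
  intro t
  obtain ⟨c, hc⟩ := ha t
  set s := t - ∑ i, c i • a i with hs
  refine ⟨Fin.cons (QuadraticMap.polar ⇑Q y s / (2 * Q y)) c, ?_⟩
  have hsum : t - ∑ i : Fin (k + 1),
      (Fin.cons (QuadraticMap.polar ⇑Q y s / (2 * Q y)) c : Fin (k + 1) → F) i
        • (Fin.cons y a : Fin (k + 1) → ι → F) i
      = s - (QuadraticMap.polar ⇑Q y s / (2 * Q y)) • y := by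
    rw [Fin.sum_univ_succ]
    simp only [Fin.cons_zero, Fin.cons_succ]
    rw [hs]
    abel
  intro j
  rw [hsum]
  refine Fin.cases ?_ (fun j' => ?_) j
  · rw [Fin.cons_zero, polar_sub_right', polar_smul_right', polar_self]
    field_simp
    ring
  · rw [Fin.cons_succ, polar_sub_right', polar_smul_right', hc j', hay j']
    ring

theorem HasProj.cons_hyp {k : ℕ} {a : Fin k → ι → F} (ha : HasProj Q a) (z z₂ : ι → F)
    (hz : Q z = 0) (hz₂ : Q z₂ = 0) (hzz : QuadraticMap.polar ⇑Q z z₂ = 1)
    (haz : ∀ j, QuadraticMap.polar ⇑Q (a j) z = 0)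
    (haz₂ : ∀ j, QuadraticMap.polar ⇑Q (a j) z₂ = 0) :
    HasProj Q (Fin.cons z (Fin.cons z₂ a) : Fin (k + 1 + 1) → ι → F) := by
  intro t
  obtain ⟨c, hc⟩ := ha t
  set s := t - ∑ i, c i • a i with hs
  refine ⟨Fin.cons (QuadraticMap.polar ⇑Q z₂ s) (Fin.cons (QuadraticMap.polar ⇑Q z s) c), ?_⟩
  have hsum : t - ∑ i : Fin (k + 1 + 1),
      (Fin.cons (QuadraticMap.polar ⇑Q z₂ s) (Fin.cons (QuadraticMap.polar ⇑Q z s) c) :
          Fin (k + 1 + 1) → F) i
        • (Fin.cons z (Fin.cons z₂ a) : Fin (k + 1 + 1) → ι → F) i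
      = s - (QuadraticMap.polar ⇑Q z₂ s) • z - (QuadraticMap.polar ⇑Q z s) • z₂ := by
    rw [Fin.sum_univ_succ, Fin.sum_univ_succ]
    simp only [Fin.cons_zero, Fin.cons_succ]
    rw [hs]
    abel
  intro j
  rw [hsum]
  refine Fin.cases ?_ (fun j' => Fin.cases ?_ (fun j'' => ?_) j') j
  · rw [Fin.cons_zero, polar_sub_right', polar_sub_right', polar_smul_right', polar_smul_right',
      polar_self, hz, hzz]
    ring
  · rw [Fin.cons_succ, Fin.cons_zero, polar_sub_right', polar_sub_right', polar_smul_right',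
      polar_smul_right', polar_self, hz₂, polar_comm' Q z₂ z, hzz]
    ring
  · rw [Fin.cons_succ, Fin.cons_succ, polar_sub_right', polar_sub_right', polar_smul_right',
      polar_smul_right', hc j'', haz j'', haz₂ j'']
    ring

/-- If a family of fewer than `dim V` vectors has a projection onto its orthogonal space, that
space contains a non-singular vector. -/
theorem exists_nonsingular_perp (hQ : (QuadraticMap.polarBilin Q).Nondegenerate) {k : ℕ}
    (a : Fin k → ι → F) (ha : HasProj Q a) (hk : k < Fintype.card ι) :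
    ∃ y : ι → F, Q y ≠ 0 ∧ ∀ j, QuadraticMap.polar ⇑Q (a j) y = 0 := by
  by_contra hcon
  have hzero : ∀ y : ι → F, (∀ j, QuadraticMap.polar ⇑Q (a j) y = 0) → Q y = 0 := by
    intro y hy
    by_contra h
    exact hcon ⟨y, h, hy⟩
  let f : (ι → F) →ₗ[F] (Fin k → F) := LinearMap.pi (fun j => QuadraticMap.polarBilin Q (a j))
  have hker : LinearMap.ker f ≠ ⊥ := by
    apply LinearMap.ker_ne_bot_of_finrank_lt
    rw [Module.finrank_fintype_fun_eq_card, Module.finrank_fintype_fun_eq_card, Fintype.card_fin]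
    exact hk
  obtain ⟨y₀, hy₀, hy₀0⟩ := (Submodule.ne_bot_iff _).mp hker
  have hy₀' : ∀ j, QuadraticMap.polar ⇑Q (a j) y₀ = 0 := by
    intro j
    have h := congrFun (LinearMap.mem_ker.mp hy₀) j
    exact h
  obtain ⟨t, ht⟩ : ∃ t, QuadraticMap.polar ⇑Q y₀ t ≠ 0 := by
    by_contra hc
    apply hy₀0
    apply hQ.1
    intro t
    by_contra hne
    exact hc ⟨t, hne⟩
  obtain ⟨c, hc⟩ := ha t
  set t' := t - ∑ i, c i • a i with ht'
  have h1 : Q y₀ = 0 := hzero y₀ hy₀'
  have h2 : Q t' = 0 := hzero t' hc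
  have h3 : Q (y₀ + t') = 0 :=
    hzero _ (fun j => by rw [QuadraticMap.polar_add_right, hy₀' j, hc j, add_zero])
  have h4 : QuadraticMap.polar ⇑Q y₀ t' = 0 := by
    rw [QuadraticMap.polar, h3, h1, h2]
    ring
  apply ht
  have h5 : QuadraticMap.polar ⇑Q y₀ t' = QuadraticMap.polar ⇑Q y₀ t := by
    rw [ht', polar_sub_right', polar_sum_right]
    have h6 : ∑ i, c i * QuadraticMap.polar ⇑Q y₀ (a i) = 0 :=
      Finset.sum_eq_zero (fun i _ => by rw [polar_comm' Q y₀ (a i), hy₀' i, mul_zero])
    rw [h6, sub_zero]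
  rw [← h5, h4]

/-- A non-zero singular vector orthogonal to a non-singular vector `u` has a hyperbolic partner
orthogonal to `u`. -/
theorem exists_hyp_partner (h2 : (2 : F) ≠ 0) (hQ : (QuadraticMap.polarBilin Q).Nondegenerate)
    (u z : ι → F) (hu : Q u ≠ 0) (hz0 : z ≠ 0) (hz : Q z = 0)
    (huz : QuadraticMap.polar ⇑Q u z = 0) :
    ∃ z₂, Q z₂ = 0 ∧ QuadraticMap.polar ⇑Q z z₂ = 1 ∧ QuadraticMap.polar ⇑Q u z₂ = 0 := by
  obtain ⟨t, ht⟩ : ∃ t, QuadraticMap.polar ⇑Q z t ≠ 0 := by
    by_contra hc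
    apply hz0
    apply hQ.1
    intro t
    by_contra hne
    exact hc ⟨t, hne⟩
  set t₁ := t - (QuadraticMap.polar ⇑Q u t / (2 * Q u)) • u with ht₁
  have h1 : QuadraticMap.polar ⇑Q u t₁ = 0 := by
    rw [ht₁, polar_sub_right', polar_smul_right', polar_self]
    field_simp
    ring
  have h2' : QuadraticMap.polar ⇑Q z t₁ = QuadraticMap.polar ⇑Q z t := by
    rw [ht₁, polar_sub_right', polar_smul_right', polar_comm' Q z u, huz]
    ring
  set t₂ := (QuadraticMap.polar ⇑Q z t)⁻¹ • t₁ with ht₂
  have h3 : QuadraticMap.polar ⇑Q z t₂ = 1 := by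
    rw [ht₂, polar_smul_right', h2', inv_mul_cancel₀ ht]
  have h4 : QuadraticMap.polar ⇑Q u t₂ = 0 := by
    rw [ht₂, polar_smul_right', h1, mul_zero]
  refine ⟨t₂ - Q t₂ • z, ?_, ?_, ?_⟩
  · rw [Q_sub_smul, hz, h3]
    ring
  · rw [polar_sub_right', polar_smul_right' Q z z (Q t₂), polar_self, hz, h3]
    ring
  · rw [polar_sub_right', polar_smul_right' Q u z (Q t₂), huz, h4]
    ring

end perp

section degenerate

variable {ι : Type} [Fintype ι] [DecidableEq ι] {F : Type*} [Field F] [Fintype F]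
variable (Q : QuadraticForm F (ι → F))

theorem three_le_card (h2 : (2 : F) ≠ 0) (u z z₂ : ι → F) (hu : Q u ≠ 0) (hz : Q z = 0)
    (hz₂ : Q z₂ = 0) (hzz : QuadraticMap.polar ⇑Q z z₂ = 1)
    (huz : QuadraticMap.polar ⇑Q u z = 0) (huz₂ : QuadraticMap.polar ⇑Q u z₂ = 0) :
    3 ≤ Fintype.card ι := by
  have hli : LinearIndependent F ![u, z, z₂] := by
    rw [Fintype.linearIndependent_iff]
    intro g hg
    rw [Fin.sum_univ_three] at hg
    simp only [Matrix.cons_val_zero, Matrix.cons_val_one, Matrix.cons_val_two,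
      Matrix.head_cons, Matrix.tail_cons] at hg
    have e0 : QuadraticMap.polar ⇑Q u (g 0 • u + g 1 • z + g 2 • z₂) = 0 := by
      rw [hg, QuadraticMap.polar_zero_right]
    have e1 : QuadraticMap.polar ⇑Q z (g 0 • u + g 1 • z + g 2 • z₂) = 0 := by
      rw [hg, QuadraticMap.polar_zero_right]
    have e2 : QuadraticMap.polar ⇑Q z₂ (g 0 • u + g 1 • z + g 2 • z₂) = 0 := by
      rw [hg, QuadraticMap.polar_zero_right]
    rw [QuadraticMap.polar_add_right, QuadraticMap.polar_add_right, polar_smul_right',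
      polar_smul_right', polar_smul_right'] at e0 e1 e2
    rw [polar_self, huz, huz₂] at e0
    rw [polar_self, hz, hzz, polar_comm' Q z u, huz] at e1
    rw [polar_self, hz₂, polar_comm' Q z₂ u, huz₂, polar_comm' Q z₂ z, hzz] at e2
    have g0 : g 0 = 0 := by
      have h : g 0 * (2 * Q u) = 0 := by linear_combination e0
      rcases mul_eq_zero.mp h with h | h
      · exact h
      · exact absurd h (mul_ne_zero h2 hu)
    have g2 : g 2 = 0 := by linear_combination e1
    have g1 : g 1 = 0 := by linear_combination e2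
    intro i
    fin_cases i
    · exact g0
    · exact g1
    · exact g2
  have h := hli.fintype_card_le_finrank
  rw [Module.finrank_fintype_fun_eq_card, Fintype.card_fin] at h
  exact h

/-- The degenerate case: two reflections of the other class whose vectors span a degenerate plane
(or a line). -/
theorem pair_mem_Rc_of_disc_zero (h2 : (2 : F) ≠ 0)
    (hQ : (QuadraticMap.polarBilin Q).Nondegenerate) (c : F) (hc : c ≠ 0)
    (hcase : Fintype.card F ≠ 3 ∨ (Fintype.card ι ≠ 3 ∧ Fintype.card ι ≠ 4))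
    (u w : ι → F) (hu : Q u ≠ 0) (hw : Q w ≠ 0)
    (hcu : ¬ IsSquare (c * Q u)) (hcw : ¬ IsSquare (c * Q w))
    (hdisc : 4 * Q u * Q w - QuadraticMap.polar ⇑Q u w ^ 2 = 0) :
    refl Q u hu * refl Q w hw ∈ Rc Q c := by
  classical
  have h4 : (4 : F) ≠ 0 := by
    have : (4 : F) = 2 * 2 := by norm_num
    rw [this]
    exact mul_ne_zero h2 h2
  set lam := QuadraticMap.polar ⇑Q u w / (2 * Q u) with hlam
  set z := w - lam • u with hz
  have hw_eq : w = lam • u + z := by
    rw [hz]
    abel
  have huz : QuadraticMap.polar ⇑Q u z = 0 := by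
    rw [hz, polar_sub_right', polar_smul_right', polar_self, hlam]
    field_simp
    ring
  have hQz : Q z = 0 := by
    rw [hz, Q_sub_smul, hlam]
    field_simp
    linear_combination hdisc
  have hQw : Q w = lam * lam * Q u := by
    rw [hlam]
    field_simp
    linear_combination hdisc
  have hlam0 : lam ≠ 0 := by
    intro h
    apply hw
    rw [hQw, h]
    ring
  by_cases hz0 : z = 0
  · have e : refl Q w hw = refl Q u hu := by
      apply isometry_ext
      show reflectionMatrix ⇑Q w = reflectionMatrix ⇑Q u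
      rw [hw_eq, hz0, add_zero, reflectionMatrix_smul Q u lam hlam0]
    rw [e, refl_mul_self]
    exact (Rc Q c).one_mem
  · obtain ⟨z₂, hz₂, hzz, huz₂⟩ := exists_hyp_partner Q h2 hQ u z hu hz0 hQz huz
    have key : ∃ x : ι → F, Q x = Q u ∧ QuadraticMap.polar ⇑Q u x = 0 ∧
        QuadraticMap.polar ⇑Q z x ^ 2 ≠ 4 * Q u * Q w := by
      by_cases h3 : Fintype.card F = 3
      · have hn3 := three_le_card Q h2 u z z₂ hu hQz hz₂ hzz huz huz₂
        have hn5 : 5 ≤ Fintype.card ι := by
          rcases hcase with h | ⟨h, h'⟩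
          · exact absurd h3 h
          · omega
        have P1 : HasProj Q (Fin.cons u (fun i : Fin 0 => i.elim0) : Fin (0 + 1) → ι → F) :=
          (hasProj_zero Q _).cons_nonsingular Q h2 u hu (fun j => j.elim0)
        have P3 := P1.cons_hyp Q z z₂ hQz hz₂ hzz
          (fun j => Fin.cases (by rw [Fin.cons_zero]; exact huz) (fun j' => j'.elim0) j)
          (fun j => Fin.cases (by rw [Fin.cons_zero]; exact huz₂) (fun j' => j'.elim0) j)
        obtain ⟨y₁, hy₁, hp₁⟩ := exists_nonsingular_perp Q hQ _ P3 (by omega)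
        have hzy₁ : QuadraticMap.polar ⇑Q z y₁ = 0 := by
          have h := hp₁ 0
          rwa [Fin.cons_zero] at h
        have huy₁ : QuadraticMap.polar ⇑Q u y₁ = 0 := by
          have h := hp₁ (Fin.succ (Fin.succ 0))
          rwa [Fin.cons_succ, Fin.cons_succ, Fin.cons_zero] at h
        have P4 := P3.cons_nonsingular Q h2 y₁ hy₁ hp₁
        obtain ⟨y₂, hy₂, hp₂⟩ := exists_nonsingular_perp Q hQ _ P4 (by omega)
        have hy₁y₂ : QuadraticMap.polar ⇑Q y₁ y₂ = 0 := by
          have h := hp₂ 0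
          rwa [Fin.cons_zero] at h
        have hzy₂ : QuadraticMap.polar ⇑Q z y₂ = 0 := by
          have h := hp₂ (Fin.succ 0)
          rwa [Fin.cons_succ, Fin.cons_zero] at h
        have huy₂ : QuadraticMap.polar ⇑Q u y₂ = 0 := by
          have h := hp₂ (Fin.succ (Fin.succ (Fin.succ 0)))
          rwa [Fin.cons_succ, Fin.cons_succ, Fin.cons_succ, Fin.cons_zero] at h
        obtain ⟨s, t, hst⟩ := Cfsg.Agent.Lib.Helper52.exists_sq_add_sq h2 (Q y₁ / Q u)
          (Q y₂ / Q u) (div_ne_zero hy₁ hu) (div_ne_zero hy₂ hu)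
        refine ⟨s • y₁ + t • y₂, ?_, ?_, ?_⟩
        · rw [Q_comb, hy₁y₂]
          field_simp at hst
          linear_combination hst
        · rw [QuadraticMap.polar_add_right, polar_smul_right', polar_smul_right', huy₁, huy₂]
          ring
        · rw [QuadraticMap.polar_add_right, polar_smul_right', polar_smul_right', hzy₁, hzy₂]
          intro h
          have h' : 4 * Q u * Q w = 0 := by rw [← h]; ring
          exact mul_ne_zero (mul_ne_zero h4 hu) hw h'
      · have hchar : ringChar F ≠ 2 := by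
          intro hc2
          apply h2
          have : ((ringChar F : ℕ) : F) = 0 := ringChar.Nat.cast_ringChar
          rw [hc2] at this
          exact_mod_cast this
        have hodd := FiniteField.odd_card_of_char_ne_two hchar
        have h1 : 1 < Fintype.card F := Fintype.one_lt_card
        have h5 : 5 ≤ Fintype.card F := by omega
        obtain ⟨β, hβ⟩ : ∃ β : F, β ∉ ({0, 2 * Q u * lam, -(2 * Q u * lam)} : Finset F) := by
          by_contra hcon
          have hall : ({0, 2 * Q u * lam, -(2 * Q u * lam)} : Finset F) = Finset.univ := by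
            rw [Finset.eq_univ_iff_forall]
            intro β
            by_contra hβ
            exact hcon ⟨β, hβ⟩
          have hcard := Finset.card_le_three (a := (0 : F)) (b := 2 * Q u * lam)
            (c := -(2 * Q u * lam))
          rw [hall, Finset.card_univ] at hcard
          omega
        simp only [Finset.mem_insert, Finset.mem_singleton, not_or] at hβ
        obtain ⟨hβ0, hβ1, hβ2⟩ := hβ
        refine ⟨(Q u / β) • z + β • z₂, ?_, ?_, ?_⟩
        · rw [Q_comb, hQz, hz₂, hzz]
          field_simp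
          ring
        · rw [QuadraticMap.polar_add_right, polar_smul_right', polar_smul_right', huz, huz₂]
          ring
        · rw [QuadraticMap.polar_add_right, polar_smul_right', polar_smul_right', polar_self, hQz,
            hzz, hQw]
          intro h
          have h' : (β - 2 * Q u * lam) * (β + 2 * Q u * lam) = 0 := by linear_combination h
          rcases mul_eq_zero.mp h' with h'' | h''
          · exact hβ1 (sub_eq_zero.mp h'')
          · exact hβ2 (eq_neg_of_add_eq_zero_left h'')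
    obtain ⟨x, hxQ, hux, hzx⟩ := key
    have hx : Q x ≠ 0 := by
      rw [hxQ]
      exact hu
    have hcx : ¬ IsSquare (c * Q x) := by
      rw [hxQ]
      exact hcu
    have hd1 : 4 * Q u * Q x - QuadraticMap.polar ⇑Q u x ^ 2 ≠ 0 := by
      rw [hux, hxQ]
      intro h
      have h' : 4 * Q u * Q u = 0 := by linear_combination h
      exact mul_ne_zero (mul_ne_zero h4 hu) hu h'
    have hxw : QuadraticMap.polar ⇑Q x w = QuadraticMap.polar ⇑Q z x := by
      rw [polar_comm' Q x w, hw_eq, QuadraticMap.polar_add_left, polar_smul_left', hux]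
      ring
    have hd2 : 4 * Q x * Q w - QuadraticMap.polar ⇑Q x w ^ 2 ≠ 0 := by
      rw [hxw, hxQ]
      intro h
      exact hzx (by linear_combination (-1 : F) * h)
    have e : refl Q u hu * refl Q w hw
        = (refl Q u hu * refl Q x hx) * (refl Q x hx * refl Q w hw) := by
      rw [mul_assoc, ← mul_assoc (refl Q x hx), refl_mul_self, one_mul]
    rw [e]
    exact (Rc Q c).mul_mem (pair_mem_Rc_of_disc Q h2 hQ c hc u x hu hx hcu hcx hd1)
      (pair_mem_Rc_of_disc Q h2 hQ c hc x w hx hw hcx hcw hd2)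

end degenerate

section top

variable {ι : Type} [Fintype ι] [DecidableEq ι] {F : Type*} [Field F] [Fintype F]
variable (Q : QuadraticForm F (ι → F))

theorem pair_mem_Rc (h2 : (2 : F) ≠ 0) (hQ : (QuadraticMap.polarBilin Q).Nondegenerate)
    (c : F) (hc : c ≠ 0)
    (hcase : Fintype.card F ≠ 3 ∨ (Fintype.card ι ≠ 3 ∧ Fintype.card ι ≠ 4))
    (u w : ι → F) (hu : Q u ≠ 0) (hw : Q w ≠ 0)
    (hcu : ¬ IsSquare (c * Q u)) (hcw : ¬ IsSquare (c * Q w)) :
    refl Q u hu * refl Q w hw ∈ Rc Q c := by
  by_cases hdisc : 4 * Q u * Q w - QuadraticMap.polar ⇑Q u w ^ 2 = 0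
  · exact pair_mem_Rc_of_disc_zero Q h2 hQ c hc hcase u w hu hw hcu hcw hdisc
  · exact pair_mem_Rc_of_disc Q h2 hQ c hc u w hu hw hcu hcw hdisc

open Classical in
theorem reflList_mem_Rc (h2 : (2 : F) ≠ 0) (hQ : (QuadraticMap.polarBilin Q).Nondegenerate)
    (c : F) (hc : c ≠ 0)
    (hcase : Fintype.card F ≠ 3 ∨ (Fintype.card ι ≠ 3 ∧ Fintype.card ι ≠ 4))
    (e : F) (hcls : ∀ v : ι → F, Q v ≠ 0 → (IsSquare (e * Q v) ↔ ¬ IsSquare (c * Q v))) :
    ∀ (vs : List (ι → F)) (hvs : ∀ v ∈ vs, Q v ≠ 0),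
      (Even (vs.countP (fun v => IsSquare (e * Q v))) → reflList Q vs hvs ∈ Rc Q c) ∧
      (Odd (vs.countP (fun v => IsSquare (e * Q v))) → ∀ (u : ι → F) (hu : Q u ≠ 0),
        ¬ IsSquare (c * Q u) → refl Q u hu * reflList Q vs hvs ∈ Rc Q c) := by
  intro vs
  induction vs with
  | nil =>
    intro hvs
    refine ⟨fun _ => ?_, fun h => ?_⟩
    · rw [reflList_nil]
      exact (Rc Q c).one_mem
    · simp at h
  | cons v vs ih =>
    intro hvs
    have hv : Q v ≠ 0 := hvs v List.mem_cons_self
    have hvs' : ∀ w ∈ vs, Q w ≠ 0 := fun w hw => hvs w (List.mem_cons_of_mem _ hw)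
    obtain ⟨ihe, iho⟩ := ih hvs'
    rw [reflList_cons]
    by_cases hsq' : IsSquare (e * Q v)
    · have hsq : ¬ IsSquare (c * Q v) := (hcls v hv).mp hsq'
      have hcnt : (v :: vs).countP (fun v => IsSquare (e * Q v))
          = vs.countP (fun v => IsSquare (e * Q v)) + 1 := by
        rw [List.countP_cons_of_pos]
        simpa using hsq'
      rw [hcnt]
      constructor
      · intro he
        have ho : Odd (vs.countP (fun v => IsSquare (e * Q v))) := by
          rw [← Nat.not_even_iff_odd]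
          exact Nat.even_add_one.mp he
        exact iho ho v hv hsq
      · intro ho u hu hcu
        have he : Even (vs.countP (fun v => IsSquare (e * Q v))) := by
          rw [← Nat.not_odd_iff_even]
          exact Nat.odd_add_one.mp ho
        rw [← mul_assoc]
        exact (Rc Q c).mul_mem (pair_mem_Rc Q h2 hQ c hc hcase u v hu hv hcu hsq) (ihe he)
    · have hsq : IsSquare (c * Q v) := by
        by_contra hn
        exact hsq' ((hcls v hv).mpr hn)
      have hcnt : (v :: vs).countP (fun v => IsSquare (e * Q v))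
          = vs.countP (fun v => IsSquare (e * Q v)) := by
        rw [List.countP_cons_of_neg]
        simpa using hsq'
      rw [hcnt]
      constructor
      · intro he
        exact (Rc Q c).mul_mem (refl_mem_Rc Q c hc v hv hsq) (ihe he)
      · intro ho u hu hcu
        have hv' : Q ((((refl Q u hu : isometryGroup F ⇑Q) : Matrix.GeneralLinearGroup ι F) :
            Matrix ι ι F).mulVec v) ≠ 0 := by
          rw [isometry_apply]
          exact hv
        have e1 : refl Q u hu * (refl Q v hv * reflList Q vs hvs')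
            = (refl Q u hu * refl Q v hv * (refl Q u hu)⁻¹)
              * (refl Q u hu * reflList Q vs hvs') := by
          group
        rw [e1, conj_refl Q (refl Q u hu) v hv hv']
        refine (Rc Q c).mul_mem (refl_mem_Rc Q c hc _ hv' ?_) (iho ho u hu hcu)
        rw [isometry_apply]
        exact hsq

open Classical in
theorem Rc_eq_ker (h2 : (2 : F) ≠ 0) (hQ : (QuadraticMap.polarBilin Q).Nondegenerate)
    (c : F) (hc : c ≠ 0)
    (hcase : Fintype.card F ≠ 3 ∨ (Fintype.card ι ≠ 3 ∧ Fintype.card ι ≠ 4))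
    (hall : ∀ g : isometryGroup F ⇑Q, ∃ (vs : List (ι → F)) (h : ∀ v ∈ vs, Q v ≠ 0),
      g = reflList Q vs h)
    (δ : F) (hδ : ¬ IsSquare δ) :
    Rc Q c = (spinChar Q (δ * c)).ker := by
  have hδ0 : δ ≠ 0 := by
    rintro rfl
    exact hδ ⟨0, by simp⟩
  have he : δ * c ≠ 0 := mul_ne_zero hδ0 hc
  have hcls : ∀ v : ι → F, Q v ≠ 0 → (IsSquare (δ * c * Q v) ↔ ¬ IsSquare (c * Q v)) := by
    intro v hv
    rw [mul_assoc, isSquare_mul_iff hδ0 (mul_ne_zero hc hv)]
    simp [hδ]
  apply le_antisymm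
  · rw [Rc, Subgroup.closure_le]
    rintro g ⟨v, t, ht, hQv, hg⟩
    have hv : Q v ≠ 0 := by
      rw [hQv]
      exact mul_ne_zero hc (pow_ne_zero 2 ht)
    have hgr : g = refl Q v hv := isometry_ext Q hg
    rw [SetLike.mem_coe, MonoidHom.mem_ker, hgr]
    apply spinChar_refl_of_not_isSquare Q h2 (δ * c) he v hv
    rw [hcls v hv, not_not, hQv]
    exact ⟨c * t, by ring⟩
  · intro g hg
    obtain ⟨vs, hvs, rfl⟩ := hall g
    rw [MonoidHom.mem_ker, spinChar_reflList Q h2 (δ * c) he] at hg
    have hev : Even (vs.countP (fun v => IsSquare (δ * c * Q v))) := by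
      by_contra hodd
      rw [Nat.not_even_iff_odd] at hodd
      rw [hodd.neg_one_pow] at hg
      exact absurd hg (by decide)
    exact (reflList_mem_Rc Q h2 hQ c hc hcase (δ * c) hcls vs hvs).1 hev

/-- In odd characteristic (and outside dimension 3, 4 over the field with three elements) the
reflections of one square class generate a subgroup of index two. -/
theorem index_Rc (h2 : (2 : F) ≠ 0) (hQ : (QuadraticMap.polarBilin Q).Nondegenerate)
    (c : F) (hc : c ≠ 0)
    (hcase : Fintype.card F ≠ 3 ∨ (Fintype.card ι ≠ 3 ∧ Fintype.card ι ≠ 4))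
    (hcard : 2 ≤ Fintype.card ι) : (Rc Q c).index = 2 := by
  have hcardF : Fintype.card F ≠ 2 := by
    intro h
    apply h2
    have := FiniteField.cast_card_eq_zero F
    rw [h] at this
    exact_mod_cast this
  have hall := hall_of_finite Q hQ (Or.inl hcardF)
  have hchar : ringChar F ≠ 2 := by
    intro hc2
    apply h2
    have : ((ringChar F : ℕ) : F) = 0 := ringChar.Nat.cast_ringChar
    rw [hc2] at this
    exact_mod_cast this
  obtain ⟨δ, hδ⟩ := FiniteField.exists_nonsquare hchar
  have hδ0 : δ ≠ 0 := by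
    rintro rfl
    exact hδ ⟨0, by simp⟩
  have he : δ * c ≠ 0 := mul_ne_zero hδ0 hc
  obtain ⟨w, hw⟩ := exists_Q_eq Q h2 hQ hcard (δ * c)
  have hw0 : Q w ≠ 0 := by
    rw [hw]
    exact he
  have hsurj : Function.Surjective (spinChar Q (δ * c)) := by
    intro a
    rcases Int.units_eq_one_or a with rfl | rfl
    · exact ⟨1, map_one _⟩
    · refine ⟨refl Q w hw0, spinChar_refl_of_isSquare Q h2 (δ * c) he w hw0 ?_⟩
      rw [hw]
      exact ⟨δ * c, rfl⟩
  rw [Rc_eq_ker Q h2 hQ c hc hcase hall δ hδ, Subgroup.index_ker,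
    MonoidHom.range_eq_top.mpr hsurj, Subgroup.card_top, Nat.card_eq_fintype_card,
    Fintype.card_units_int]

end top

end Cfsg.Agent.Lib.Helper51
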