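import Mathlib
import Cfsg.Agent.Lib.Helper18.Adapted

/-!
# Isotropic frames in symplectic space (helper51)

* `card_fiber_prod`: counting a group through a map whose fibres are cosets of a fixed set;
* `IsFr`: isotropic frames (linearly independent, pairwise orthogonal families);
* `card_fr`: the number of isotropic `s`-frames of `F^(2m)`;
* `card_stab_mul`: `|Sp_2m(q)| = (number of isotropic frames) * |pointwise stabiliser of a frame|`.
-/

set_option autoImplicit false

namespace Cfsg.Agent.Lib.Helper51.SpFrames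

open Module Matrix Cfsg.Agent.Lib.Helper18

/-- A group is counted by the image of a map times the size of its "stabiliser". -/
theorem card_fiber_prod {G : Type*} [Group G] {Y : Type*} (f : G → Y) (K : Set G)
    (h : ∀ g h : G, f g = f h ↔ g⁻¹ * h ∈ K) :
    Nat.card G = Nat.card (Set.range f) * Nat.card K := by
  classical
  rw [← Nat.card_prod]
  apply Nat.card_congr
  have hr : ∀ y : Set.range f, ∃ g, f g = y.1 := fun y => y.2
  choose r hr using hr
  have hk : ∀ (y : Set.range f) (k : G), k ∈ K → f (r y * k) = y.1 := by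
    intro y k hk
    rw [← hr y, eq_comm, h]
    simpa using hk
  refine
    { toFun := fun g => (⟨f g, g, rfl⟩, ⟨(r ⟨f g, g, rfl⟩)⁻¹ * g, (h _ _).mp (hr _)⟩)
      invFun := fun p => r p.1 * p.2.1
      left_inv := fun g => by simp
      right_inv := ?_ }
  rintro ⟨y, k, hk'⟩
  have e : (⟨f (r y * k), r y * k, rfl⟩ : Set.range f) = y := Subtype.ext (hk y k hk')
  refine Prod.ext e (Subtype.ext ?_)
  show (r ⟨f (r y * k), r y * k, rfl⟩)⁻¹ * (r y * k) = k
  rw [e]
  simp

section sp

variable {F : Type*} [Field F] {m : ℕ}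

theorem sp_mul_mulVec (g h : Matrix.symplecticGroup (Fin m) F) (v : Fin m ⊕ Fin m → F) :
    (g * h).1 *ᵥ v = g.1 *ᵥ (h.1 *ᵥ v) := by
  rw [Matrix.mulVec_mulVec]
  rfl

theorem sp_inv_mulVec (g : Matrix.symplecticGroup (Fin m) F) (v : Fin m ⊕ Fin m → F) :
    (g⁻¹).1 *ᵥ (g.1 *ᵥ v) = v := by
  rw [← sp_mul_mulVec, inv_mul_cancel]
  exact Matrix.one_mulVec v

theorem sp_mulVec_inv (g : Matrix.symplecticGroup (Fin m) F) (v : Fin m ⊕ Fin m → F) :
    g.1 *ᵥ ((g⁻¹).1 *ᵥ v) = v := by
  rw [← sp_mul_mulVec, mul_inv_cancel]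
  exact Matrix.one_mulVec v

theorem sp_isom (g : Matrix.symplecticGroup (Fin m) F) (u v : Fin m ⊕ Fin m → F) :
    sympB m (g.1 *ᵥ u) (g.1 *ᵥ v) = sympB m u v := by
  have := symplectic_isometry m g.1 g.2 u v
  simpa [Matrix.toLin'_apply] using this

/-- Isotropic frames. -/
def IsFr {ι : Type*} (x : ι → (Fin m ⊕ Fin m → F)) : Prop :=
  LinearIndependent F x ∧ ∀ i j, sympB (F := F) m (x i) (x j) = 0

theorem isFr_map {ι : Type*} (g : Matrix.symplecticGroup (Fin m) F)
    {x : ι → (Fin m ⊕ Fin m → F)} (hx : IsFr x) : IsFr (fun i => g.1 *ᵥ x i) := by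
  refine ⟨?_, fun i j => by rw [sp_isom]; exact hx.2 i j⟩
  have e : (fun i => g.1 *ᵥ x i) = (Matrix.toLin' g.1) ∘ x := by
    funext i
    simp [Matrix.toLin'_apply]
  rw [e]
  apply hx.1.map'
  rw [LinearMap.ker_eq_bot]
  intro u v huv
  have h1 : g.1 *ᵥ u = g.1 *ᵥ v := by simpa [Matrix.toLin'_apply] using huv
  rw [← sp_inv_mulVec g u, h1, sp_inv_mulVec]

theorem witt_fr {ι : Type*} [Fintype ι] (x x' : ι → (Fin m ⊕ Fin m → F)) (hx : IsFr x)
    (hx' : IsFr x') : ∃ g : Matrix.symplecticGroup (Fin m) F, ∀ i, g.1 *ᵥ x i = x' i := by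
  let e := (Fintype.equivFin ι).symm
  obtain ⟨g, hg⟩ := witt_frames m _ (x ∘ e) (x' ∘ e) (hx.1.comp _ e.injective)
    (hx'.1.comp _ e.injective) (fun i j => hx.2 _ _) (fun i j => hx'.2 _ _)
  refine ⟨g, fun i => ?_⟩
  have := hg (e.symm i)
  simpa using this

theorem card_sp_eq [Finite F] {ι : Type*} [Fintype ι] (x₀ : ι → (Fin m ⊕ Fin m → F))
    (hx₀ : IsFr x₀) :
    Nat.card (Matrix.symplecticGroup (Fin m) F) =
      Nat.card {x : ι → (Fin m ⊕ Fin m → F) // IsFr x} *
        Nat.card {g : Matrix.symplecticGroup (Fin m) F // ∀ i, g.1 *ᵥ x₀ i = x₀ i} := by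
  have h := card_fiber_prod (G := Matrix.symplecticGroup (Fin m) F)
    (fun g => fun i => g.1 *ᵥ x₀ i) {g | ∀ i, g.1 *ᵥ x₀ i = x₀ i} ?_
  · rw [h]
    congr 1
    have hrange : Set.range (fun (g : Matrix.symplecticGroup (Fin m) F) => fun i => g.1 *ᵥ x₀ i)
        = {x | IsFr x} := by
      ext x
      constructor
      · rintro ⟨g, rfl⟩
        exact isFr_map g hx₀
      · intro hx
        obtain ⟨g, hg⟩ := witt_fr x₀ x hx₀ hx
        exact ⟨g, funext hg⟩
    rw [hrange]
    rfl
  · intro g h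
    constructor
    · intro hgh i
      have := congrFun hgh i
      show (g⁻¹ * h).1 *ᵥ x₀ i = x₀ i
      rw [sp_mul_mulVec, ← this, sp_inv_mulVec]
    · intro hK
      funext i
      have h1 : (g⁻¹ * h).1 *ᵥ x₀ i = x₀ i := hK i
      rw [sp_mul_mulVec] at h1
      have h2 := congrArg (fun z => g.1 *ᵥ z) h1
      simp only [sp_mulVec_inv] at h2
      exact h2.symm

theorem card_ext [Fintype F] {s : ℕ} (x : Fin s → (Fin m ⊕ Fin m → F)) (hx : IsFr x) :
    Nat.card {v : Fin m ⊕ Fin m → F //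
        (∀ i, sympB m (x i) v = 0) ∧ v ∉ Submodule.span F (Set.range x)} =
      Fintype.card F ^ (2 * m - s) - Fintype.card F ^ s := by
  classical
  obtain ⟨W, hWdef⟩ : ∃ W, W = Submodule.span F (Set.range x) := ⟨_, rfl⟩
  have hW : finrank F W = s := by rw [hWdef, finrank_span_eq_card hx.1, Fintype.card_fin]
  obtain ⟨W', hW'def⟩ : ∃ W', W' = (sympB (F := F) m).orthogonal W := ⟨_, rfl⟩
  have hW' : finrank F W' = 2 * m - s := by
    rw [hW'def, LinearMap.BilinForm.finrank_orthogonal (sympB_nondegenerate m), hW]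
    simp [two_mul]
  have hmem : ∀ v, (∀ i, sympB m (x i) v = 0) ↔ v ∈ W' := by
    intro v
    rw [hW'def, LinearMap.BilinForm.mem_orthogonal_iff]
    constructor
    · intro h n hn
      rw [hWdef] at hn
      show sympB m n v = 0
      induction hn using Submodule.span_induction with
      | mem u hu =>
        obtain ⟨i, rfl⟩ := hu
        exact h i
      | zero => simp
      | add a b _ _ ha hb => rw [map_add, LinearMap.add_apply, ha, hb, add_zero]
      | smul c a _ ha => rw [map_smul, LinearMap.smul_apply, ha, smul_zero]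
    · intro h i
      exact h (x i) (by rw [hWdef]; exact Submodule.subset_span ⟨i, rfl⟩)
  have hle : (W : Set (Fin m ⊕ Fin m → F)) ⊆ (W' : Set (Fin m ⊕ Fin m → F)) := by
    intro u hu
    rw [SetLike.mem_coe, ← hmem]
    intro i
    have hu' : u ∈ Submodule.span F (Set.range x) := by rw [← hWdef]; exact hu
    clear hu
    induction hu' using Submodule.span_induction with
    | mem u hu =>
      obtain ⟨j, rfl⟩ := hu
      exact hx.2 i j
    | zero => simp
    | add a b _ _ ha hb => rw [map_add, ha, hb, add_zero]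
    | smul c a _ ha => rw [map_smul, ha, smul_zero]
  have hc : Nat.card {v : Fin m ⊕ Fin m → F //
        (∀ i, sympB m (x i) v = 0) ∧ v ∉ Submodule.span F (Set.range x)} =
      Nat.card ↥((W' : Set (Fin m ⊕ Fin m → F)) \ (W : Set (Fin m ⊕ Fin m → F))) :=
    Nat.card_congr (Equiv.subtypeEquivRight (fun v => by
      rw [hmem, ← hWdef]
      rfl))
  rw [hc, Nat.card_coe_set_eq, Set.ncard_sdiff hle, ← Nat.card_coe_set_eq, ← Nat.card_coe_set_eq]
  have e1 : Nat.card ↥(W' : Set (Fin m ⊕ Fin m → F)) = Fintype.card F ^ (2 * m - s) := by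
    have := Module.natCard_eq_pow_finrank (K := F) (V := W')
    rw [hW', Nat.card_eq_fintype_card (α := F)] at this
    exact this
  have e2 : Nat.card ↥(W : Set (Fin m ⊕ Fin m → F)) = Fintype.card F ^ s := by
    have := Module.natCard_eq_pow_finrank (K := F) (V := W)
    rw [hW, Nat.card_eq_fintype_card (α := F)] at this
    exact this
  rw [e1, e2]

theorem card_fr_succ [Fintype F] (s : ℕ) :
    Nat.card {x : Fin (s + 1) → (Fin m ⊕ Fin m → F) // IsFr x} =
      Nat.card {x : Fin s → (Fin m ⊕ Fin m → F) // IsFr x} *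
        (Fintype.card F ^ (2 * m - s) - Fintype.card F ^ s) := by
  classical
  have e1 : {x : Fin (s + 1) → (Fin m ⊕ Fin m → F) // IsFr x} ≃
      {p : (Fin s → (Fin m ⊕ Fin m → F)) × (Fin m ⊕ Fin m → F) //
        IsFr p.1 ∧ (∀ i, sympB m (p.1 i) p.2 = 0) ∧ p.2 ∉ Submodule.span F (Set.range p.1)} := by
    refine
      { toFun := fun x => ⟨(Fin.init x.1, x.1 (Fin.last s)), ?_⟩
        invFun := fun p => ⟨Fin.snoc (α := fun _ => Fin m ⊕ Fin m → F) p.1.1 p.1.2, ?_⟩
        left_inv := fun x => Subtype.ext (Fin.snoc_init_self x.1)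
        right_inv := fun p => Subtype.ext (Prod.ext (by simp) (by simp)) }
    · obtain ⟨x, hli, hiso⟩ := x
      have hli' := hli
      rw [← Fin.snoc_init_self x, linearIndependent_finSnoc] at hli'
      exact ⟨⟨hli'.1, fun i j => hiso _ _⟩, fun i => hiso _ _, hli'.2⟩
    · obtain ⟨⟨x, v⟩, ⟨hli, hiso⟩, hv, hnot⟩ := p
      refine ⟨linearIndependent_finSnoc.mpr ⟨hli, hnot⟩, ?_⟩
      intro i j
      refine Fin.lastCases ?_ (fun i => ?_) i <;> refine Fin.lastCases ?_ (fun j => ?_) j
      · simp only [Fin.snoc_last]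
        exact sympB_isAlt m v
      · simp only [Fin.snoc_last, Fin.snoc_castSucc]
        rw [← (sympB_isAlt m).neg_eq, hv j, neg_zero]
      · simp only [Fin.snoc_last, Fin.snoc_castSucc]
        exact hv i
      · simp only [Fin.snoc_castSucc]
        exact hiso i j
  rw [Nat.card_congr e1,
    Nat.card_congr (Equiv.subtypeProdEquivSigmaSubtype
      (fun (a : Fin s → (Fin m ⊕ Fin m → F)) (b : Fin m ⊕ Fin m → F) =>
        IsFr a ∧ (∀ i, sympB m (a i) b = 0) ∧ b ∉ Submodule.span F (Set.range a))),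
    Nat.card_sigma]
  have hfib : ∀ a : Fin s → (Fin m ⊕ Fin m → F),
      Nat.card {b : Fin m ⊕ Fin m → F //
        IsFr a ∧ (∀ i, sympB m (a i) b = 0) ∧ b ∉ Submodule.span F (Set.range a)} =
      if IsFr a then (Fintype.card F ^ (2 * m - s) - Fintype.card F ^ s) else 0 := by
    intro a
    by_cases ha : IsFr a
    · rw [if_pos ha, ← card_ext a ha]
      exact Nat.card_congr (Equiv.subtypeEquivRight (fun b => by simp [ha]))
    · rw [if_neg ha]
      have : IsEmpty {b : Fin m ⊕ Fin m → F //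
          IsFr a ∧ (∀ i, sympB m (a i) b = 0) ∧ b ∉ Submodule.span F (Set.range a)} :=
        ⟨fun b => ha b.2.1⟩
      exact Nat.card_of_isEmpty
  simp only [hfib]
  rw [Finset.sum_ite, Finset.sum_const_zero, add_zero, Finset.sum_const, smul_eq_mul,
    Nat.card_eq_fintype_card, Fintype.card_subtype]

theorem card_fr [Fintype F] (s : ℕ) :
    Nat.card {x : Fin s → (Fin m ⊕ Fin m → F) // IsFr x} =
      ∏ j ∈ Finset.range s, (Fintype.card F ^ (2 * m - j) - Fintype.card F ^ j) := by
  induction s with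
  | zero =>
    rw [Finset.prod_range_zero, Nat.card_eq_one_iff_unique]
    refine ⟨⟨fun a b => Subtype.ext (funext fun i => i.elim0)⟩,
      ⟨⟨fun i => i.elim0, linearIndependent_empty_type, fun i => i.elim0⟩⟩⟩
  | succ s ih =>
    rw [card_fr_succ, ih, Finset.prod_range_succ]

/-- `|Sp_2m(q)|` is the number of isotropic frames times the order of the pointwise stabiliser
of any one of them. -/
theorem card_stab_mul [Fintype F] {ι : Type*} [Fintype ι] (x : ι → (Fin m ⊕ Fin m → F))
    (hx : IsFr x) :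
    Nat.card (Matrix.symplecticGroup (Fin m) F) =
      (∏ j ∈ Finset.range (Fintype.card ι), (Fintype.card F ^ (2 * m - j) - Fintype.card F ^ j)) *
        Nat.card {g : Matrix.symplecticGroup (Fin m) F // ∀ i, g.1 *ᵥ x i = x i} := by
  let e := (Fintype.equivFin ι).symm
  have hxe : IsFr (x ∘ e) := ⟨hx.1.comp _ e.injective, fun i j => hx.2 _ _⟩
  rw [card_sp_eq (x ∘ e) hxe, card_fr]
  congr 1
  refine Nat.card_congr (Equiv.subtypeEquivRight (fun g => ?_))
  constructor
  · intro h i
    have := h (e.symm i)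
    simpa using this
  · intro h i
    exact h (e i)

end sp

end Cfsg.Agent.Lib.Helper51.SpFrames
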