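import Mathlib
import Cfsg.Agent.Lib.Helper91.SpU

set_option autoImplicit false

namespace Cfsg.Agent.Lib.Helper51.SpH1b

open Matrix Cfsg.Agent.Lib.Helper91.SpU

theorem center_U (m : ℕ) (K : Type*) [Field K] (z : Matrix.symplecticGroup (Fin m) K)
    (hz : InU m K z)
    (hc : ∀ u : Matrix.symplecticGroup (Fin m) K, InU m K u → u * z = z * u) (i₀ i₁ : Fin m)
    (h0 : (i₀ : ℕ) = 0) (h1 : (i₁ : ℕ) = 1) :
    ∃ c d : K, 2 * d = 0 ∧ z.1 = fromBlocks 1
      (Matrix.single i₀ i₀ c + Matrix.single i₀ i₁ d + Matrix.single i₁ i₀ d) 0 1 := by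
  obtain ⟨A, hA⟩ : ∃ A, A = z.1.toBlocks₁₁ := ⟨_, rfl⟩
  obtain ⟨B, hB⟩ : ∃ B, B = z.1.toBlocks₁₂ := ⟨_, rfl⟩
  obtain ⟨D, hD⟩ : ∃ D, D = z.1.toBlocks₂₂ := ⟨_, rfl⟩
  have hzb : z.1 = fromBlocks A B 0 D := by
    rw [hA, hB, hD, ← hz.1]
    exact (Matrix.fromBlocks_toBlocks z.1).symm
  have hUT : IsUT m K A := by
    rw [hA]
    exact hz.2
  have hmem : fromBlocks A B 0 D ∈ Matrix.symplecticGroup (Fin m) K := hzb ▸ z.2
  rw [SymplecticGroup.fromBlocks_mem_iff] at hmem
  obtain ⟨-, hBD, hAD⟩ := hmem
  -- (1) A = 1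
  have hA1 : A = 1 := by
    ext r j
    by_cases hrj : r = j
    · subst hrj
      rw [hUT.2, Matrix.one_apply_eq]
    · rw [Matrix.one_apply_ne hrj]
      have hs := hc (sq m K (Matrix.single j j 1) (by simp)) (sq_inU m K _ _)
      have hs' : (sq m K (Matrix.single j j 1) (by simp)).1 * z.1 =
          z.1 * (sq m K (Matrix.single j j 1) (by simp)).1 := congrArg Subtype.val hs
      rw [sq_coe, hzb, Matrix.fromBlocks_multiply, Matrix.fromBlocks_multiply] at hs'
      have h12 := (Matrix.fromBlocks_inj.mp hs').2.1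
      have h3 := congrFun (congrFun h12 r) j
      rw [Matrix.add_apply, Matrix.add_apply, Matrix.one_mul, Matrix.mul_one,
        Matrix.single_mul_apply_of_ne (h := hrj), Matrix.mul_single_apply_same, mul_one,
        add_zero] at h3
      have h4 : A r j + B r j = 0 + B r j := by rw [zero_add]; exact h3.symm
      exact add_right_cancel h4
  have hD1 : D = 1 := by
    rw [hA1] at hAD
    simpa using hAD
  have hBsymm : Bᵀ = B := by
    rw [hD1] at hBD
    simpa using hBD
  have hBs : ∀ r s, B r s = B s r := fun r s => congrFun (congrFun hBsymm s) r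
  -- (2)
  have key : ∀ i j : Fin m, i < j → (∀ s, s ≠ i → B j s = 0) ∧ 2 * B j i = 0 := by
    intro i j hij
    have hne : i ≠ j := ne_of_lt hij
    obtain ⟨A', hA'val, hA'inv⟩ : ∃ A' : GL (Fin m) K, A'.1 = Matrix.transvection i j 1 ∧
        (A'⁻¹).1 = Matrix.transvection i j (-1) :=
      ⟨⟨Matrix.transvection i j 1, Matrix.transvection i j (-1),
        by
          have h := Matrix.transvection_mul_transvection_same i j hne (1 : K) (-1)
          rw [add_neg_cancel, Matrix.transvection_zero] at h
          exact h,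
        by
          have h := Matrix.transvection_mul_transvection_same i j hne (-1 : K) 1
          rw [neg_add_cancel, Matrix.transvection_zero] at h
          exact h⟩, rfl, rfl⟩
    have hA'UT : IsUT m K A'.1 := by
      rw [hA'val]
      refine ⟨fun r s hsr => ?_, fun r => ?_⟩
      · rw [Matrix.transvection, Matrix.add_apply, Matrix.one_apply_ne (ne_of_gt hsr), zero_add,
          Matrix.single_apply, if_neg]
        rintro ⟨rfl, rfl⟩
        exact absurd hsr (not_lt.mpr hij.le)
      · rw [Matrix.transvection, Matrix.add_apply, Matrix.one_apply_eq, Matrix.single_apply,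
          if_neg, add_zero]
        rintro ⟨rfl, rfl⟩
        exact hne rfl
    have hs := hc (sphi m K A') (sphi_inU m K A' hA'UT)
    have hs' : (sphi m K A').1 * z.1 = z.1 * (sphi m K A').1 := congrArg Subtype.val hs
    rw [sphi_coe, hzb, hA1, hD1, Matrix.fromBlocks_multiply, Matrix.fromBlocks_multiply,
      hA'val, hA'inv] at hs'
    have h12 := (Matrix.fromBlocks_inj.mp hs').2.1
    have e : Matrix.single i j (1 : K) * B + B * Matrix.single j i (1 : K) = 0 := by
      have h5 : (Matrix.transvection i j (-1 : K))ᵀ = 1 - Matrix.single j i (1 : K) := by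
        rw [Matrix.transvection, Matrix.transpose_add, Matrix.transpose_one,
          Matrix.transpose_single, sub_eq_add_neg, ← Matrix.single_neg]
      rw [h5, Matrix.transvection, Matrix.add_mul, Matrix.one_mul, Matrix.zero_mul, add_zero,
        Matrix.one_mul, zero_add, Matrix.mul_sub, Matrix.mul_one] at h12
      have h6 : Matrix.single i j (1 : K) * B = - (B * Matrix.single j i (1 : K)) := by
        have h7 : B + Matrix.single i j (1 : K) * B = B + - (B * Matrix.single j i (1 : K)) := by
          rw [h12, sub_eq_add_neg]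
        exact add_left_cancel h7
      rw [h6, neg_add_cancel]
    refine ⟨fun s hs => ?_, ?_⟩
    · have h3 := congrFun (congrFun e i) s
      rw [Matrix.add_apply, Matrix.single_mul_apply_same, one_mul,
        Matrix.mul_single_apply_of_ne (hbj := hs), add_zero] at h3
      exact h3
    · have h3 := congrFun (congrFun e i) i
      rw [Matrix.add_apply, Matrix.single_mul_apply_same, one_mul,
        Matrix.mul_single_apply_same, mul_one, hBs i j] at h3
      rw [two_mul]
      exact h3
  have hi01 : i₀ < i₁ := by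
    rw [Fin.lt_def]
    omega
  have hrow : ∀ j : Fin m, 2 ≤ (j : ℕ) → ∀ s, B j s = 0 := by
    intro j hj s
    have hi0j : i₀ < j := Fin.lt_def.mpr (by omega)
    have hi1j : i₁ < j := Fin.lt_def.mpr (by omega)
    by_cases hs : s = i₀
    · subst hs
      exact (key i₁ j hi1j).1 _ (ne_of_lt hi01)
    · exact (key i₀ j hi0j).1 s hs
  have hcase : ∀ r : Fin m, r = i₀ ∨ r = i₁ ∨ 2 ≤ (r : ℕ) := by
    intro r
    rcases Nat.lt_or_ge (r : ℕ) 2 with h | h
    · rcases Nat.lt_or_ge (r : ℕ) 1 with h' | h'
      · left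
        apply Fin.ext
        omega
      · right
        left
        apply Fin.ext
        omega
    · right
      right
      exact h
  have hne01 : i₀ ≠ i₁ := ne_of_lt hi01
  refine ⟨B i₀ i₀, B i₁ i₀, (key i₀ i₁ hi01).2, ?_⟩
  rw [hzb, hA1, hD1]
  congr 1
  ext r s
  rw [Matrix.add_apply, Matrix.add_apply, Matrix.single_apply, Matrix.single_apply,
    Matrix.single_apply]
  rcases hcase r with hr | hr | hr
  · rw [hr]
    rcases hcase s with hs | hs | hs
    · rw [hs]
      simp [hne01.symm]
    · rw [hs]
      simp [hne01, hne01.symm, hBs i₀ i₁]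
    · have hs0 : i₀ ≠ s := by
        intro h
        rw [← h] at hs
        omega
      have hs1 : i₁ ≠ s := by
        intro h
        rw [← h] at hs
        omega
      rw [hBs i₀ s, hrow s hs i₀]
      simp [hs0, hs1]
  · rw [hr]
    rcases hcase s with hs | hs | hs
    · rw [hs]
      simp [hne01, hne01.symm]
    · rw [hs, (key i₀ i₁ hi01).1 i₁ hne01.symm]
      simp [hne01]
    · have hs0 : i₀ ≠ s := by
        intro h
        rw [← h] at hs
        omega
      have hs1 : i₁ ≠ s := by
        intro h
        rw [← h] at hs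
        omega
      rw [hBs i₁ s, hrow s hs i₁]
      simp [hs0, hs1]
  · have hr0 : i₀ ≠ r := by
      intro h
      rw [← h] at hr
      omega
    have hr1 : i₁ ≠ r := by
      intro h
      rw [← h] at hr
      omega
    rw [hrow r hr s]
    simp [hr0, hr1]

end Cfsg.Agent.Lib.Helper51.SpH1b
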