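import Mathlib

/-!
# Arithmetic for the involution centraliser orders in `Sp_2m(q)`, `q` even (helper51)
-/

set_option autoImplicit false

namespace Cfsg.Agent.Lib.Helper51.SpInvArith

open Finset

theorem prod_id (q m : ℕ) :
    ∀ s, s ≤ m → ∀ T, T + ∑ j ∈ range s, j = m ^ 2 →
      (∏ j ∈ range s, (q ^ (2 * m - j) - q ^ j)) * q ^ T *
          ∏ i ∈ range (m - s), (q ^ (2 * (i + 1)) - 1) =
        q ^ (m ^ 2) * ∏ i ∈ range m, (q ^ (2 * (i + 1)) - 1) := by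
  intro s
  induction s with
  | zero =>
    intro _ T hT
    rw [Finset.sum_range_zero, add_zero] at hT
    rw [Finset.prod_range_zero, one_mul, hT, Nat.sub_zero]
  | succ s ih =>
    intro hs T hT
    rw [Finset.sum_range_succ] at hT
    have h1 := ih (by omega) (T + s) (by omega)
    rw [← h1, Finset.prod_range_succ]
    obtain ⟨r, rfl⟩ := Nat.exists_eq_add_of_le hs
    have e1 : s + 1 + r - (s + 1) = r := by omega
    have e2 : s + 1 + r - s = r + 1 := by omega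
    have e3 : 2 * (s + 1 + r) - s = s + 2 * (r + 1) := by omega
    rw [e1, e2, e3, Finset.prod_range_succ, pow_add q s, pow_add q T]
    have e4 : q ^ s * q ^ (2 * (r + 1)) - q ^ s = q ^ s * (q ^ (2 * (r + 1)) - 1) := by
      rw [Nat.mul_sub, mul_one]
    rw [e4]
    ring

theorem prod_pos (q m : ℕ) (hq : 2 ≤ q) (s : ℕ) (hs : s ≤ m) :
    0 < ∏ j ∈ range s, (q ^ (2 * m - j) - q ^ j) := by
  apply Finset.prod_pos
  intro j hj
  rw [Finset.mem_range] at hj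
  exact Nat.sub_pos_of_lt (Nat.pow_lt_pow_right (by omega) (by omega))

theorem half (s : ℕ) : (3 * s ^ 2 - s) / 2 = s ^ 2 + ∑ j ∈ range s, j := by
  have hA := Finset.sum_range_id_mul_two s
  obtain ⟨A, hAdef⟩ : ∃ A, A = ∑ j ∈ range s, j := ⟨_, rfl⟩
  rw [← hAdef] at hA ⊢
  rcases s with _ | s
  · simp at hA ⊢
    omega
  · simp only [Nat.add_sub_cancel] at hA
    have h1 : 3 * (s + 1) ^ 2 = 2 * ((s + 1) ^ 2 + A) + (s + 1) := by nlinarith
    rw [h1, Nat.add_sub_cancel, Nat.mul_div_cancel_left _ (by norm_num : 0 < 2)]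

theorem sum_le (s : ℕ) : ∑ j ∈ range s, j ≤ s ^ 2 := by
  have hA := Finset.sum_range_id_mul_two s
  have : s * (s - 1) ≤ s * s := Nat.mul_le_mul_left s (Nat.sub_le s 1)
  nlinarith

theorem exp_id (m s : ℕ) (hs : s ≤ m) :
    2 * m * s - (3 * s ^ 2 - s) / 2 + (m - s) ^ 2 + ∑ j ∈ range s, j = m ^ 2 := by
  rw [half]
  have hle := sum_le s
  obtain ⟨A, hAdef⟩ : ∃ A, A = ∑ j ∈ range s, j := ⟨_, rfl⟩
  rw [← hAdef] at hle ⊢
  obtain ⟨r, rfl⟩ := Nat.exists_eq_add_of_le hs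
  have e1 : s + r - s = r := by omega
  rw [e1]
  have e2 : 2 * (s + r) * s = (s ^ 2 + A) + (s ^ 2 + 2 * r * s - A) := by
    have : 2 * (s + r) * s = s ^ 2 + (s ^ 2 + 2 * r * s) := by ring
    omega
  rw [e2, Nat.add_sub_cancel_left]
  have e3 : (s + r) ^ 2 = s ^ 2 + 2 * r * s + r ^ 2 := by ring
  omega

/-- The main cancellation. -/
theorem main (q m s : ℕ) (hq : 2 ≤ q) (hs : s ≤ m) (C O : ℕ)
    (h : C * ∏ j ∈ range s, (q ^ (2 * m - j) - q ^ j) =
      O * (q ^ (m ^ 2) * ∏ i ∈ range m, (q ^ (2 * (i + 1)) - 1))) :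
    C = q ^ (2 * m * s - (3 * s ^ 2 - s) / 2) * O *
      (q ^ ((m - s) ^ 2) * ∏ i ∈ range (m - s), (q ^ (2 * (i + 1)) - 1)) := by
  have hid := prod_id q m s hs
    (2 * m * s - (3 * s ^ 2 - s) / 2 + (m - s) ^ 2) (exp_id m s hs)
  rw [← hid] at h
  have hpos := prod_pos q m hq s hs
  apply Nat.eq_of_mul_eq_mul_right hpos
  rw [h, pow_add]
  ring

/-- The exponent for type `c_s`. -/
theorem exp_c (m s : ℕ) (hs : s ≤ m) (hs1 : 1 ≤ s) :
    2 * m * s - (3 * s ^ 2 - 3 * s) / 2 - 1 = 2 * m * s - (3 * s ^ 2 - s) / 2 + (s - 1) := by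
  have h1 := half s
  have hle := sum_le s
  obtain ⟨A, hAdef⟩ : ∃ A, A = ∑ j ∈ range s, j := ⟨_, rfl⟩
  rw [← hAdef] at h1 hle
  have hss : s ≤ s ^ 2 := by nlinarith
  have h2 : (3 * s ^ 2 - 3 * s) / 2 = s ^ 2 + A - s := by
    have h3 : 3 * s ^ 2 - s = 2 * (s ^ 2 + A) ∨ 3 * s ^ 2 - s = 2 * (s ^ 2 + A) + 1 := by omega
    have hA := Finset.sum_range_id_mul_two s
    rw [← hAdef] at hA
    have h4 : 3 * s ^ 2 - s = 2 * (s ^ 2 + A) := by
      rcases s with _ | s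
      · simp at hs1
      · simp only [Nat.add_sub_cancel] at hA
        have : 3 * (s + 1) ^ 2 = 2 * ((s + 1) ^ 2 + A) + (s + 1) := by nlinarith
        omega
    have h5 : 3 * s ^ 2 - 3 * s = 2 * (s ^ 2 + A - s) := by omega
    rw [h5, Nat.mul_div_cancel_left _ (by norm_num : 0 < 2)]
  rw [h1, h2]
  have h6 : s ^ 2 + A ≤ 2 * m * s := by
    have : s * s ≤ m * s := Nat.mul_le_mul_right s hs
    nlinarith
  omega

end Cfsg.Agent.Lib.Helper51.SpInvArith
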