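import Mathlib
import Cfsg.Agent.Lib.Helper71.SpK0

/-!
# S5664 job J10 (helper51 for helper71): `cfg2_transv`

In configuration (ii) the conjugates `g T_u(b) g⁻¹` act on `W^⊥` as `x ↦ x + f(x,z₀) d`.
-/

set_option autoImplicit false

namespace Cfsg.Agent.Lib.Helper51.SpKJ10

open Matrix Cfsg.Agent.Lib.Helper71.SpK Cfsg.Agent.Lib.Helper97

variable {ι : Type} [Fintype ι] [DecidableEq ι] {F : Type*} [Field F]
variable {f : (ι → F) → (ι → F) → F} {L : Type*} [Field L] [Algebra F L]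

theorem cfg2_transv (S : KS f L) [FiniteDimensional F L]
    (M : Subgroup (GL ι F)) (hNM : S.NG ≤ M)
    (hMf : ∀ g ∈ M, ∀ x y : ι → F,
      f ((g : Matrix ι ι F) *ᵥ x) ((g : Matrix ι ι F) *ᵥ y) = f x y)
    {u : ι → F} {g : GL ι F} (hcfg : S.Cfg2 M u g) :
    ∃ z₀ ∈ gim (S.line u) g, z₀ ∉ S.line u ∧
      ∀ d ∈ S.line u ⊓ gim (S.line u) g, ∃ γ ∈ M,
        (∀ x : ι → F, (γ : Matrix ι ι F) *ᵥ x - x ∈ gim (S.line u) g) ∧
        ∀ x : ι → F, S.B x u = 0 → (γ : Matrix ι ι F) *ᵥ x = x + f x z₀ • d := by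
  obtain ⟨hgM, hu, hperp, hfin⟩ := hcfg
  let ψ : L →ₗ[F] (ι → F) := (glE g).toLinearMap ∘ₗ S.actL u
  have hψinj : Function.Injective ψ := (glE g).injective.comp (S.actL_injective hu)
  let DK : Submodule F L := (S.line u).comap ψ
  have hDKmem : ∀ k, k ∈ DK ↔ (g : Matrix ι ι F) *ᵥ (S.φ k *ᵥ u) ∈ S.line u :=
    fun k => Iff.rfl
  have hmap : DK.map ψ = S.line u ⊓ gim (S.line u) g := by
    rw [Submodule.map_comap_eq, inf_comm]
    congr 1
    rw [LinearMap.range_comp]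
    rfl
  have hfinDK : Module.finrank F DK + 1 = Module.finrank F L := by
    rw [← hfin, ← hmap]
    congr 1
    exact (Submodule.equivMapOfInjective ψ hψinj DK).finrank_eq
  have hDKtop : DK ≠ ⊤ := by
    intro h
    rw [h, finrank_top] at hfinDK
    omega
  obtain ⟨k₀, hk₀⟩ : ∃ k₀, k₀ ∉ DK := by
    by_contra hcon
    push Not at hcon
    exact hDKtop (eq_top_iff.mpr fun k _ => hcon k)
  obtain ⟨μ, hμk₀, hμle⟩ := Submodule.exists_le_ker_of_notMem hk₀
  have hker : DK = LinearMap.ker μ := by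
    apply Submodule.eq_of_le_of_finrank_le hμle
    have hrn := LinearMap.finrank_range_add_finrank_ker μ
    have hr1 : Module.finrank F (LinearMap.range μ) = 1 := by
      have hsurj : Function.Surjective μ := fun t =>
        ⟨(t / μ k₀) • k₀, by rw [map_smul, smul_eq_mul, div_mul_cancel₀ _ hμk₀]⟩
      rw [LinearMap.range_eq_top.mpr hsurj, finrank_top, Module.finrank_self]
    omega
  obtain ⟨c', hc'⟩ := S.β_repr μ
  have hc'0 : c' ≠ 0 := by
    rintro rfl
    apply hμk₀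
    rw [hc', zero_mul, map_zero]
  have hdag : ∀ k, (g : Matrix ι ι F) *ᵥ (S.φ k *ᵥ u) ∈ S.line u ↔ S.β (c' * k) = 0 := by
    intro k
    rw [← hDKmem, hker, LinearMap.mem_ker, hc']
  obtain ⟨ct, hct⟩ := S.exists_β_eq hc'0 1
  refine ⟨(g : Matrix ι ι F) *ᵥ (S.φ ct *ᵥ u), mulVec_mem_gim g (S.act_mem_line ct u), ?_, ?_⟩
  · intro hz
    have h0 := (hdag ct).mp hz
    rw [mul_comm, hct] at h0
    exact one_ne_zero h0
  · have hkey : ∀ x : ι → F, S.B x u = 0 →
        S.B (((g⁻¹ : GL ι F) : Matrix ι ι F) *ᵥ x) u =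
          algebraMap F L (f x ((g : Matrix ι ι F) *ᵥ (S.φ ct *ᵥ u))) * c' := by
      intro x hx
      have hfg : ∀ k : L, S.β (k * S.B (((g⁻¹ : GL ι F) : Matrix ι ι F) *ᵥ x) u) =
          f x ((g : Matrix ι ι F) *ᵥ (S.φ k *ᵥ u)) := by
        intro k
        rw [← S.f_act_right, ← hMf g hgM, gl_mulVec_inv']
      have h1 : ∀ k : L, S.β (c' * k) = 0 →
          S.β (k * S.B (((g⁻¹ : GL ι F) : Matrix ι ι F) *ᵥ x) u) = 0 := by
        intro k hk
        rw [hfg]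
        obtain ⟨l, hl⟩ := S.mem_line.mp ((hdag k).mpr hk)
        rw [← hl, S.f_act_right, hx, mul_zero, map_zero]
      apply S.β_ext
      intro l
      have h2 := h1 (l - S.β (c' * l) • ct) (by
        rw [mul_sub, map_sub, mul_smul_comm, map_smul, smul_eq_mul, mul_comm c' ct, hct,
          mul_one, sub_self])
      rw [sub_mul, map_sub, smul_mul_assoc, map_smul, smul_eq_mul, sub_eq_zero, hfg ct] at h2
      rw [h2]
      have e : l * (algebraMap F L (f x ((g : Matrix ι ι F) *ᵥ (S.φ ct *ᵥ u))) * c') =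
          (f x ((g : Matrix ι ι F) *ᵥ (S.φ ct *ᵥ u))) • (c' * l) := by
        rw [Algebra.smul_def]
        ring
      rw [e, map_smul, smul_eq_mul, mul_comm]
    intro d hd
    have hgd : ((g⁻¹ : GL ι F) : Matrix ι ι F) *ᵥ d ∈ S.line u := mem_gim.mp hd.2
    obtain ⟨k, hk⟩ := S.mem_line.mp hgd
    refine ⟨g * S.T u (k * c'⁻¹) * g⁻¹,
      M.mul_mem (M.mul_mem hgM (hNM (S.T_mem_NG u _))) (M.inv_mem hgM), ?_, ?_⟩
    · intro x
      rw [gl_mul_mulVec, gl_mul_mulVec, S.T_mulVec, Matrix.mulVec_add, gl_mulVec_inv',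
        add_sub_cancel_left]
      exact mulVec_mem_gim g (S.act_mem_line _ u)
    · intro x hx
      rw [gl_mul_mulVec, gl_mul_mulVec, S.T_mulVec, Matrix.mulVec_add, gl_mulVec_inv',
        hkey x hx]
      congr 1
      have e2 : k * c'⁻¹ * (algebraMap F L (f x ((g : Matrix ι ι F) *ᵥ (S.φ ct *ᵥ u))) * c') =
          algebraMap F L (f x ((g : Matrix ι ι F) *ᵥ (S.φ ct *ᵥ u))) * k := by
        field_simp
      rw [e2, S.φ_mul_mulVec, S.φ_algebraMap_mulVec, hk, Matrix.mulVec_smul, gl_mulVec_inv']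

end Cfsg.Agent.Lib.Helper51.SpKJ10
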