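import Mathlib
import Cfsg.Agent.Lib.Helper51.SpFrames

/-!
# The orthogonal group of the dot product in characteristic two (helper51)

`|{b ∈ M_n(q) : b bᵀ = 1}|` for `q` even: `|Sp_{n-1}(q)|` for `n` odd and
`q^(n-1) |Sp_{n-2}(q)|` for `n` even.
-/

set_option autoImplicit false
set_option linter.unusedSectionVars false

namespace Cfsg.Agent.Lib.Helper51.SpOrth

open Matrix

section basics

variable {F : Type*} [Field F] [CharP F 2] {κ : Type*} [Fintype κ] [DecidableEq κ]

theorem sq_eq_imp {x y : F} (h : x * x = y * y) : x = y := by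
  have h2 : (x + y) * (x + y) = 0 := by
    have : (x + y) * (x + y) = x * x + y * y + (x * y + x * y) := by ring
    rw [this, CharTwo.add_self_eq_zero, add_zero, h, CharTwo.add_self_eq_zero]
  have h3 : x + y = 0 := mul_self_eq_zero.mp h2
  exact CharTwo.add_eq_zero.mp h3

theorem dot_self (v : κ → F) : v ⬝ᵥ v = (∑ i, v i) * (∑ i, v i) := by
  have : Fact (Nat.Prime 2) := ⟨Nat.prime_two⟩
  have h := sum_pow_char 2 (Finset.univ) v
  rw [← pow_two, h]
  exact Finset.sum_congr rfl (fun i _ => (pow_two _).symm)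

theorem dot_mulVec (b : Matrix κ κ F) (hb : bᵀ * b = 1) (u v : κ → F) :
    (b *ᵥ u) ⬝ᵥ (b *ᵥ v) = u ⬝ᵥ v := by
  rw [Matrix.dotProduct_mulVec, ← Matrix.mulVec_transpose, Matrix.mulVec_mulVec, hb,
    Matrix.one_mulVec]

theorem sum_mulVec (b : Matrix κ κ F) (hb : bᵀ * b = 1) (v : κ → F) :
    ∑ i, (b *ᵥ v) i = ∑ i, v i := by
  apply sq_eq_imp
  rw [← dot_self, ← dot_self, dot_mulVec b hb]

theorem mulVec_const_one (b : Matrix κ κ F) (hb : b * bᵀ = 1) :
    b *ᵥ (fun _ => (1 : F)) = fun _ => 1 := by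
  funext k
  have h := sum_mulVec bᵀ (by rw [Matrix.transpose_transpose]; exact hb) (Pi.single k 1)
  rw [Matrix.mulVec_single_one] at h
  simp only [Matrix.col_apply, Matrix.transpose_apply, Finset.sum_pi_single', Finset.mem_univ,
    if_true] at h
  simp only [Matrix.mulVec, dotProduct, mul_one]
  exact h

/-- The orthogonal transvection `1 + λ c cᵀ`. -/
def tau (c : κ → F) (lam : F) : Matrix κ κ F := 1 + lam • Matrix.vecMulVec c c

theorem tau_mulVec (c : κ → F) (lam : F) (x : κ → F) :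
    tau c lam *ᵥ x = x + (lam * (c ⬝ᵥ x)) • c := by
  rw [tau, Matrix.add_mulVec, Matrix.one_mulVec, Matrix.smul_mulVec, Matrix.vecMulVec_mulVec,
    op_smul_eq_smul, smul_smul]

theorem tau_transpose (c : κ → F) (lam : F) : (tau c lam)ᵀ = tau c lam := by
  rw [tau, Matrix.transpose_add, Matrix.transpose_one, Matrix.transpose_smul,
    Matrix.transpose_vecMulVec]

theorem tau_orth (c : κ → F) (lam : F) (hc : ∑ i, c i = 0) :
    tau c lam * (tau c lam)ᵀ = 1 := by
  rw [tau_transpose]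
  apply Matrix.mulVec_injective
  funext x
  rw [← Matrix.mulVec_mulVec, tau_mulVec, tau_mulVec, Matrix.one_mulVec, dotProduct_add,
    dotProduct_smul, dot_self, hc]
  funext i
  simp only [Pi.add_apply, Pi.smul_apply, smul_eq_mul, mul_zero, add_zero]
  rw [add_assoc, CharTwo.add_self_eq_zero, add_zero]

/-- Two unit vectors with `v ⬝ w ≠ 1` are swapped... mapped by one orthogonal transvection. -/
theorem exists_direct (v w : κ → F) (hv : ∑ i, v i = 1) (hw : ∑ i, w i = 1)
    (hvw : v ⬝ᵥ w ≠ 1) : ∃ b : Matrix κ κ F, b * bᵀ = 1 ∧ b *ᵥ v = w := by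
  have hne : 1 + v ⬝ᵥ w ≠ 0 := fun h => hvw (CharTwo.add_eq_zero.mp h).symm
  refine ⟨tau (v + w) (1 + v ⬝ᵥ w)⁻¹, tau_orth _ _ ?_, ?_⟩
  · rw [Finset.sum_congr rfl (fun i _ => Pi.add_apply v w i), Finset.sum_add_distrib, hv, hw,
      CharTwo.add_self_eq_zero]
  · rw [tau_mulVec, add_dotProduct, dot_self, hv, mul_one, dotProduct_comm w v,
      inv_mul_cancel₀ hne, one_smul]
    funext i
    simp only [Pi.add_apply]
    rw [← add_assoc, CharTwo.add_self_eq_zero, zero_add]

theorem exists_y (v : κ → F) (hv : ∃ i j, v i ≠ v j) :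
    ∃ y : κ → F, ∑ i, y i = 0 ∧ y ⬝ᵥ v ≠ 0 := by
  obtain ⟨i, j, hij⟩ := hv
  refine ⟨(Pi.single i (1 : F) : κ → F) + (Pi.single j (1 : F) : κ → F), ?_, ?_⟩
  · have h1 : ∑ k, ((Pi.single i (1 : F) : κ → F) + (Pi.single j (1 : F) : κ → F)) k = 1 + 1 := by
      simp [Finset.sum_add_distrib]
    rw [h1]
    exact CharTwo.add_self_eq_zero 1
  · rw [add_dotProduct, single_dotProduct, single_dotProduct, one_mul, one_mul]
    exact fun h => hij (CharTwo.add_eq_zero.mp h)

/-- The orthogonal group is transitive on non-constant unit vectors. -/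
theorem exists_trans (v w : κ → F) (hv : ∑ i, v i = 1) (hw : ∑ i, w i = 1)
    (hvc : ∃ i j, v i ≠ v j) (hwc : ∃ i j, w i ≠ w j) :
    ∃ b : Matrix κ κ F, b * bᵀ = 1 ∧ b *ᵥ v = w := by
  by_cases hvw : v ⬝ᵥ w = 1
  · obtain ⟨y₁, hy₁s, hy₁⟩ := exists_y v hvc
    obtain ⟨y₂, hy₂s, hy₂⟩ := exists_y w hwc
    obtain ⟨y, hys, hyv, hyw⟩ : ∃ y : κ → F, ∑ i, y i = 0 ∧ y ⬝ᵥ v ≠ 0 ∧ y ⬝ᵥ w ≠ 0 := by
      by_cases h1 : y₁ ⬝ᵥ w = 0
      · by_cases h2 : y₂ ⬝ᵥ v = 0
        · refine ⟨y₁ + y₂, ?_, ?_, ?_⟩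
          · rw [Finset.sum_congr rfl (fun k _ => Pi.add_apply y₁ y₂ k), Finset.sum_add_distrib,
              hy₁s, hy₂s, add_zero]
          · rw [add_dotProduct, h2, add_zero]
            exact hy₁
          · rw [add_dotProduct, h1, zero_add]
            exact hy₂
        · exact ⟨y₂, hy₂s, h2, hy₂⟩
      · exact ⟨y₁, hy₁s, hy₁, h1⟩
    have hz : ∑ i, (v + y) i = 1 := by
      rw [Finset.sum_congr rfl (fun k _ => Pi.add_apply v y k), Finset.sum_add_distrib, hv, hys,
        add_zero]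
    have hvz : v ⬝ᵥ (v + y) ≠ 1 := by
      rw [dotProduct_add, dot_self, hv, mul_one, dotProduct_comm v y]
      intro h
      exact hyv (by simpa using h)
    have hzw : (v + y) ⬝ᵥ w ≠ 1 := by
      rw [add_dotProduct, hvw]
      intro h
      exact hyw (by simpa using h)
    obtain ⟨b₁, hb₁, hb₁v⟩ := exists_direct v (v + y) hv hz hvz
    obtain ⟨b₂, hb₂, hb₂v⟩ := exists_direct (v + y) w hz hw hzw
    refine ⟨b₂ * b₁, ?_, ?_⟩
    · rw [Matrix.transpose_mul, Matrix.mul_assoc, ← Matrix.mul_assoc b₁, hb₁, Matrix.one_mul, hb₂]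
    · rw [← Matrix.mulVec_mulVec, hb₁v, hb₂v]
  · exact exists_direct v w hv hw hvw

theorem natCast_two (n : ℕ) : ((n : ℕ) : F) = if Odd n then 1 else 0 := by
  rcases Nat.even_or_odd' n with ⟨k, rfl | rfl⟩
  · rw [if_neg (by simp)]
    push_cast
    rw [CharTwo.two_eq_zero, zero_mul]
  · rw [if_pos (by simp)]
    push_cast
    rw [CharTwo.two_eq_zero, zero_mul, zero_add]

end basics

section recursion

variable {F : Type*} [Field F] [CharP F 2]

/-- The orthogonal group of the dot product, as a subgroup of `GL`. -/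
def OG (F : Type*) [Field F] (κ : Type*) [Fintype κ] [DecidableEq κ] : Subgroup (GL κ F) where
  carrier := {a | a.1 * a.1ᵀ = 1}
  mul_mem' := by
    intro a b ha hb
    show (a * b).1 * (a * b).1ᵀ = 1
    rw [Units.val_mul, Matrix.transpose_mul, Matrix.mul_assoc, ← Matrix.mul_assoc b.1]
    rw [show b.1 * b.1ᵀ = 1 from hb, Matrix.one_mul]
    exact ha
  one_mem' := by
    show (1 : GL κ F).1 * (1 : GL κ F).1ᵀ = 1
    simp
  inv_mem' := by
    intro a ha
    show (a⁻¹).1 * (a⁻¹).1ᵀ = 1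
    have ha' : a.1 * a.1ᵀ = 1 := ha
    have h1 : (a⁻¹).1 = a.1ᵀ := by
      have h2 : (a⁻¹).1 * (a.1 * a.1ᵀ) = (a⁻¹).1 := by rw [ha', Matrix.mul_one]
      rw [← Matrix.mul_assoc, ← Units.val_mul, inv_mul_cancel, Units.val_one, Matrix.one_mul] at h2
      exact h2.symm
    rw [h1, Matrix.transpose_transpose]
    exact mul_eq_one_comm.mp ha'

theorem card_OG (κ : Type*) [Fintype κ] [DecidableEq κ] :
    Nat.card (OG F κ) = Nat.card {b : Matrix κ κ F // b * bᵀ = 1} := by
  refine Nat.card_congr ?_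
  exact
    { toFun := fun a => ⟨a.1.1, a.2⟩
      invFun := fun b => ⟨⟨b.1, b.1ᵀ, b.2, mul_eq_one_comm.mp b.2⟩, b.2⟩
      left_inv := fun a => Subtype.ext (Units.ext rfl)
      right_inv := fun b => rfl }

theorem card_reindex {κ κ' : Type*} [Fintype κ] [DecidableEq κ] [Fintype κ'] [DecidableEq κ']
    (e : κ ≃ κ') :
    Nat.card {b : Matrix κ κ F // b * bᵀ = 1} = Nat.card {b : Matrix κ' κ' F // b * bᵀ = 1} := by
  refine Nat.card_congr ?_
  exact
    { toFun := fun b => ⟨Matrix.reindex e e b.1, by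
        rw [Matrix.reindex_apply, Matrix.transpose_submatrix, Matrix.submatrix_mul_equiv, b.2,
          Matrix.submatrix_one_equiv]⟩
      invFun := fun b => ⟨Matrix.reindex e.symm e.symm b.1, by
        rw [Matrix.reindex_apply, Matrix.transpose_submatrix, Matrix.submatrix_mul_equiv, b.2,
          Matrix.submatrix_one_equiv]⟩
      left_inv := fun b => Subtype.ext (by simp)
      right_inv := fun b => Subtype.ext (by simp) }

variable {ι : Type*} [Fintype ι] [DecidableEq ι]

theorem gl_mul (a b : GL ι F) (v : ι → F) : (a * b).1 *ᵥ v = a.1 *ᵥ (b.1 *ᵥ v) := by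
  rw [Units.val_mul, Matrix.mulVec_mulVec]

theorem gl_inv_mul (a : GL ι F) (v : ι → F) : (a⁻¹).1 *ᵥ (a.1 *ᵥ v) = v := by
  rw [← gl_mul, inv_mul_cancel, Units.val_one, Matrix.one_mulVec]

theorem gl_mul_inv (a : GL ι F) (v : ι → F) : a.1 *ᵥ ((a⁻¹).1 *ᵥ v) = v := by
  rw [← gl_mul, mul_inv_cancel, Units.val_one, Matrix.one_mulVec]

/-- The stabiliser of the last basis vector is the orthogonal group of one dimension less. -/
def stabEquiv : {A : Matrix (ι ⊕ Unit) (ι ⊕ Unit) F // A * Aᵀ = 1 ∧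
      A *ᵥ Pi.single (Sum.inr ()) 1 = Pi.single (Sum.inr ()) 1} ≃
    {b : Matrix ι ι F // b * bᵀ = 1} := by
  have key : ∀ A : Matrix (ι ⊕ Unit) (ι ⊕ Unit) F, A * Aᵀ = 1 →
      A *ᵥ Pi.single (Sum.inr ()) 1 = Pi.single (Sum.inr ()) 1 →
      A = Matrix.fromBlocks A.toBlocks₁₁ 0 0 1 := by
    intro A hA he
    have hcol : ∀ k, A k (Sum.inr ()) = (Pi.single (Sum.inr ()) 1 : ι ⊕ Unit → F) k := by
      intro k
      have := congrFun he k
      rw [Matrix.mulVec_single_one] at this
      exact this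
    have hA' : Aᵀ * A = 1 := mul_eq_one_comm.mp hA
    have he' : Aᵀ *ᵥ Pi.single (Sum.inr ()) 1 = Pi.single (Sum.inr ()) 1 := by
      conv_lhs => rw [← he]
      rw [Matrix.mulVec_mulVec, hA', Matrix.one_mulVec]
    have hrow : ∀ k, A (Sum.inr ()) k = (Pi.single (Sum.inr ()) 1 : ι ⊕ Unit → F) k := by
      intro k
      have := congrFun he' k
      rw [Matrix.mulVec_single_one] at this
      exact this
    conv_lhs => rw [← Matrix.fromBlocks_toBlocks A]
    congr 1
    · ext i u
      rcases u with ⟨⟩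
      simpa [Matrix.toBlocks₁₂] using hcol (Sum.inl i)
    · ext u j
      rcases u with ⟨⟩
      simpa [Matrix.toBlocks₂₁] using hrow (Sum.inl j)
    · ext u u'
      rcases u with ⟨⟩
      rcases u' with ⟨⟩
      simpa [Matrix.toBlocks₂₂] using hcol (Sum.inr ())
  exact
    { toFun := fun A => ⟨A.1.toBlocks₁₁, by
        have h := A.2.1
        rw [key A.1 A.2.1 A.2.2, Matrix.fromBlocks_transpose, Matrix.fromBlocks_multiply] at h
        simp only [Matrix.transpose_zero, Matrix.transpose_one, Matrix.mul_zero, Matrix.zero_mul,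
          add_zero, zero_add, Matrix.mul_one] at h
        have h1 : Matrix.fromBlocks (A.1.toBlocks₁₁ * A.1.toBlocks₁₁ᵀ) (0 : Matrix ι Unit F)
            (0 : Matrix Unit ι F) (1 : Matrix Unit Unit F) = Matrix.fromBlocks 1 0 0 1 := by
          rw [h, Matrix.fromBlocks_one]
        exact (Matrix.fromBlocks_inj.mp h1).1⟩
      invFun := fun b => ⟨Matrix.fromBlocks b.1 0 0 1, by
        rw [Matrix.fromBlocks_transpose, Matrix.fromBlocks_multiply]
        simp only [Matrix.transpose_zero, Matrix.transpose_one, Matrix.mul_zero, Matrix.zero_mul,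
          add_zero, zero_add, Matrix.mul_one, b.2, Matrix.fromBlocks_one], by
        rw [Matrix.mulVec_single_one]
        funext k
        rcases k with i | u
        · simp
        · simp⟩
      left_inv := fun A => Subtype.ext (key A.1 A.2.1 A.2.2).symm
      right_inv := fun b => Subtype.ext (by simp) }

end recursion

section count

variable {F : Type*} [Field F] [Fintype F] [CharP F 2] {ι : Type*} [Fintype ι] [DecidableEq ι]

theorem card_unit_vec :
    Nat.card {v : ι ⊕ Unit → F // ∑ i, v i = 1} = Fintype.card F ^ Fintype.card ι := by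
  have e : {v : ι ⊕ Unit → F // ∑ i, v i = 1} ≃ (ι → F) :=
    { toFun := fun v => fun i => v.1 (Sum.inl i)
      invFun := fun u => ⟨Sum.elim u (fun _ => 1 + ∑ i, u i), by
        rw [Fintype.sum_sum_type]
        simp only [Sum.elim_inl, Sum.elim_inr, Finset.univ_unique, Finset.sum_const,
          Finset.card_singleton, one_smul]
        rw [add_comm 1, ← add_assoc, CharTwo.add_self_eq_zero, zero_add]⟩
      left_inv := fun v => by
        obtain ⟨v, hv⟩ := v
        apply Subtype.ext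
        funext k
        rcases k with i | u
        · rfl
        · rcases u with ⟨⟩
          have h := hv
          rw [Fintype.sum_sum_type] at h
          simp only [Finset.univ_unique, Finset.sum_singleton] at h
          have h' : ∑ i, v (Sum.inl i) + v (Sum.inr ()) = 1 := h
          show 1 + ∑ i, v (Sum.inl i) = v (Sum.inr ())
          rw [← h', add_comm (∑ i, v (Sum.inl i)) _, add_assoc, CharTwo.add_self_eq_zero,
            add_zero]
      right_inv := fun u => rfl }
  rw [Nat.card_congr e, Nat.card_eq_fintype_card, Fintype.card_fun]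

theorem card_U :
    Nat.card {v : ι ⊕ Unit → F // ∑ i, v i = 1 ∧ ∃ i j, v i ≠ v j} =
      Fintype.card F ^ Fintype.card ι - (if Odd (Fintype.card ι + 1) then 1 else 0) := by
  classical
  obtain ⟨A, hAdef⟩ : ∃ A : Set (ι ⊕ Unit → F), A = {v | ∑ i, v i = 1} := ⟨_, rfl⟩
  obtain ⟨Bc, hBdef⟩ : ∃ Bc : Set (ι ⊕ Unit → F),
    Bc = {v | ∑ i, v i = 1 ∧ ∀ i j, v i = v j} := ⟨_, rfl⟩
  have hsub : Bc ⊆ A := by
    intro v hv
    rw [hBdef] at hv
    rw [hAdef]
    exact hv.1
  have h1 : Nat.card {v : ι ⊕ Unit → F // ∑ i, v i = 1 ∧ ∃ i j, v i ≠ v j} =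
      Nat.card ↥(A \ Bc) := by
    refine Nat.card_congr (Equiv.subtypeEquivRight (fun v => ?_))
    rw [hAdef, hBdef]
    constructor
    · rintro ⟨h, i, j, hij⟩
      exact ⟨h, fun hB => hij (hB.2 i j)⟩
    · rintro ⟨h, hnB⟩
      refine ⟨h, ?_⟩
      by_contra hcon
      push Not at hcon
      exact hnB ⟨h, hcon⟩
  rw [h1, Nat.card_coe_set_eq, Set.ncard_sdiff hsub, ← Nat.card_coe_set_eq, ← Nat.card_coe_set_eq]
  have hA : Nat.card ↥A = Fintype.card F ^ Fintype.card ι := by
    rw [hAdef]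
    exact card_unit_vec
  have hsum : ∀ α : F, ∑ _i : ι ⊕ Unit, α = (if Odd (Fintype.card ι + 1) then 1 else 0) * α := by
    intro α
    rw [Finset.sum_const, Finset.card_univ, Fintype.card_sum, Fintype.card_unit, nsmul_eq_mul,
      natCast_two]
  have hB : Nat.card ↥Bc = if Odd (Fintype.card ι + 1) then 1 else 0 := by
    rw [hBdef]
    by_cases hodd : Odd (Fintype.card ι + 1)
    · rw [if_pos hodd, Nat.card_eq_one_iff_unique]
      have key : ∀ u : ι ⊕ Unit → F, ∑ i, u i = 1 → (∀ i j, u i = u j) → u = fun _ => 1 := by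
        intro u hu hcu
        have hu' : u = fun _ => u (Sum.inr ()) := funext fun k => hcu k _
        rw [hu'] at hu
        rw [hsum, if_pos hodd, one_mul] at hu
        rw [hu', hu]
      constructor
      · constructor
        rintro ⟨v, hv, hc⟩ ⟨v', hv', hc'⟩
        apply Subtype.ext
        show v = v'
        rw [key v hv hc, key v' hv' hc']
      · refine ⟨⟨fun _ => 1, ?_, fun _ _ => rfl⟩⟩
        rw [hsum, if_pos hodd, one_mul]
    · rw [if_neg hodd]
      have : IsEmpty ↥{v : ι ⊕ Unit → F | ∑ i, v i = 1 ∧ ∀ i j, v i = v j} := by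
        constructor
        rintro ⟨v, hv, hc⟩
        have hv' : v = fun _ => v (Sum.inr ()) := funext fun k => hc k _
        rw [hv', hsum, if_neg hodd, zero_mul] at hv
        exact zero_ne_one hv
      exact Nat.card_of_isEmpty
  rw [hA, hB]

theorem card_succ [Nonempty ι] :
    Nat.card {b : Matrix (ι ⊕ Unit) (ι ⊕ Unit) F // b * bᵀ = 1} =
      (Fintype.card F ^ Fintype.card ι - (if Odd (Fintype.card ι + 1) then 1 else 0)) *
        Nat.card {b : Matrix ι ι F // b * bᵀ = 1} := by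
  classical
  rw [← card_OG (F := F) (ι ⊕ Unit), ← card_U]
  have hsum_e : ∑ k, (Pi.single (Sum.inr ()) (1 : F) : ι ⊕ Unit → F) k = 1 := by simp
  have hcard := Cfsg.Agent.Lib.Helper51.SpFrames.card_fiber_prod (G := OG F (ι ⊕ Unit))
    (fun a => a.1.1 *ᵥ (Pi.single (Sum.inr ()) (1 : F) : ι ⊕ Unit → F))
    {a | a.1.1 *ᵥ (Pi.single (Sum.inr ()) (1 : F) : ι ⊕ Unit → F) = Pi.single (Sum.inr ()) 1} ?_
  · rw [hcard]
    congr 1
    · have hrange : Set.range (fun a : OG F (ι ⊕ Unit) =>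
            a.1.1 *ᵥ (Pi.single (Sum.inr ()) (1 : F) : ι ⊕ Unit → F)) =
          {v | ∑ i, v i = 1 ∧ ∃ i j, v i ≠ v j} := by
        ext v
        constructor
        · rintro ⟨a, rfl⟩
          have ha : a.1.1 * a.1.1ᵀ = 1 := a.2
          have ha' : a.1.1ᵀ * a.1.1 = 1 := mul_eq_one_comm.mp ha
          refine ⟨?_, ?_⟩
          · rw [sum_mulVec _ ha']
            exact hsum_e
          · by_contra hcon
            push Not at hcon
            have h1 : a.1.1 *ᵥ (Pi.single (Sum.inr ()) (1 : F) : ι ⊕ Unit → F) =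
                (a.1.1 *ᵥ (Pi.single (Sum.inr ()) (1 : F) : ι ⊕ Unit → F)) (Sum.inr ()) •
                  (fun _ => (1 : F)) := by
              funext k
              rw [Pi.smul_apply, smul_eq_mul, mul_one]
              exact hcon k (Sum.inr ())
            have h2 := congrArg (fun z => a.1.1ᵀ *ᵥ z) h1
            simp only [Matrix.mulVec_mulVec, ha', Matrix.one_mulVec, Matrix.mulVec_smul] at h2
            rw [mulVec_const_one a.1.1ᵀ (by rw [Matrix.transpose_transpose]; exact ha')] at h2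
            obtain ⟨i₀⟩ := ‹Nonempty ι›
            have h3 := congrFun h2 (Sum.inl i₀)
            have h4 := congrFun h2 (Sum.inr ())
            simp only [Pi.smul_apply, smul_eq_mul, mul_one, Pi.single_eq_same] at h3 h4
            rw [← h4] at h3
            simp at h3
        · rintro ⟨hv, hvc⟩
          obtain ⟨b, hb, hbv⟩ := exists_trans
            (Pi.single (Sum.inr ()) (1 : F) : ι ⊕ Unit → F) v hsum_e hv
            ⟨Sum.inl (Classical.arbitrary ι), Sum.inr (), by simp⟩ hvc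
          exact ⟨⟨⟨b, bᵀ, hb, mul_eq_one_comm.mp hb⟩, hb⟩, hbv⟩
      rw [hrange]
      rfl
    · rw [← Nat.card_congr (stabEquiv (F := F) (ι := ι))]
      refine Nat.card_congr ?_
      exact
        { toFun := fun k => ⟨k.1.1.1, k.1.2, k.2⟩
          invFun := fun A => ⟨⟨⟨A.1, A.1ᵀ, A.2.1, mul_eq_one_comm.mp A.2.1⟩, A.2.1⟩, A.2.2⟩
          left_inv := fun k => Subtype.ext (Subtype.ext (Units.ext rfl))
          right_inv := fun A => rfl }
  · intro a b
    constructor
    · intro hab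
      show (a.1⁻¹ * b.1).1 *ᵥ (Pi.single (Sum.inr ()) (1 : F) : ι ⊕ Unit → F) = _
      rw [gl_mul, ← hab, gl_inv_mul]
    · intro hK
      have h1 : (a.1⁻¹ * b.1).1 *ᵥ (Pi.single (Sum.inr ()) (1 : F) : ι ⊕ Unit → F) =
          Pi.single (Sum.inr ()) 1 := hK
      rw [gl_mul] at h1
      have h2 := congrArg (fun z => a.1.1 *ᵥ z) h1
      simp only [gl_mul_inv] at h2
      exact h2.symm

theorem card_one : Nat.card {b : Matrix (Fin 1) (Fin 1) F // b * bᵀ = 1} = 1 := by
  rw [Nat.card_eq_one_iff_unique]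
  have key : ∀ c : Matrix (Fin 1) (Fin 1) F, c * cᵀ = 1 → c = 1 := by
    intro c hc
    ext i j
    have hi : i = 0 := Subsingleton.elim _ _
    have hj : j = 0 := Subsingleton.elim _ _
    subst hi hj
    have h := congrFun (congrFun hc 0) 0
    simp only [Matrix.mul_apply, Finset.univ_unique, Fin.default_eq_zero, Finset.sum_singleton,
      Matrix.transpose_apply, Matrix.one_apply_eq] at h
    rw [Matrix.one_apply_eq]
    exact sq_eq_imp (by rw [h, one_mul])
  refine ⟨⟨fun b b' => Subtype.ext ?_⟩, ⟨⟨1, by simp⟩⟩⟩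
  rw [key b.1 b.2, key b'.1 b'.2]

theorem card_fin_succ (n : ℕ) (hn : 1 ≤ n) :
    Nat.card {b : Matrix (Fin (n + 1)) (Fin (n + 1)) F // b * bᵀ = 1} =
      (Fintype.card F ^ n - (if Odd (n + 1) then 1 else 0)) *
        Nat.card {b : Matrix (Fin n) (Fin n) F // b * bᵀ = 1} := by
  have : Nonempty (Fin n) := ⟨⟨0, hn⟩⟩
  have e : Fin n ⊕ Unit ≃ Fin (n + 1) := Fintype.equivOfCardEq (by simp)
  rw [← card_reindex e, card_succ, Fintype.card_fin]

/-- Odd dimension: `|O_{2k+1}(q)| = |Sp_{2k}(q)|`. -/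
theorem card_odd (k : ℕ) :
    Nat.card {b : Matrix (Fin (2 * k + 1)) (Fin (2 * k + 1)) F // b * bᵀ = 1} =
      Fintype.card F ^ (k ^ 2) * ∏ i ∈ Finset.range k, (Fintype.card F ^ (2 * (i + 1)) - 1) := by
  induction k with
  | zero => simpa using card_one (F := F)
  | succ k ih =>
    have h1 := card_fin_succ (F := F) (2 * k + 1) (by omega)
    have h2 := card_fin_succ (F := F) (2 * k + 2) (by omega)
    rw [if_neg (by rw [Nat.not_odd_iff_even]; exact ⟨k + 1, by ring⟩)] at h1
    rw [if_pos ⟨k + 1, by ring⟩] at h2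
    show Nat.card {b : Matrix (Fin (2 * k + 2 + 1)) (Fin (2 * k + 2 + 1)) F // b * bᵀ = 1} = _
    rw [h2, h1, ih, Finset.prod_range_succ]
    have e1 : 2 * (k + 1) = 2 * k + 2 := by ring
    have e2 : (k + 1) ^ 2 = k ^ 2 + (2 * k + 1) := by ring
    rw [e1, e2, pow_add, Nat.sub_zero]
    ring

/-- Even dimension: `|O_{2k+2}(q)| = q^(2k+1) |Sp_{2k}(q)|`. -/
theorem card_even (k : ℕ) :
    Nat.card {b : Matrix (Fin (2 * k + 2)) (Fin (2 * k + 2)) F // b * bᵀ = 1} =
      Fintype.card F ^ (2 * k + 1) *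
        (Fintype.card F ^ (k ^ 2) * ∏ i ∈ Finset.range k, (Fintype.card F ^ (2 * (i + 1)) - 1)) := by
  have h1 := card_fin_succ (F := F) (2 * k + 1) (by omega)
  rw [if_neg (by rw [Nat.not_odd_iff_even]; exact ⟨k + 1, by ring⟩)] at h1
  rw [h1, card_odd, Nat.sub_zero]

end count

end Cfsg.Agent.Lib.Helper51.SpOrth
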