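import Cfsg.Agent.Lib.Helper98.T73Defs
import Cfsg.Agent.Lib.Helper98.O72Pow
import Cfsg.Agent.S5955

/-!
# Project T73 (S5973, architect helper98), piece RTIEVEN (helper51)

`i = ord_r(q)` even: invariant totally isotropic subspaces of `[V, g]` of dimension `i * b`.
Bridge from the function-level setting (`IsQuad Q B`) to the `LinearMap.BilinForm` libraries:
the alternating twin (`Cfsg.Agent.S5955.exists_ti_inv_even`) in characteristic 2 and the
symmetric twin (`Cfsg.Agent.Lib.Helper98.O72.exists_ti_inv_even`) in odd characteristic.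
-/

set_option autoImplicit false

namespace Cfsg.Agent.Lib.Helper98.T73

open Cfsg.Agent.Lib.Helper47 Module Polynomial

universe u

variable {F : Type u} [Field F] [Fintype F] {V : Type u} [AddCommGroup V] [Module F V]
  [FiniteDimensional F V] {Q : V → F} {B : V → V → F}

omit [Fintype F] [FiniteDimensional F V] in
/-- The bridge: the polar form as a `LinearMap.BilinForm`, with its properties. -/
theorem rtieven_bridge (hQ : IsQuad Q B) (hnd : Nondeg B) (g : Module.End F V) (hgQ : QI Q g) :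
    ∃ B' : LinearMap.BilinForm F V, (∀ x y, B' x y = B x y) ∧
      LinearMap.BilinForm.IsSymm B' ∧ ((2 : F) = 0 → LinearMap.BilinForm.IsAlt B') ∧
      Cfsg.Agent.Lib.Helper96.Sp.ND B' ⊤ ∧ Cfsg.Agent.Lib.Helper96.Sp.Isom B' g := by
  refine ⟨LinearMap.mk₂ F B hQ.form.add_left (fun c x y => hQ.form.smul_left c x y)
    (fun x y z => hQ.form.add_right x y z) (fun c x y => hQ.form.smul_right c x y),
    fun x y => rfl, ⟨fun x y => ?_⟩, fun h2 x => ?_,
    fun u _ h => hnd u (fun y => h y Submodule.mem_top), fun x y => ?_⟩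
  · show B x y = B y x
    exact sym_comm hQ.form y x
  · show B x x = 0
    rw [hQ.self, h2, zero_mul]
  · show B (g x) (g y) = B x y
    exact hQ.isometry hQ g hgQ x y

/-- RTIEVEN -/
theorem rti_even (hQ : IsQuad Q B) (hnd : Nondeg B) (p : ℕ) [Fact p.Prime] [CharP F p]
    (r : ℕ) (hr : r.Prime) (hr2 : r ≠ 2) (hrp : r ≠ p) (g : Module.End F V) (hgQ : QI Q g)
    (hg : g ^ r = 1) (heven : Even (orderOf ((Fintype.card F : ℕ) : ZMod r))) (b : ℕ)
    (hb : b ≠ 0 → (r - 1) + 2 * (orderOf ((Fintype.card F : ℕ) : ZMod r) * b)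
      ≤ finrank F (LinearMap.range (g - 1)) + orderOf ((Fintype.card F : ℕ) : ZMod r)) :
    ∃ U : Submodule F V, U ≤ LinearMap.range (g - 1) ∧ U.map g ≤ U ∧
      (∀ x ∈ U, ∀ y ∈ U, B x y = 0) ∧
      finrank F U = orderOf ((Fintype.card F : ℕ) : ZMod r) * b := by
  have : Fact r.Prime := ⟨hr⟩
  have hp : p.Prime := Fact.out
  obtain ⟨B', hB', hS, hA, hN, hT⟩ := rtieven_bridge hQ hnd g hgQ
  have hrq : ¬ r ∣ Fintype.card F := by
    obtain ⟨n, -, hn⟩ := FiniteField.card F p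
    rw [hn]
    intro h
    exact hrp ((Nat.prime_dvd_prime_iff_eq hr hp).mp (hr.dvd_of_dvd_pow h))
  have hr0 : (r : F) ≠ 0 := by
    intro h
    rw [CharP.cast_eq_zero_iff F p] at h
    exact hrp ((Nat.prime_dvd_prime_iff_eq hp hr).mp h).symm
  have hi1 : 1 ≤ orderOf ((Fintype.card F : ℕ) : ZMod r) := by
    have hne : ((Fintype.card F : ℕ) : ZMod r) ≠ 0 := by
      intro h
      exact hrq ((ZMod.natCast_eq_zero_iff _ _).mp h)
    have hdvd := ZMod.orderOf_dvd_card_sub_one hne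
    have hr1 : r - 1 ≠ 0 := by
      have := hr.two_le
      omega
    refine Nat.pos_of_ne_zero (fun h0 => hr1 ?_)
    rw [h0] at hdvd
    exact Nat.eq_zero_of_zero_dvd hdvd
  have key : ∃ Q' U : Submodule F V, Q' ≤ LinearMap.range (g - 1) ∧
      Cfsg.Agent.Lib.Helper96.Sp.ND B' Q' ∧ Q'.map g ≤ Q' ∧
      finrank F Q' = 2 * (orderOf ((Fintype.card F : ℕ) : ZMod r) * b) ∧ U ≤ Q' ∧
      U.map g ≤ U ∧ Cfsg.Agent.Lib.Helper96.Sp.Orth B' U U ∧
      finrank F U = orderOf ((Fintype.card F : ℕ) : ZMod r) * b := by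
    by_cases h2 : (2 : F) = 0
    · exact Cfsg.Agent.S5955.exists_ti_inv_even (hA h2) hN g hT r hr2 hrq hr0 hg heven hi1 b hb
    · exact Cfsg.Agent.Lib.Helper98.O72.exists_ti_inv_even hS h2 hN g hT r hr2 hrq hr0 hg heven
        hi1 b hb
  obtain ⟨Q', U, hQR, -, -, -, hUQ, hUg, hUti, hUfin⟩ := key
  refine ⟨U, hUQ.trans hQR, hUg, fun x hx y hy => ?_, hUfin⟩
  rw [← hB']
  exact hUti x hx y hy

end Cfsg.Agent.Lib.Helper98.T73
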